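import Mathlib
import Cfsg.Prelude.Def_Spor_Conway

/-!
# Rational groups of degree 23: definitions and the pieces of the proof

Lattices are `ℤ`-submodules of a rational vector space with a positive definite form.
-/

set_option autoImplicit false

namespace Cfsg.Agent.H80.F23

open Module

universe u

section lat

variable {W : Type*} [AddCommGroup W] [Module ℚ W]

/-- A symmetric positive definite form. -/
structure PD (B : LinearMap.BilinForm ℚ W) : Prop where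
  symm : ∀ x y, B x y = B y x
  pos : ∀ x, x ≠ 0 → 0 < B x x

/-- The dual lattice. -/
def dual (B : LinearMap.BilinForm ℚ W) (L : Submodule ℤ W) : Submodule ℤ W := B.dualSubmodule L

theorem mem_dual {B : LinearMap.BilinForm ℚ W} {L : Submodule ℤ W} {x : W} :
    x ∈ dual B L ↔ ∀ y ∈ L, ∃ k : ℤ, B x y = k := by
  simp [dual, LinearMap.BilinForm.mem_dualSubmodule, Submodule.mem_one, eq_comm]

/-- An integral lattice. -/
structure IntLat (B : LinearMap.BilinForm ℚ W) (L : Submodule ℤ W) : Prop where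
  fg : L.FG
  int : ∀ x ∈ L, ∀ y ∈ L, ∃ k : ℤ, B x y = k

/-- An even lattice. -/
structure EvLat (B : LinearMap.BilinForm ℚ W) (L : Submodule ℤ W) : Prop extends IntLat B L where
  even : ∀ x ∈ L, ∃ k : ℤ, B x x = 2 * k

/-- The lattice spans the space. -/
def Full (L : Submodule ℤ W) : Prop := Submodule.span ℚ (L : Set W) = ⊤

/-- The norm `1 + g + ⋯ + g ^ 22`. -/
def nm (g : End ℚ W) : End ℚ W := ∑ i ∈ Finset.range 23, g ^ i

/-- An isometry with `g ^ 23 = 1`. -/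
structure Iso23 (B : LinearMap.BilinForm ℚ W) (g : End ℚ W) : Prop where
  iso : ∀ x y, B (g x) (g y) = B x y
  pow : g ^ 23 = 1

end lat

/-- The rank of an even unimodular lattice is divisible by `8`. -/
def EU8 : Prop := ∀ (W : Type) [AddCommGroup W] [Module ℚ W] [FiniteDimensional ℚ W]
  (B : LinearMap.BilinForm ℚ W) (L : Submodule ℤ W), PD B → EvLat B L → dual B L ≤ L → 8 ∣ finrank ℚ W

/-- An even unimodular lattice of rank `24` without roots is the Leech lattice. -/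
def EU24 : Prop := ∀ (W : Type) [AddCommGroup W] [Module ℚ W] [FiniteDimensional ℚ W]
  (B : LinearMap.BilinForm ℚ W) (L : Submodule ℤ W), PD B → EvLat B L → dual B L ≤ L →
  finrank ℚ W = 24 → (∀ x ∈ L, B x x ≠ 2) →
  ∃ f : L ≃+ leechLattice, ∀ x : L, (sqNorm (f x : GolayPt → ℤ) : ℚ) = 8 * B x x

/-- Elements of order `23` of `Co0`. -/
def LE : Prop := ∀ γ : Co0, orderOf γ = 23 →
  (∃ y : leechLattice, sqNorm (y : GolayPt → ℤ) = 32 ∧ ∑ i ∈ Finset.range 23, (γ ^ i) • y = 0) ∧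
  ∃ y : leechLattice, sqNorm (y : GolayPt → ℤ) = 32 ∧
    ∑ i ∈ Finset.range 23, dotInt (y : GolayPt → ℤ) ((γ ^ i) • y : leechLattice) = 384

/-- An isometry of order `23` acts trivially on a small `q`-part of a discriminant group. -/
def EtaStmt : Prop := ∀ (W : Type) [AddCommGroup W] [Module ℚ W] (B : LinearMap.BilinForm ℚ W)
  (g : End ℚ W) (L T : Submodule ℤ W) (q : ℕ), PD B → Iso23 B g → q.Prime → q < 23 → L ≤ T →
  T ≤ dual B L → (∀ y ∈ T, (q : ℤ) • y ∈ L) → (∀ x ∈ L, g x ∈ L) → (∀ y ∈ T, g y ∈ T) →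
  T ⊓ dual B T ≤ L → L.toAddSubgroup.relIndex T.toAddSubgroup ≠ 0 →
  L.toAddSubgroup.relIndex T.toAddSubgroup ≤ q ^ 11 → ∀ y ∈ T, g y - y ∈ L

/-- The space. -/
abbrev V : Type := Fin 23 → ℚ

section grp

variable {G : Type u} [Group G] (ρ : Representation ℚ G V)

/-- Irreducibility. -/
def Irr : Prop := ∀ W : Submodule ℚ V, (∀ h, ∀ w ∈ W, ρ h w ∈ W) → W = ⊥ ∨ W = ⊤

/-- An invariant lattice. -/
def LInv (L : Submodule ℤ V) : Prop := ∀ h, ∀ x ∈ L, ρ h x ∈ L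

/-- The group with an invariant form and an element of order `23`. -/
structure Set0 (B : LinearMap.BilinForm ℚ V) (g : G) : Prop where
  inj : Function.Injective ρ
  irr : Irr ρ
  pd : PD B
  inv : ∀ h x y, B (ρ h x) (ρ h y) = B x y
  ord : orderOf g = 23
  fix : ∃ w₀ : V, w₀ ≠ 0 ∧ ∀ x, ρ g x = x ↔ ∃ c : ℚ, x = c • w₀

/-- The orthogonality relations, `m = |G| / 23`. -/
def Design [Fintype G] (m : ℕ) : Prop := ∀ B : LinearMap.BilinForm ℚ V,
  (∀ h x y, B (ρ h x) (ρ h y) = B x y) → ∀ x y z, ∑ h, B x (ρ h y) • ρ h z = (m * B z y) • x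

/-- An invariant lattice of minimal determinant. -/
structure MinLat (B : LinearMap.BilinForm ℚ V) (g : G) (L : Submodule ℤ V) (e : ℕ) : Prop where
  set : Set0 ρ B g
  lat : IntLat B L
  full : Full L
  linv : LInv ρ L
  sqf : Squarefree e
  ndvd : ¬ 23 ∣ e
  exp : ∀ y ∈ dual B L, (e : ℤ) • y ∈ L
  triv : ∀ y ∈ dual B L, ρ g y - y ∈ L

/-- The even invariant lattice `L = M ⊕ ℤ x`, `M = L ∩ ker N`, `w = N x` of norm `23 d`,
`L^# = L + ℤ w / d`. -/
structure Dat (B : LinearMap.BilinForm ℚ V) (g : G) (L : Submodule ℤ V) (x : V) (d : ℤ) : Prop where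
  set : Set0 ρ B g
  lat : EvLat B L
  linv : LInv ρ L
  mem : x ∈ L
  val : B (nm (ρ g) x) x = d
  pos : 0 < d
  two : 2 ∣ d
  eight : ¬ 8 ∣ d
  nine : ¬ 9 ∣ d
  ndvd : ¬ 23 ∣ d
  gen : ∀ y ∈ L, ∃ k : ℤ, nm (ρ g) y = k • nm (ρ g) x
  dual : ∀ y ∈ dual B L, ∃ k : ℤ, y - (k / d : ℚ) • nm (ρ g) x ∈ L

end grp

/-- A subgroup of index `23` or `24`. -/
def Idx (G : Type u) [Group G] : Prop := ∃ H : Subgroup G, H.index = 23 ∨ H.index = 24

/-- The conclusion. -/
def Concl (G : Type u) [Group G] : Prop :=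
  (∃ f : G →* Multiplicative (ZMod 2) × Spor.Co2, Function.Injective f) ∨
    ∃ f : G →* Multiplicative (ZMod 2) × Spor.Co3, Function.Injective f

/-- Representation theory. -/
def RepStmt : Prop := ∀ (G : Type u) [Group G] [Fintype G] (ρ : Representation ℚ G V),
  Function.Injective ρ → Irr ρ → ∃ (B : LinearMap.BilinForm ℚ V) (g : G) (m : ℕ) (L : Submodule ℤ V),
    Set0 ρ B g ∧ Design ρ m ∧ (∀ q : ℕ, q.Prime → q ∣ m → q < 23) ∧ IntLat B L ∧ Full L ∧ LInv ρ L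

/-- The lattice of minimal determinant. -/
def MinStmt : Prop := ∀ (G : Type u) [Group G] [Fintype G] (ρ : Representation ℚ G V)
  (B : LinearMap.BilinForm ℚ V) (g : G) (m : ℕ) (L : Submodule ℤ V), Set0 ρ B g → Design ρ m →
  (∀ q : ℕ, q.Prime → q ∣ m → q < 23) → IntLat B L → Full L → LInv ρ L →
  ∃ B' L' e, MinLat ρ B' g L' e

/-- The structure of the even sublattice. -/
def DatStmt : Prop := ∀ (G : Type u) [Group G] (ρ : Representation ℚ G V)
  (B : LinearMap.BilinForm ℚ V) (g : G) (L : Submodule ℤ V) (e : ℕ), MinLat ρ B g L e →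
  ∃ L' x d, Dat ρ B g L' x d

/-- A root gives a subgroup of index `23` or `24`. -/
def RootStmt : Prop := ∀ (G : Type u) [Group G] [Finite G] (ρ : Representation ℚ G V)
  (B : LinearMap.BilinForm ℚ V) (g : G) (L : Submodule ℤ V), Set0 ρ B g → IntLat B L → LInv ρ L →
  (∃ r ∈ L, B r r = 2) → Idx G

/-- The determinant. -/
def BoundStmt : Prop := ∀ (G : Type u) [Group G] (ρ : Representation ℚ G V)
  (B : LinearMap.BilinForm ℚ V) (g : G) (L : Submodule ℤ V) (x : V) (d : ℤ), Dat ρ B g L x d →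
  (∀ r ∈ L, B r r ≠ 2) → d = 4 ∨ d = 6 ∨ d = 12 ∨ d = 26

/-- The embedding in the Leech lattice. -/
def EndStmt : Prop := ∀ (G : Type u) [Group G] [Finite G] (ρ : Representation ℚ G V)
  (B : LinearMap.BilinForm ℚ V) (g : G) (L : Submodule ℤ V) (x : V) (d : ℤ), Dat ρ B g L x d →
  (∀ r ∈ L, B r r ≠ 2) → d = 4 ∨ d = 6 ∨ d = 12 ∨ d = 26 → Idx G ∨ Concl G

theorem main (h1 : RepStmt.{u}) (h2 : MinStmt.{u}) (h3 : DatStmt.{u}) (h4 : RootStmt.{u})
    (h5 : BoundStmt.{u}) (h6 : EndStmt.{u}) {G : Type u} [Group G] [Finite G]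
    (ρ : G →* GL (Fin 23) ℚ) (hρ : Function.Injective ρ)
    (hirr : ∀ W : Submodule ℚ (Fin 23 → ℚ), (∀ g : G, ∀ w ∈ W,
      ((ρ g : GL (Fin 23) ℚ) : Matrix (Fin 23) (Fin 23) ℚ).mulVec w ∈ W) → W = ⊥ ∨ W = ⊤)
    (hidx : ∀ H : Subgroup G, H.index ≠ 23 ∧ H.index ≠ 24) : Concl G := by
  have := Fintype.ofFinite G
  have h0 : ¬ Idx G := fun ⟨H, h⟩ => h.elim (hidx H).1 (hidx H).2
  let σ : Representation ℚ G V :=
    (Matrix.toLinAlgEquiv' (R := ℚ) (n := Fin 23)).toMulEquiv.toMonoidHom.comp ((Units.coeHom _).comp ρ)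
  obtain ⟨B, g, m, L, k1, k2, k3, k4, k5, k6⟩ := h1 G σ
    (fun a b h => hρ (Units.ext ((Matrix.toLinAlgEquiv' (R := ℚ) (n := Fin 23)).injective h))) hirr
  obtain ⟨B, L, e, k⟩ := h2 G σ B g m L k1 k2 k3 k4 k5 k6
  obtain ⟨L, x, d, k⟩ := h3 G σ B g L e k
  have hr : ∀ r ∈ L, B r r ≠ 2 := fun r h e => h0 (h4 G σ B g L k.set k.lat.toIntLat k.linv ⟨r, h, e⟩)
  exact (h6 G σ B g L x d k hr (h5 G σ B g L x d k hr)).resolve_left h0

end Cfsg.Agent.H80.F23
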