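import Mathlib
import Cfsg.Agent.H80.F23Defs

/-!
# Rational groups of degree 23: general lemmas on lattices
-/

set_option autoImplicit false

namespace Cfsg.Agent.H80.F23

open Module

universe u

section lat

variable {W : Type*} [AddCommGroup W] [Module ℚ W] {B : LinearMap.BilinForm ℚ W} {L : Submodule ℤ W}

theorem PD.nonneg (h : PD B) (x : W) : 0 ≤ B x x := by
  rcases eq_or_ne x 0 with rfl | k
  · simp
  · exact (h.pos x k).le

theorem PD.eq_zero (h : PD B) {x : W} (k : B x x ≤ 0) : x = 0 := by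
  by_contra e
  exact absurd (h.pos x e) (not_lt.2 k)

theorem PD.isSymm (h : PD B) : B.IsSymm := ⟨fun x y => h.symm x y⟩

theorem PD.nondeg (h : PD B) : B.Nondegenerate :=
  ⟨fun x k => h.eq_zero (k x).le, fun x k => h.eq_zero (k x).le⟩

theorem PD.sub_self (h : PD B) (x y : W) : B (x - y) (x - y) = B x x - 2 * B x y + B y y := by
  simp only [map_sub, LinearMap.sub_apply, h.symm y x]; ring

theorem PD.add_self (h : PD B) (x y : W) : B (x + y) (x + y) = B x x + 2 * B x y + B y y := by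
  simp only [map_add, LinearMap.add_apply, h.symm y x]; ring

/-- Cauchy–Schwarz. -/
theorem PD.sq_le (h : PD B) (x y : W) : B x y ^ 2 ≤ B x x * B y y := by
  rcases eq_or_ne y 0 with rfl | k
  · simp
  have h1 := h.nonneg (B y y • x - B x y • y)
  simp only [map_sub, map_smul, LinearMap.sub_apply, LinearMap.smul_apply, smul_eq_mul, h.symm y x] at h1
  nlinarith [h.pos y k]

theorem PD.smul (h : PD B) {c : ℚ} (hc : 0 < c) : PD (c • B) :=
  ⟨fun x y => by simp [h.symm x y], fun x k => by simpa using mul_pos hc (h.pos x k)⟩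

theorem IntLat.le_dual (h : IntLat B L) : L ≤ dual B L := fun x hx => mem_dual.2 (h.int x hx)

theorem dual_anti {L' : Submodule ℤ W} (h : L ≤ L') : dual B L' ≤ dual B L :=
  fun _ hx => mem_dual.2 fun y hy => mem_dual.1 hx y (h hy)

theorem le_dual_dual (h : PD B) : L ≤ dual B (dual B L) :=
  fun x hx => mem_dual.2 fun y hy => h.symm y x ▸ mem_dual.1 hy x hx

theorem evLat_of (h : PD B) (h1 : L.FG) (h2 : ∀ x ∈ L, ∃ k : ℤ, B x x = 2 * k) : EvLat B L := by
  refine ⟨⟨h1, fun x hx y hy => ?_⟩, h2⟩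
  obtain ⟨a, ha⟩ := h2 x hx
  obtain ⟨b, hb⟩ := h2 y hy
  obtain ⟨c, hc⟩ := h2 _ (add_mem hx hy)
  rw [h.add_self] at hc
  exact ⟨c - a - b, by push_cast; linarith⟩

/-- A full lattice is spanned by a basis of the space. -/
theorem exists_basis [FiniteDimensional ℚ W] (h1 : L.FG) (h2 : Full L) :
    ∃ b : Basis (Fin (finrank ℚ W)) ℚ W, L = Submodule.span ℤ (Set.range b) := by
  have : Submodule.IsLattice ℚ L := ⟨h1, h2⟩
  let b₀ := (Free.chooseBasis ℤ L).extendOfIsLattice ℚ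
  have := FiniteDimensional.fintypeBasisIndex b₀
  refine ⟨b₀.reindex (b₀.indexEquiv (finBasis ℚ W)), ?_⟩
  rw [Basis.range_reindex]
  have : Set.range b₀ = L.subtype '' Set.range (Free.chooseBasis ℤ L) := by
    rw [← Set.range_comp]
    exact congrArg _ (funext fun i => Basis.extendOfIsLattice_apply _ _ i)
  rw [this, ← Submodule.map_span, Basis.span_eq, Submodule.map_subtype_top]

theorem dual_dual [FiniteDimensional ℚ W] (h : PD B) (h1 : L.FG) (h2 : Full L) : dual B (dual B L) = L := by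
  obtain ⟨b, rfl⟩ := exists_basis h1 h2
  exact B.dualSubmodule_dualSubmodule_of_basis h.nondeg h.isSymm b

theorem dual_fg_full [FiniteDimensional ℚ W] (h : PD B) (h1 : L.FG) (h2 : Full L) :
    (dual B L).FG ∧ Full (dual B L) := by
  classical
  obtain ⟨b, rfl⟩ := exists_basis h1 h2
  rw [dual, B.dualSubmodule_span_of_basis h.nondeg b]
  exact ⟨Submodule.fg_span (Set.finite_range _), by
    rw [Full, Submodule.span_span_of_tower, Basis.span_eq]⟩

/-- A lattice containing its dual is full. -/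
theorem full_of_dual [FiniteDimensional ℚ W] (h : PD B) (h2 : dual B L ≤ L) : Full L := by
  by_contra k
  obtain ⟨z, hz, h0⟩ : ∃ z ∈ B.orthogonal (Submodule.span ℚ (L : Set W)), z ≠ 0 :=
    Submodule.exists_mem_ne_zero_of_ne_bot fun e => k (by
      rw [Full, ← B.orthogonal_orthogonal h.nondeg h.isSymm.isRefl (Submodule.span ℚ _), e, B.orthogonal_bot])
  have h3 : ∀ y ∈ L, B y z = 0 := fun y hy => hz y (Submodule.subset_span hy)
  exact (h.pos z h0).ne' (h3 z (h2 (mem_dual.2 fun y hy => ⟨0, by rw [h.symm, h3 y hy, Int.cast_zero]⟩)))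

/-! ### The norm -/

variable {g : End ℚ W}

theorem nm_apply (x : W) : nm g x = ∑ i ∈ Finset.range 23, (g ^ i) x := by simp [nm]

theorem nm_of_fix {x : W} (h : g x = x) : nm g x = (23 : ℚ) • x := by
  have : ∀ i : ℕ, (g ^ i) x = x := fun i => by rw [End.pow_apply, Function.iterate_fixed h]
  simp [nm_apply, this, ← Nat.cast_smul_eq_nsmul ℚ]

theorem nm_mem (h : ∀ x ∈ L, g x ∈ L) {x : W} (hx : x ∈ L) : nm g x ∈ L := by
  rw [nm_apply]
  exact Submodule.sum_mem _ fun i _ => by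
    induction i with
    | zero => exact hx
    | succ i ih => rw [pow_succ']; exact h _ (ih (by simp at *; omega))

theorem pow_mem_of (h : ∀ x ∈ L, g x ∈ L) (i : ℕ) {x : W} (hx : x ∈ L) : (g ^ i) x ∈ L := by
  induction i with
  | zero => exact hx
  | succ i ih => rw [pow_succ']; exact h _ ih

theorem fix_of_pow (h : g ^ 23 = 1) {i : ℕ} (hi : ¬ 23 ∣ i) {x : W} (k : (g ^ i) x = x) : g x = x := by
  obtain ⟨m, -, hm⟩ := Nat.exists_mul_mod_eq_one_of_coprime
    (((Nat.Prime.coprime_iff_not_dvd (by norm_num)).2 hi).symm) (by norm_num : 1 < 23)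
  have h1 : ((g ^ i) ^ m) x = x := by rw [End.pow_apply, Function.iterate_fixed k]
  rwa [← pow_mul, ← Nat.div_add_mod (i * m) 23, hm, pow_add, pow_mul, h, one_pow, one_mul, pow_one] at h1

theorem g_nm (h : g ^ 23 = 1) (x : W) : g (nm g x) = nm g x := by
  have h1 := geom_sum_succ (x := g) (n := 23)
  rw [Finset.sum_range_succ, h, add_left_inj] at h1
  exact (DFunLike.congr_fun h1 x).symm

theorem nm_g (h : g ^ 23 = 1) (x : W) : nm g (g x) = nm g x := by
  have h1 : nm g * g = g * nm g := (Commute.sum_left _ _ _ fun i _ => (Commute.refl g).pow_left i).eq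
  exact (DFunLike.congr_fun h1 x).trans (g_nm h x)

theorem nm_pow (h : g ^ 23 = 1) (i : ℕ) (x : W) : nm g ((g ^ i) x) = nm g x := by
  induction i with
  | zero => rfl
  | succ i ih => rw [pow_succ', End.mul_apply, nm_g h, ih]

theorem nm_nm (h : g ^ 23 = 1) (x : W) : nm g (nm g x) = (23 : ℚ) • nm g x := nm_of_fix (g_nm h x)

theorem Iso23.iso_pow (h : Iso23 B g) (i : ℕ) (x y : W) : B ((g ^ i) x) ((g ^ i) y) = B x y := by
  induction i with
  | zero => rfl
  | succ i ih => rw [pow_succ', End.mul_apply, End.mul_apply, h.iso, ih]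

theorem Iso23.nm_fix (h : Iso23 B g) (x : W) {y : W} (hy : g y = y) : B (nm g x) y = 23 * B x y := by
  have : ∀ i : ℕ, B ((g ^ i) x) y = B x y := fun i => by
    rw [← h.iso_pow i x y, End.pow_apply g i y, Function.iterate_fixed hy]
  simp [nm_apply, LinearMap.sum_apply, this]

theorem Iso23.fix_nm (h : Iso23 B g) {x : W} (hx : g x = x) (y : W) : B x (nm g y) = 23 * B x y := by
  have : ∀ i : ℕ, B x ((g ^ i) y) = B x y := fun i => by
    rw [← h.iso_pow i x y, End.pow_apply g i x, Function.iterate_fixed hx]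
  simp [nm_apply, this]

theorem Iso23.nm_adj (h : Iso23 B g) (x y : W) : B (nm g x) y = B x (nm g y) := by
  have h1 := h.nm_fix x (g_nm h.pow y)
  rw [h.fix_nm (g_nm h.pow x)] at h1
  linarith

theorem Iso23.nm_nm (h : Iso23 B g) (x y : W) : B (nm g x) (nm g y) = 23 * B x (nm g y) :=
  h.nm_fix x (g_nm h.pow y)

theorem Iso23.dual_mem (h : Iso23 B g) (k : ∀ x ∈ L, g x ∈ L) {y : W} (hy : y ∈ dual B L) :
    g y ∈ dual B L := mem_dual.2 fun z hz => by
  have e : g ((g ^ 22) z) = z := by rw [← End.mul_apply, ← pow_succ', h.pow, End.one_apply]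
  rw [← e, h.iso]
  exact mem_dual.1 hy _ (pow_mem_of k 22 hz)

/-- The part of an integral lattice killed by the norm is even. -/
theorem Iso23.even (h : Iso23 B g) (hB : PD B) (h1 : ∀ x ∈ L, ∀ y ∈ L, ∃ k : ℤ, B x y = k)
    (k : ∀ x ∈ L, g x ∈ L) {x : W} (hx : x ∈ L) (h0 : nm g x = 0) : ∃ k : ℤ, B x x = 2 * k := by
  have key : ∀ n : ℕ, ∃ j : ℤ, B (∑ i ∈ Finset.range n, (g ^ i) x) (∑ i ∈ Finset.range n, (g ^ i) x) =
      n * B x x + 2 * j := fun n => by
    induction n with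
    | zero => exact ⟨0, by simp⟩
    | succ n ih =>
      obtain ⟨j, hj⟩ := ih
      obtain ⟨c, hc⟩ := h1 _ (L.sum_mem fun i (_ : i ∈ Finset.range n) => pow_mem_of k i hx) _ (pow_mem_of k n hx)
      exact ⟨j + c, by rw [Finset.sum_range_succ, hB.add_self, hj, hc, h.iso_pow]; push_cast; ring⟩
  obtain ⟨j, hj⟩ := key 23
  obtain ⟨c, hc⟩ := h1 x hx x hx
  rw [← nm_apply, h0, hc] at hj
  exact ⟨-j - 11 * c, by rw [hc]; simp at hj; push_cast; linarith⟩

/-- A criterion for the absence of roots. -/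
theorem Iso23.rootless (h : Iso23 B g) (hB : PD B) (h1 : EvLat B L) (k : ∀ x ∈ L, g x ∈ L)
    (h2 : ∀ r ∈ L, nm g r = 0 → B r r ≠ 2) (h3 : ∀ y ∈ L, g y = y → B y y ≠ 2 ∧ B y y ≠ 46) :
    ∀ r ∈ L, B r r ≠ 2 := fun r hr e => by
  have h4 : ∀ i ∈ Finset.range 22, B r ((g ^ (i + 1)) r) ≤ 0 := fun i hi => by
    obtain ⟨c, hc⟩ := h1.int r hr _ (pow_mem_of k (i + 1) hr)
    have h5 := hB.sub_self r ((g ^ (i + 1)) r)
    rw [h.iso_pow, e, hc] at h5
    rw [hc]
    by_contra h6
    have h7 : 0 < c := by exact_mod_cast not_le.1 h6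
    rcases (show c = 1 ∨ 2 ≤ c by omega) with rfl | h8
    · exact h2 _ (sub_mem hr (pow_mem_of k (i + 1) hr)) (by rw [map_sub, nm_pow h.pow, sub_self])
        (by rw [h5]; norm_num)
    · have h9 : (2 : ℚ) ≤ c := by exact_mod_cast h8
      exact (h3 r hr (fix_of_pow h.pow (i := i + 1) (by simp at hi; omega)
        (sub_eq_zero.1 (hB.eq_zero (by linarith))).symm)).1 e
  have h5 : B r (nm g r) ≤ 2 := by
    rw [nm_apply, Finset.sum_range_succ', map_add, map_sum]
    have := Finset.sum_nonpos h4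
    simp only [pow_zero, End.one_apply, e]
    linarith
  obtain ⟨a, ha⟩ := h1.int r hr _ (nm_mem k hr)
  obtain ⟨b, hb⟩ := h1.even _ (nm_mem k hr)
  have h6 := h.nm_nm r r
  have h7 := hB.nonneg (nm g r)
  rw [ha] at h5 h6
  have h8 : a ≤ 2 := by exact_mod_cast h5
  have h9 : 2 * b = 23 * a := by exact_mod_cast hb.symm.trans h6
  have h10 : 0 ≤ 23 * a := by exact_mod_cast h6 ▸ h7
  rcases (show a = 0 ∨ a = 2 by omega) with rfl | rfl
  · exact h2 r hr (hB.eq_zero (by simp [h6])) e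
  · exact (h3 _ (nm_mem k hr) (g_nm h.pow r)).2 (by rw [h6]; norm_num)

/-- The projection `x - N x / 23` on the kernel of the norm. -/
def pr (g : End ℚ W) (x : W) : W := x - (1 / 23 : ℚ) • nm g x

theorem nm_pr (h : g ^ 23 = 1) (x : W) : nm g (pr g x) = 0 := by
  rw [pr, map_sub, map_smul, nm_nm h, smul_smul]
  simp

theorem Iso23.pr_left (h : Iso23 B g) (x : W) {z : W} (hz : nm g z = 0) : B (pr g x) z = B x z := by
  simp [pr, h.nm_adj, hz]

theorem Iso23.pr_self (h : Iso23 B g) (x : W) : B (pr g x) (pr g x) = B x x - B (nm g x) x / 23 := by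
  rw [h.pr_left x (nm_pr h.pow x), pr, map_sub, map_smul, h.nm_adj, smul_eq_mul]
  ring

/-- The dual of `M = L ∩ ker N` inside `ker N` is `M + ℤ pr x`. -/
theorem Iso23.ker_dual (h : Iso23 B g) {x : W} (h0 : B (nm g x) x ≠ 0)
    (h1 : ∀ y ∈ L, ∃ k : ℤ, nm g y = k • nm g x) (hx : x ∈ L)
    (h2 : ∀ y ∈ dual B L, ∃ c : ℚ, y - c • nm g x ∈ L) {z : W} (hz : nm g z = 0)
    (h3 : ∀ m ∈ L, nm g m = 0 → ∃ k : ℤ, B z m = k) : ∃ k : ℤ, z - k • pr g x ∈ L := by
  obtain ⟨c, hc⟩ := h2 (z - (B z x / B (nm g x) x) • nm g x) (mem_dual.2 fun y hy => by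
    obtain ⟨k, hk⟩ := h1 y hy
    have e : nm g (y - k • x) = 0 := by rw [map_sub, map_zsmul, hk, sub_self]
    obtain ⟨j, hj⟩ := h3 _ (sub_mem hy (L.smul_mem k hx)) e
    refine ⟨j, ?_⟩
    rw [← hj, map_sub, map_smul, LinearMap.sub_apply, LinearMap.smul_apply, h.nm_adj x y, hk, map_sub,
      map_zsmul, map_zsmul, ← h.nm_adj, smul_eq_mul, zsmul_eq_mul, zsmul_eq_mul]
    field_simp)
  obtain ⟨k, hk⟩ := h1 _ hc
  refine ⟨k, ?_⟩
  convert sub_mem hc (L.smul_mem k hx) using 1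
  rw [map_sub, map_sub, map_smul, map_smul, hz, F23.nm_nm h.pow, ← Int.cast_smul_eq_zsmul ℚ] at hk
  rw [pr, ← Int.cast_smul_eq_zsmul ℚ, ← Int.cast_smul_eq_zsmul ℚ]
  linear_combination (norm := module) (-1 / 23 : ℚ) • hk

/-! ### Restriction to a subspace -/

/-- The part of a lattice in a subspace. -/
def resL (L : Submodule ℤ W) (U : Submodule ℚ W) : Submodule ℤ U := L.comap (U.subtype.restrictScalars ℤ)

theorem mem_resL {U : Submodule ℚ W} {x : U} : x ∈ resL L U ↔ (x : W) ∈ L := Iff.rfl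

theorem PD.restrict (h : PD B) (U : Submodule ℚ W) : PD (B.restrict U) :=
  ⟨fun x y => h.symm x y, fun x k => h.pos x fun e => k (Subtype.ext e)⟩

omit [Module ℚ W] in
theorem fg_of_le {L' : Submodule ℤ W} (h : L.FG) (k : L' ≤ L) : L'.FG := by
  have : Module.Finite ℤ L := Module.Finite.iff_fg.2 h
  have := (IsNoetherian.noetherian (L'.comap L.subtype)).map L.subtype
  rwa [Submodule.map_comap_subtype, inf_eq_right.2 k] at this

theorem resL_fg (h : L.FG) (U : Submodule ℚ W) : (resL L U).FG :=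
  Submodule.fg_of_fg_map_injective (U.subtype.restrictScalars ℤ) U.injective_subtype
    (fg_of_le h (Submodule.map_comap_le _ _))

/-! ### Gluing -/

variable {W' : Type*} [AddCommGroup W'] [Module ℚ W'] {B' : LinearMap.BilinForm ℚ W'} {L' : Submodule ℤ W'}

/-- The orthogonal sum of two forms. -/
def sumF (B : LinearMap.BilinForm ℚ W) (B' : LinearMap.BilinForm ℚ W') : LinearMap.BilinForm ℚ (W × W') :=
  B.compl₁₂ (LinearMap.fst ℚ W W') (LinearMap.fst ℚ W W') +
    B'.compl₁₂ (LinearMap.snd ℚ W W') (LinearMap.snd ℚ W W')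

@[simp] theorem sumF_apply (x y : W × W') : sumF B B' x y = B x.1 y.1 + B' x.2 y.2 := rfl

theorem PD.sum (h : PD B) (h' : PD B') : PD (sumF B B') := by
  refine ⟨fun x y => by simp [h.symm x.1, h'.symm x.2], fun x k => ?_⟩
  have h1 := h.nonneg x.1
  have h2 := h'.nonneg x.2
  rw [sumF_apply]
  by_contra h3
  exact k (Prod.ext (h.eq_zero (by linarith)) (h'.eq_zero (by linarith)))

/-- Two lattices glued along a vector. -/
def glue (L : Submodule ℤ W) (L' : Submodule ℤ W') (y : W) (y' : W') : Submodule ℤ (W × W') :=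
  L.prod L' ⊔ Submodule.span ℤ {(y, y')}

variable {y : W} {y' : W'}

omit [Module ℚ W] [Module ℚ W'] in
theorem mem_glue {z : W × W'} : z ∈ glue L L' y y' ↔ ∃ k : ℤ, z.1 - k • y ∈ L ∧ z.2 - k • y' ∈ L' := by
  simp only [glue, Submodule.mem_sup, Submodule.mem_span_singleton, Submodule.mem_prod]
  constructor
  · rintro ⟨a, ha, _, ⟨k, rfl⟩, rfl⟩
    exact ⟨k, by simpa using ha⟩
  · rintro ⟨k, h⟩
    exact ⟨z - k • (y, y'), h, _, ⟨k, rfl⟩, sub_add_cancel _ _⟩

theorem glue_ev (h : PD B) (h' : PD B') (h1 : EvLat B L) (h1' : EvLat B' L') (h2 : y ∈ dual B L)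
    (h2' : y' ∈ dual B' L') (h3 : ∃ k : ℤ, B y y + B' y' y' = 2 * k) : EvLat (sumF B B') (glue L L' y y') := by
  refine evLat_of (h.sum h') ((h1.fg.prod h1'.fg).sup (Submodule.fg_span_singleton _)) fun z hz => ?_
  obtain ⟨k, k1, k2⟩ := mem_glue.1 hz
  obtain ⟨a, ha⟩ := h1.even _ k1
  obtain ⟨a', ha'⟩ := h1'.even _ k2
  obtain ⟨b, hb⟩ := mem_dual.1 h2 _ k1
  obtain ⟨b', hb'⟩ := mem_dual.1 h2' _ k2
  obtain ⟨c, hc⟩ := h3
  refine ⟨a + a' + k * (b + b') + k ^ 2 * c, ?_⟩
  simp only [map_sub, map_zsmul, LinearMap.sub_apply, LinearMap.smul_apply, zsmul_eq_mul, h.symm z.1 y,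
    h'.symm z.2 y', sumF_apply] at *
  push_cast
  linear_combination ha + ha' + 2 * k * hb + 2 * k * hb' + k ^ 2 * hc

theorem glue_dual (h : EvLat (sumF B B') (glue L L' y y')) (h1 : ∀ z ∈ dual B L, ∃ k : ℤ, z - k • y ∈ L)
    (h2 : ∀ z ∈ dual B' L', ∃ k : ℤ, z - k • y' ∈ L')
    (h3 : ∀ k j : ℤ, k * B' y' y' = j → k • y' ∈ L') : dual (sumF B B') (glue L L' y y') ≤ glue L L' y y' := by
  intro z hz
  have k0 := mem_dual.1 hz
  obtain ⟨a, ha⟩ := h1 z.1 (mem_dual.2 fun u hu => by simpa using k0 (u, 0) (mem_glue.2 ⟨0, by simpa using hu⟩))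
  obtain ⟨b, hb⟩ := h2 z.2 (mem_dual.2 fun u hu => by simpa using k0 (0, u) (mem_glue.2 ⟨0, by simpa using hu⟩))
  have k1 : (y, y') ∈ glue L L' y y' := mem_glue.2 ⟨1, by simp⟩
  obtain ⟨c, hc⟩ := k0 _ k1
  obtain ⟨c', hc'⟩ := h.int (z.1, z.2 - b • y' + a • y') (mem_glue.2 ⟨a, ha, by simpa using hb⟩) _ k1
  refine mem_glue.2 ⟨a, ha, ?_⟩
  have := add_mem hb (h3 (b - a) (c - c') (by
    simp only [sumF_apply, map_add, map_sub, map_zsmul, LinearMap.add_apply, LinearMap.sub_apply,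
      LinearMap.smul_apply, zsmul_eq_mul] at hc hc'
    push_cast
    linear_combination hc - hc'))
  rwa [sub_smul, sub_add_sub_cancel] at this

end lat

/-- An invariant set of at most `24` pairs of opposite vectors. -/
theorem idx_of_set {G : Type u} [Group G] {W : Type*} [AddCommGroup W] [Module ℚ W]
    (ρ : Representation ℚ G W) {g : G} (hg : g ^ 23 = 1) {X : Set W} (h1 : X.Finite) (h2 : X.ncard ≤ 49)
    (h3 : ∀ x ∈ X, -x ∈ X) (h4 : ∀ h, ∀ x ∈ X, ρ h x ∈ X) {x : W} (hx : x ∈ X) (h5 : ρ g x ≠ x) :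
    Idx G := by
  let H : Subgroup G :=
    { carrier := {h | ρ h x = x ∨ ρ h x = -x}
      one_mem' := .inl (by simp)
      mul_mem' := fun {a b} ha hb => by rcases ha with ha | ha <;> rcases hb with hb | hb <;> simp [ha, hb]
      inv_mem' := fun {a} ha => ha.imp (fun k => by simpa using (congrArg (ρ a⁻¹) k).symm) fun k => by
        have := congrArg (ρ a⁻¹) k
        rw [Representation.inv_self_apply, map_neg] at this
        exact neg_eq_iff_eq_neg.1 this.symm }
  have h0 : x ≠ -x := fun e => h5 (by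
    obtain rfl : x = 0 := by simpa [← two_smul ℚ x] using eq_neg_iff_add_eq_zero.1 e
    simp)
  let f : (G ⧸ H) × Bool → X := fun p => ⟨ρ p.1.out (if p.2 then x else -x), h4 _ _ (by
    split_ifs
    exacts [hx, h3 x hx])⟩
  have hf : Function.Injective f := by
    rintro ⟨a, s⟩ ⟨b, t⟩ e
    have e1 := congrArg (fun z : X => ρ a.out⁻¹ z) e
    simp only [f, ← End.mul_apply, ← map_mul, inv_mul_cancel, map_one, End.one_apply] at e1
    obtain rfl : a = b := by
      rw [← a.out_eq', ← b.out_eq', QuotientGroup.eq]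
      change _ ∨ _
      cases s <;> cases t <;> simp only [Bool.false_eq_true, if_true, if_false, map_neg, neg_inj] at e1
      exacts [.inl e1.symm, .inr e1.symm, .inr (neg_eq_iff_eq_neg.1 e1.symm), .inl e1.symm]
    rw [inv_mul_cancel, map_one, End.one_apply] at e1
    cases s <;> cases t
    exacts [rfl, (h0 (Eq.symm e1)).elim, (h0 e1).elim, rfl]
  have := h1.to_subtype
  have := Finite.of_injective _ (hf.comp (Prod.mk_left_injective true))
  have h6 := Nat.card_le_card_of_injective f hf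
  have h7 := Nat.card_le_card_of_injective (fun i : Fin 23 => ((g ^ (i : ℕ) : G) : G ⧸ H)) fun i j e => by
    by_contra k
    have e1 : (g ^ (22 * i + j : ℕ)) ∈ H := by
      have := QuotientGroup.eq.1 e
      rwa [show (g ^ (i : ℕ))⁻¹ = g ^ (22 * i : ℕ) from inv_eq_of_mul_eq_one_right (by
        rw [← pow_add, show (i : ℕ) + 22 * i = 23 * i by ring, pow_mul, hg, one_pow]), ← pow_add] at this
    refine h5 (fix_of_pow (i := (22 * i + j) * 2) (by rw [← map_pow, hg, map_one])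
      (by have := Fin.val_ne_of_ne k; omega) ?_)
    rw [← map_pow, pow_mul, sq, map_mul, End.mul_apply]
    rcases e1 with e1 | e1 <;> simp only [e1, map_neg, neg_neg]
  rw [Nat.card_prod, Nat.card_eq_fintype_card (α := Bool), Fintype.card_bool, Nat.card_coe_set_eq] at h6
  rw [Nat.card_eq_fintype_card, Fintype.card_fin] at h7
  exact ⟨H, by rw [Subgroup.index]; omega⟩

section grp

variable {G : Type u} [Group G] {ρ : Representation ℚ G V} {B : LinearMap.BilinForm ℚ V} {g : G}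

theorem Set0.pow (h : Set0 ρ B g) : g ^ 23 = 1 := h.ord ▸ pow_orderOf_eq_one g

theorem Set0.iso (h : Set0 ρ B g) : Iso23 B (ρ g) := ⟨h.inv g, by rw [← map_pow, h.pow, map_one]⟩

/-- A non-zero invariant set is not contained in a proper subspace. -/
theorem Irr.exists_not_mem (h : Irr ρ) {X : Set V} (h1 : ∀ h, ∀ x ∈ X, ρ h x ∈ X) {x : V} (hx : x ∈ X)
    (h0 : x ≠ 0) {U : Submodule ℚ V} (hU : U ≠ ⊤) : ∃ y ∈ X, y ∉ U := by
  by_contra! k
  rcases h (Submodule.span ℚ X) (fun a w hw => (Submodule.span_le (p := (Submodule.span ℚ X).comap (ρ a))).2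
    (fun y hy => Submodule.subset_span (h1 a y hy)) hw) with e | e
  · exact h0 (by simpa [e] using Submodule.subset_span (R := ℚ) hx)
  · exact hU (top_le_iff.1 (e ▸ Submodule.span_le.2 k))

theorem Set0.range_nm (h : Set0 ρ B g) : finrank ℚ (LinearMap.range (nm (ρ g))) = 1 := by
  obtain ⟨w, h0, hw⟩ := h.fix
  suffices e : LinearMap.range (nm (ρ g)) = Submodule.span ℚ {w} by rw [e, finrank_span_singleton h0]
  refine le_antisymm ?_ ((Submodule.span_singleton_le_iff_mem _ _).2 ⟨(1 / 23 : ℚ) • w, ?_⟩)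
  · rintro _ ⟨x, rfl⟩
    obtain ⟨c, hc⟩ := (hw _).1 (g_nm h.iso.pow x)
    exact Submodule.mem_span_singleton.2 ⟨c, hc.symm⟩
  · rw [map_smul, nm_of_fix ((hw w).2 ⟨1, (one_smul _ _).symm⟩), smul_smul]
    norm_num

theorem Set0.finrank_ker (h : Set0 ρ B g) : finrank ℚ (LinearMap.ker (nm (ρ g))) = 22 := by
  have := LinearMap.finrank_range_add_finrank_ker (nm (ρ g))
  rw [h.range_nm, finrank_fin_fun] at this
  omega

theorem Set0.ker_ne_top (h : Set0 ρ B g) : LinearMap.ker (nm (ρ g)) ≠ ⊤ := fun e => by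
  have := h.finrank_ker
  rw [e, finrank_top, finrank_fin_fun] at this
  omega

/-- Fixed vectors are proportional. -/
theorem Set0.exists_smul (h : Set0 ρ B g) {w x : V} (hw : ρ g w = w) (h0 : w ≠ 0) (hx : ρ g x = x) :
    ∃ c : ℚ, x = c • w := by
  obtain ⟨w₀, -, k⟩ := h.fix
  obtain ⟨a, rfl⟩ := (k w).1 hw
  obtain ⟨b, rfl⟩ := (k x).1 hx
  exact ⟨b / a, by rw [smul_smul, div_mul_cancel₀ _ (left_ne_zero_of_smul h0)]⟩

theorem Irr.span_ne_top (w : V) : Submodule.span ℚ {w} ≠ ⊤ := fun e => by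
  have := finrank_span_le_card (R := ℚ) ({w} : Set V)
  rw [e, finrank_top, finrank_fin_fun] at this
  simp at this

end grp

end Cfsg.Agent.H80.F23
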