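import Cfsg.Agent.H80.SpB1

/-!
# Case B for maximal subgroups of `Sp₄(q)` does not occur
-/

set_option autoImplicit false
set_option linter.unusedSectionVars false

namespace Cfsg.Agent.H80.SpB

open H25 H25.S4 Matrix Cfsg.Geo
open scoped commutatorElement

universe u

variable {F : Type u} [Field F] [Fintype F] {H P : Subgroup (GL I4 F)} {f : Fin 5 → GL I4 F}

lemma closure_eq (c : Ctx H P) (h : Fr P f) : Subgroup.closure {g | Inv P g} = P := by
  have hP : P ≤ spGL 2 F := fun _ => c.sp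
  have := c.core.simple
  have hn : ((Subgroup.closure {g | Inv P g}).subgroupOf P).Normal :=
    ⟨fun n hn g => nb_closure hP g g.2 n hn⟩
  rcases (hn.map (QuotientGroup.mk' ((scalars I4 F).subgroupOf P))
    (QuotientGroup.mk'_surjective _)).eq_bot_or_eq_top with h1 | h1
  · have h2 := (Subgroup.map_eq_bot_iff _).1 h1 (show (⟨f 0, (h.inv 0).1⟩ : P) ∈ _ from
      Subgroup.subset_closure (h.inv 0))
    rw [QuotientGroup.ker_mk'] at h2
    exact absurd h2 (inv_not_scalar h.two hP (h.inv 0))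
  · refine le_antisymm closure_le fun x hx => ?_
    obtain ⟨n, hn, e⟩ := h1.ge (Subgroup.mem_top (QuotientGroup.mk' _ (⟨x, hx⟩ : P)))
    have h2 : (n : GL I4 F)⁻¹ * x ∈ scalars I4 F :=
      Subgroup.mem_subgroupOf.1 (QuotientGroup.eq.1 e)
    rw [← mul_inv_cancel_left (n : GL I4 F) x]
    refine Subgroup.mul_mem _ hn ?_
    rcases eq_or_of_scalar (hP (P.mul_mem (P.inv_mem n.2) hx)) h2 with e | e <;> rw [e]
    exacts [Subgroup.one_mem _, h.neg_one_mem]

lemma ind (c : Ctx H P) (h : Fr P f) {p : GL I4 F → Prop} (h1 : p 1)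
    (hm : ∀ g, Inv P g → ∀ x, p x → p (g * x)) {x : GL I4 F} (hx : x ∈ P) : p x := by
  rw [← closure_eq c h] at hx
  induction hx using Subgroup.closure_induction_left with
  | one => exact h1
  | mul_left g hg y _ ih => exact hm g hg y ih
  | inv_mul_cancel g hg y _ ih => rw [inv_inv_eq hg]; exact hm g hg y ih

lemma pow_four_scalar (h2 : (2 : F) ≠ 0) {g g' : GL I4 F} (hg : Inv P g) (hg' : Inv P g')
    (h : bil (g : M4 F) g' = 0 ∨ g' = g ∨ g' = -g ∨ 2 * bil (g : M4 F) g' ^ 2 = 1) :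
    (g * g') ^ 4 ∈ scalars I4 F := by
  have h1 : (g * g' : M4 F) * (g * g') = (2 * bil (g : M4 F) g') • (g * g' : M4 F) - 1 := by
    rw [Matrix.mul_assoc, ← Matrix.mul_assoc (g' : M4 F),
      eq_sub_of_add_eq' (W_anti h2 hg.2.2 hg'.2.2), Matrix.sub_mul, Matrix.mul_assoc, inv_sq hg',
      Matrix.mul_one, Matrix.mul_sub, inv_sq hg, smul_mul_assoc, Matrix.one_mul, mul_smul_comm]
  have h4 : (((g * g') ^ 4 : GL I4 F) : M4 F) =
      (g * g' : M4 F) * (g * g') * ((g * g' : M4 F) * (g * g')) := by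
    simp only [Units.val_pow_eq_pow_val, Units.val_mul]; noncomm_ring
  rcases h with h | rfl | rfl | h
  · exact (mem_scalars_iff _).2 ⟨1, by rw [h4, h1, h]; simp⟩
  · rw [hg.2.1, one_pow]; exact Subgroup.one_mem _
  · rw [mul_neg, hg.2.1]; exact Subgroup.pow_mem _ neg_one_mem_scalars _
  · refine (mem_scalars_iff _).2 ⟨-1, ?_⟩
    rw [h4]
    generalize (g * g' : M4 F) = A at h1
    generalize bil (g : M4 F) g' = β at h h1
    rw [h1, Matrix.sub_mul, Matrix.mul_sub, Matrix.mul_sub, smul_mul_smul_comm, h1]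
    simp only [Matrix.mul_one, Matrix.one_mul, Units.val_neg, Units.val_one]
    match_scalars
    · linear_combination 4 * β * h
    · linear_combination -2 * h

lemma rs (c : Ctx H P) (h : Fr P f)
    (hc : ∀ g g', Inv P g → Inv P g' → ∃ x ∈ P, x * g * x⁻¹ = g' ∨ x * g * x⁻¹ = -g') :
    RS (rts P f) := by
  have hP : P ≤ spGL 2 F := fun _ => c.sp
  refine ⟨h.two, fun a ha => h.norm ha, ?_, fun i => ⟨f i, h.inv i, (ph_single f i).symm⟩, ?_, ?_⟩
  · rintro a ⟨g, hg, e⟩ b ⟨g', hg', e'⟩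
    refine ⟨_, h.inv_neg (inv_conj hP hg' hg.1), ?_⟩
    rw [h.ph_rf hg e, inv_inv_eq hg, ← e']
    rfl
  · rintro a ⟨g, hg, e⟩ b hb
    have hb' := hb
    obtain ⟨g', hg', e'⟩ := hb'
    obtain ⟨x, hx, h1⟩ := hc g g' hg hg'
    obtain ⟨l, hl, h2⟩ := ind c h (p := fun x => ∃ l : List (V5 F), (∀ d ∈ l, d ∈ rts P f) ∧
      (ph f (l.foldr rf a) = (x * g * x⁻¹ : GL I4 F) ∨ ph f (l.foldr rf a) = -(x * g * x⁻¹ : GL I4 F)))
      ⟨[], by simp, Or.inl (by simp [e])⟩ (fun y hy x ⟨l, hl, h2⟩ => by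
        obtain ⟨d, hd, e1⟩ := h.exists_root hy
        refine ⟨d :: l, List.forall_mem_cons.2 ⟨hd, hl⟩, ?_⟩
        rw [List.foldr_cons, h.ph_rf hy e1, _root_.mul_inv_rev, inv_inv_eq hy]
        rcases h2 with h2 | h2 <;> rw [h2]
        · exact Or.inr (by simp only [Units.val_mul, Matrix.mul_assoc])
        · exact Or.inl (by simp only [Units.val_mul, Matrix.mul_assoc, Matrix.mul_neg,
            Matrix.neg_mul, neg_neg])) hx
    have h3 : ph f (l.foldr rf a) = ph f b ∨ ph f (l.foldr rf a) = -ph f b := by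
      rcases h1 with h1 | h1 <;> rw [h1] at h2
      · rwa [e'] at h2
      · rwa [Units.val_neg, neg_neg, e', or_comm] at h2
    rcases h3 with h3 | h3
    · exact ⟨l, hl, h.ph_inj h3⟩
    · refine ⟨b :: l, List.forall_mem_cons.2 ⟨hb, hl⟩, h.ph_inj ?_⟩
      rw [List.foldr_cons, h.ph_rf hg' e', h3, ← e', Matrix.mul_neg, inv_sq hg', Matrix.neg_mul,
        neg_neg, Matrix.one_mul]
  · rintro a ⟨g, hg, e⟩
    have := c.core.simple
    obtain ⟨y, hy⟩ := baer c.core.nonabelian (t := (QuotientGroup.mk (⟨g, hg.1⟩ : P) : Bar P))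
      (by rw [← QuotientGroup.mk_mul, show (⟨g, hg.1⟩ * ⟨g, hg.1⟩ : P) = 1 from Subtype.ext hg.2.1,
        QuotientGroup.mk_one])
      fun h1 => inv_not_scalar h.two hP hg
        (Subgroup.mem_subgroupOf.1 ((QuotientGroup.eq_one_iff _).1 h1))
    obtain ⟨x, rfl⟩ := QuotientGroup.mk_surjective y
    have hg' := inv_conj hP hg x.2
    obtain ⟨b, hb, e'⟩ := h.exists_root hg'
    rw [← QuotientGroup.mk_inv, ← QuotientGroup.mk_mul, ← QuotientGroup.mk_mul,
      ← QuotientGroup.mk_mul, ← QuotientGroup.mk_pow, Ne, QuotientGroup.eq_one_iff] at hy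
    have hy' : (g * (x * g * (x : GL I4 F)⁻¹)) ^ 4 ∉ scalars I4 F := hy
    have key := fun h1 => hy' (pow_four_scalar h.two hg hg' h1)
    rw [e, e', h.bil_ph] at key
    refine ⟨b, hb, fun h1 => key (Or.inl h1), fun h1 => key (Or.inr (Or.inl (Units.ext ?_))),
      fun h1 => key (Or.inr (Or.inr (Or.inl (Units.ext ?_)))),
      fun h1 => key (Or.inr (Or.inr (Or.inr h1)))⟩
    · rw [e', e, h1]
    · rw [e', Units.val_neg, e, h1, ← neg_one_smul F a, ph_smul, neg_one_smul]

/-- Pairs of multiples of elements which commute with the frame up to signs. -/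
def mon (P : Subgroup (GL I4 F)) (f : Fin 5 → GL I4 F) (σ : F →+* F) : Submonoid (M4 F × M4 F) where
  carrier := {p | ∃ (a : F) (m : GL I4 F), m ∈ P ∧
    (∀ j, SC (1 : F) (m : M4 F) (f j) ∨ SC (-1 : F) (m : M4 F) (f j)) ∧
    p = (a • (m : M4 F), σ a • (m : M4 F))}
  one_mem' := ⟨1, 1, P.one_mem, fun j => Or.inl (by simp [SC]), by simp; rfl⟩
  mul_mem' := by
    rintro _ _ ⟨a, m, hm, h1, rfl⟩ ⟨b, n, hn, h2, rfl⟩
    refine ⟨a * b, m * n, P.mul_mem hm hn, fun j => ?_, by
      simp only [Prod.mk_mul_mk, smul_mul_smul_comm, map_mul, Units.val_mul]⟩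
    rcases h1 j with h1 | h1 <;> rcases h2 j with h2 | h2
    · exact Or.inl ((h1.mul_left h2).of_eq (by ring))
    · exact Or.inr ((h1.mul_left h2).of_eq (by ring))
    · exact Or.inr ((h1.mul_left h2).of_eq (by ring))
    · exact Or.inl ((h1.mul_left h2).of_eq (by ring))

lemma trace_mon (c : Ctx H P) (h : Fr P f) (σ : F →+* F) {p : M4 F × M4 F}
    (hp : p ∈ (mon P f σ).subsemiringClosure) : p.2.trace = σ p.1.trace := by
  rw [Submonoid.subsemiringClosure_mem] at hp
  induction hp using AddSubmonoid.closure_induction with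
  | zero => simp
  | add x y _ _ hx hy => simp only [Prod.snd_add, Prod.fst_add, trace_add, map_add, hx, hy]
  | mem p hp =>
    obtain ⟨a, m, hm, h1, rfl⟩ := hp
    simp only [trace_smul, smul_eq_mul, map_mul]
    congr 1
    by_cases h2 : ∃ j, SC (-1 : F) (m : M4 F) (f j)
    · obtain ⟨j, hj⟩ := h2
      rw [trace_eq_zero_of_sc h.two hj (inv_sq (h.inv j)), map_zero]
    have h3 : ∀ j, (m : M4 F) * f j = f j * m := fun j =>
      ((h1 j).resolve_right fun h => h2 ⟨j, h⟩).trans (one_smul _ _)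
    rcases c.eq_or_of_comm (c.sp hm) (fun g hg => ind c h (p := fun g => m * g = g * m) (by simp)
      (fun y hy x hx => by
        obtain ⟨d, -, e⟩ := h.exists_root hy
        have h4 : m * y = y * m := Units.ext (by
          simp only [Units.val_mul, e, ph, Finset.mul_sum, Finset.sum_mul, mul_smul_comm,
            smul_mul_assoc, h3])
        rw [← mul_assoc, h4, mul_assoc, hx, mul_assoc]) hg) with rfl | rfl
    · rw [Units.val_one, trace_one4, map_ofNat]
    · rw [Units.val_neg, Units.val_one, trace_neg, trace_one4, map_neg, map_ofNat]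

lemma trace_fix (hS : SignStmt.{u}) (c : Ctx H P) (h : Fr P f) (hR : RS (rts P f)) (σ : F →+* F)
    (hσ : ∀ a ∈ rts P f, ∀ b ∈ rts P f, σ ((a ⬝ᵥ b) ^ 2) = (a ⬝ᵥ b) ^ 2) {g : GL I4 F}
    (hg : g ∈ P) : σ (g : M4 F).trace = (g : M4 F).trace := by
  obtain ⟨δ, hδ, h1⟩ := hS F _ hR σ hσ
  obtain ⟨z, η, hη, hz⟩ := h.exists_conj δ hδ
  let T := (mon P f σ).subsemiringClosure
  let q : F → GL I4 F → Prop := fun s x => ((x : M4 F), s • ((z * x * z⁻¹ : GL I4 F) : M4 F)) ∈ T
  have qm : ∀ {s t x y}, q s x → q t y → q (s * t) (x * y) := fun {s t x y} hx hy => by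
    have := T.mul_mem hx hy
    rwa [Prod.mk_mul_mk, smul_mul_smul_comm, ← Units.val_mul, ← Units.val_mul,
      show z * x * z⁻¹ * (z * y * z⁻¹) = z * (x * y) * z⁻¹ by group] at this
  have qt : ∀ {s x}, q s x → s * (x : M4 F).trace = σ (x : M4 F).trace := fun {s x} hx => by
    have := trace_mon c h σ hx
    rwa [trace_smul, Units.val_mul, Units.val_mul, trace_mul_cycle, Units.inv_mul, Matrix.one_mul,
      smul_eq_mul] at this
  have q1 : q 1 1 := by
    simp only [q, mul_one, mul_inv_cancel, one_smul, Units.val_one]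
    exact T.one_mem
  have qe : ∀ x ∈ P, ∃ s, q s x := fun x hx => ind c h (p := fun x => ∃ s, q s x) ⟨1, q1⟩
    (fun y hy x ⟨s, hs⟩ => by
      obtain ⟨d, hd, e⟩ := h.exists_root hy
      obtain ⟨ε, -, h2⟩ := h1 d hd
      refine ⟨_, qm (s := ε * η) ?_ hs⟩
      have h3 := T.sum_mem (t := Finset.univ)
        (f := fun i => (d i • (f i : M4 F), σ (d i) • (f i : M4 F))) fun i _ =>
          AddSubmonoid.subset_closure ⟨d i, f i, (h.inv i).1, fun j => by
            by_cases hij : i = j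
            · exact Or.inl (hij ▸ SC.self _)
            · exact Or.inr (h.sc hij), rfl⟩
      rw [← prod_mk_sum] at h3
      have h4 : η * η = 1 := by rcases hη with rfl | rfl <;> ring
      have h5 : (ε * η) • ((z * y * z⁻¹ : GL I4 F) : M4 F) = ∑ i, σ (d i) • (f i : M4 F) := by
        simp only [Units.val_mul, e, ph, Finset.mul_sum, Finset.sum_mul, mul_smul_comm,
          smul_mul_assoc, hz, Finset.smul_sum, smul_smul, h2]
        exact Finset.sum_congr rfl fun i _ => congrArg (· • (f i : M4 F))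
          (by linear_combination ε * d i * δ i * h4)
      simp only [q]
      rw [h5, e]
      exact h3) hx
  have qi : ∀ {s t x}, q s x → q t x⁻¹ → s * t = 1 := fun hx hy => by
    have := qt (qm hx hy)
    rw [mul_inv_cancel, Units.val_one, trace_one4, map_ofNat] at this
    exact mul_right_cancel₀ (four_ne h.two) (this.trans (one_mul _).symm)
  let K : Subgroup (GL I4 F) :=
    { carrier := {x | x ∈ P ∧ q 1 x}
      one_mem' := ⟨P.one_mem, q1⟩
      mul_mem' := fun hx hy => ⟨P.mul_mem hx.1 hy.1, one_mul (1 : F) ▸ qm hx.2 hy.2⟩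
      inv_mem' := fun {x} hx => by
        obtain ⟨t, ht⟩ := qe _ (P.inv_mem hx.1)
        exact ⟨P.inv_mem hx.1, by rwa [(one_mul t).symm.trans (qi hx.2 ht)] at ht⟩ }
  have hK : ⁅P, P⁆ ≤ K := Subgroup.commutator_le.2 fun x hx y hy => by
    obtain ⟨s, hs⟩ := qe x hx
    obtain ⟨t, ht⟩ := qe y hy
    obtain ⟨s', hs'⟩ := qe _ (P.inv_mem hx)
    obtain ⟨t', ht'⟩ := qe _ (P.inv_mem hy)
    refine ⟨P.mul_mem (P.mul_mem (P.mul_mem hx hy) (P.inv_mem hx)) (P.inv_mem hy), ?_⟩
    have := qm (qm (qm hs ht) hs') ht'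
    rwa [show s * t * s' * t' = 1 by linear_combination t * t' * qi hs hs' + qi ht ht'] at this
  rw [← qt (hK (c.core.perfect.ge hg)).2, one_mul]

lemma ns (hS : SignStmt.{u}) (c : Ctx H P) (h : Fr P f) (hR : RS (rts P f)) (k : Subfield F)
    (hk : ∀ a ∈ rts P f, ∀ b ∈ rts P f, (a ⬝ᵥ b) ^ 2 ∈ k) : k = ⊤ := by
  have := Fintype.ofFinite k
  have h1 := c.field_top ((FiniteField.frobeniusAlgHom k F : F →+* F).eqLocusField (RingHom.id F))
    fun g hg => trace_fix hS c h hR _ (fun a ha b hb =>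
      (FiniteField.frobeniusAlgHom k F).commutes ⟨_, hk a ha b hb⟩) hg
  have h2 : FiniteField.frobeniusAlgHom k F = 1 := AlgHom.ext fun x => h1.ge (Subfield.mem_top x)
  have h3 := FiniteField.orderOf_frobeniusAlgHom k F
  rw [h2, orderOf_one] at h3
  exact H29.subfield_eq_top_of_card (by rw [Module.natCard_eq_pow_finrank (K := k), ← h3, pow_one])

/-- Case B does not occur. -/
theorem caseB (hF : FrameStmt.{u}) (hS : SignStmt.{u}) (hN : NDStmt.{u}) (hD : DGStmt.{u}) :
    BStmt.{u} := fun F _ _ H P c g hg => by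
  have hP : P ≤ spGL 2 F := fun _ => c.sp
  obtain ⟨⟨e, he, ho⟩, hc⟩ := hF F H P c ⟨g, hg⟩
  obtain ⟨f, h⟩ := exists_fr c.two hP e he ho
  have hR := rs c h hc
  have h1 := hD F _ hR (hN F _ hR) (ns hS c h hR)
  have h2 : Subgroup.closure {g | Inv (spGL 2 F) g} ≤ P := (Subgroup.closure_le _).2 fun x hx => by
    obtain ⟨v, hv⟩ := h.ph_surj hx.2.2
    obtain ⟨y, hy, e1⟩ := h1 v (by
      rw [← h.bil_ph, hv, bil_of_eq c.two ((inv_sq hx).trans (one_smul _ _).symm)])
    exact (Units.ext (e1.trans hv) : y = x) ▸ hy.1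
  rcases sp_simple c.two closure_le (nb_closure le_rfl) with h3 | h3
  · exact inv_not_scalar c.two hP hg (h3 (Subgroup.subset_closure ⟨hP hg.1, hg.2⟩))
  · exact c.max.1.not_ge (h3.ge.trans (h2.trans c.core.le))

end Cfsg.Agent.H80.SpB
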