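import Cfsg.Agent.H80.SpND1

/-!
# Every root set has a degenerate pair
-/

set_option autoImplicit false
set_option linter.unusedSectionVars false

namespace Cfsg.Agent.H80.ND

open H25.S4 H30 Matrix

universe u

variable {F : Type*} [Field F] {R : Set (V5 F)} {a b c d e : F}

/-- The relation between two non-zero coordinates of a root of support at least four. -/
def Pr (s t : F) : Prop := s + t ≠ 0 ∧ (s = 1 ∨ t = 1 ∨ s + t = 3 ∧ s * s - 3 * s + 1 = 0)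

lemma pr_of_tyS {s t : F} (hs : TyS s) (ht : TyS t) (h0 : s ≠ 0) (h0' : t ≠ 0) (h4 : s ≠ 4)
    (h4' : t ≠ 4) (h5 : s * t ≠ 4) : s = 1 ∨ t = 1 := by
  rcases hs with rfl | rfl | rfl | rfl
  · exact absurd rfl h0
  · exact Or.inl rfl
  · rcases ht with rfl | rfl | rfl | rfl
    · exact absurd rfl h0'
    · exact Or.inr rfl
    · exact absurd (by norm_num) h5
    · exact absurd rfl h4'
  · exact absurd rfl h4

lemma pr_of_tyA (h2 : (4 : F) ≠ 0) {s t : F} (hs : TyA s) (ht : TyA t) (hst : TyA (s * t))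
    (h0 : s ≠ 0) (h0' : t ≠ 0) (h4 : s ≠ 4) (h4' : t ≠ 4) (h5 : s * t ≠ 4) :
    s = 1 ∨ t = 1 ∨ s + t = 3 ∧ s * s - 3 * s + 1 = 0 := by
  rcases (hs.resolve_left h0).imp_right (·.resolve_left h4) with hs | hs
  · exact Or.inl hs
  rcases (ht.resolve_left h0').imp_right (·.resolve_left h4') with ht | ht
  · exact Or.inr (Or.inl ht)
  rcases mul_eq_zero.1 (show (s - t) * (s + t - 3) = 0 by linear_combination hs - ht) with h | h
  · obtain rfl := sub_eq_zero.1 h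
    rcases (hst.resolve_left (mul_ne_zero h0 h0)).imp_right (·.resolve_left h5) with h6 | h6
    · exact absurd (by linear_combination (2 - s * (3 * s + 2)) * (h6 - hs) + 9 * s * h6) h4
    · refine absurd (mul_self_eq_zero.1 (mul_left_cancel₀ h2 ?_)) h0
      linear_combination h6 - (s * s + 3 * s + 1) * hs
  · exact Or.inr (Or.inr ⟨sub_eq_zero.1 h, hs⟩)

lemma four_aux (h2 : (2 : F) ≠ 0) (hc : c ≠ 0) (hd : d ≠ 0) (hs : a + b + c + d = 4)
    (h1 : Pr a b) (h3 : Pr c d) : a = 1 ∨ b = 1 := by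
  rcases h1.2 with h | h | ⟨h, -⟩
  · exact Or.inl h
  · exact Or.inr h
  rcases h3.2 with h' | h' | ⟨h', -⟩
  · exact absurd (by linear_combination hs - h - h') hd
  · exact absurd (by linear_combination hs - h - h') hc
  · exact absurd (by linear_combination hs - h - h') h2

lemma four_one (h2 : (2 : F) ≠ 0) (hb : b ≠ 0) (hc : c ≠ 0) (hd : d ≠ 0) (hs : a + b + c + d = 4)
    (h1 : Pr a b) (h3 : Pr a c) (h4 : Pr a d) (h5 : Pr b c) (h6 : Pr b d) (h7 : Pr c d) : a = 1 := by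
  by_contra h
  have e1 := (four_aux h2 hc hd hs h1 h7).resolve_left h
  have e2 := (four_aux h2 hb hd (by linear_combination hs) h3 h6).resolve_left h
  have e3 := (four_aux h2 hb hc (by linear_combination hs) h4 h5).resolve_left h
  exact h (by linear_combination hs - e1 - e2 - e3)

lemma five_aux (h2 : (2 : F) ≠ 0) (hs : a + b + c + d + e = 4) (h1 : Pr a b) (h3 : Pr c d)
    (h4 : Pr c e) (h5 : Pr d e) : a = 1 ∨ b = 1 := by
  rcases h1.2 with h | h | ⟨h, -⟩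
  · exact Or.inl h
  · exact Or.inr h
  have hc : c ≠ 1 := fun h' => h5.1 (by linear_combination hs - h - h')
  have hd : d ≠ 1 := fun h' => h4.1 (by linear_combination hs - h - h')
  have he : e ≠ 1 := fun h' => h3.1 (by linear_combination hs - h - h')
  obtain ⟨e1, g⟩ := (h3.2.resolve_left hc).resolve_left hd
  obtain ⟨e2, -⟩ := (h4.2.resolve_left hc).resolve_left he
  obtain ⟨e3, -⟩ := (h5.2.resolve_left hd).resolve_left he
  have h7 : (7 : F) = 0 := by linear_combination 2 * (hs - h) - e1 - e2 - e3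
  have h8 : (5 : F) = 0 := by linear_combination (2 * c - 3) * (e1 + e2 - e3) - 4 * g
  exact absurd (by linear_combination h7 - h8) h2

lemma exists_perm2 : ∀ i j : Fin 5, i ≠ j → ∃ σ : Equiv.Perm (Fin 5), σ 0 = i ∧ σ 1 = j := by
  decide +kernel

lemma exists_perm2' : ∀ i j m : Fin 5, i ≠ j → i ≠ m → j ≠ m →
    ∃ σ : Equiv.Perm (Fin 5), σ 0 = i ∧ σ 1 = j ∧ σ 2 ≠ m ∧ σ 3 ≠ m := by
  decide +kernel

lemma exists_perm3 : ∀ J : Finset (Fin 5), 2 < J.card →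
    ∃ σ : Equiv.Perm (Fin 5), σ 0 ∈ J ∧ σ 1 ∈ J ∧ σ 2 ∈ J := by
  decide +kernel

lemma exists_perm4 : ∀ J : Finset (Fin 5), 3 < J.card →
    ∃ σ : Equiv.Perm (Fin 5), σ 0 ∈ J ∧ σ 1 ∈ J ∧ σ 2 ∈ J ∧ σ 3 ∈ J := by
  decide +kernel

lemma five_false (h2 : (2 : F) ≠ 0) (s : Fin 5 → F) (h0 : ∀ i, s i ≠ 0) (hs : ∑ i, s i = 4)
    (hp : ∀ i j, i ≠ j → Pr (s i) (s j)) : False := by
  have h1 : ∀ i j, i ≠ j → s i = 1 ∨ s j = 1 := fun i j hij => by
    obtain ⟨σ, rfl, rfl⟩ := exists_perm2 i j hij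
    rw [← Equiv.sum_comp σ, Fin.sum_univ_five] at hs
    exact five_aux h2 hs (hp _ _ hij) (hp _ _ (σ.injective.ne (by decide)))
      (hp _ _ (σ.injective.ne (by decide))) (hp _ _ (σ.injective.ne (by decide)))
  obtain ⟨i, hi⟩ : ∃ i, ∀ j, j ≠ i → s j = 1 := by
    by_cases h : ∀ j, s j = 1
    · exact ⟨0, fun j _ => h j⟩
    · push Not at h
      obtain ⟨i, hi⟩ := h
      exact ⟨i, fun j hj => (h1 j i hj).resolve_right hi⟩
  rw [← Finset.add_sum_erase _ _ (Finset.mem_univ i),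
    Finset.sum_congr rfl fun j hj => hi j (Finset.ne_of_mem_erase hj)] at hs
  exact h0 i (by simpa using hs)

/-- All roots have support at most `n`. -/
def Sup (R : Set (V5 F)) (n : ℕ) : Prop :=
  ∀ v ∈ R, ∀ J : Finset (Fin 5), (∀ i ∈ J, v i ≠ 0) → J.card ≤ n

lemma Sup.perm {n : ℕ} (h : Sup R n) (σ : Equiv.Perm (Fin 5)) : Sup (pm R σ) n := fun v hv J hJ => by
  rw [← Finset.card_map σ.symm.toEmbedding]
  refine h _ hv _ fun i hi => ?_
  obtain ⟨j, hj, rfl⟩ := Finset.mem_map.1 hi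
  simpa using hJ j hj

namespace RN

variable (h : RN R)
include h

lemma exists_bs (i : Fin 5) : ∃ w ∈ R, w i ≠ 0 ∧ (∃ j, j ≠ i ∧ w j ≠ 0) ∧ 2 * (w i * w i) ≠ 1 := by
  obtain ⟨w, hw, h1, h2, h3, h4⟩ := h.rs.bs _ (h.rs.frame i)
  rw [single_dotProduct, one_mul] at h1 h4
  refine ⟨w, hw, h1, ?_, by rwa [← sq]⟩
  by_contra H
  push Not at H
  have h5 := h.rs.norm w hw
  rw [dotProduct, Finset.sum_eq_single i (fun j _ hj => by rw [H j hj, mul_zero]) (by simp)] at h5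
  rcases mul_self_eq_one_iff.1 h5 with h6 | h6
  · exact h2 (h.nd _ (h.rs.frame i) _ hw (by rw [single_dotProduct, one_mul, h6])).symm
  · exact h3 (neg_eq_iff_eq_neg.1 (h.nd _ (h.rs.frame i) _ (h.rs.neg_mem hw) (by
      rw [single_dotProduct, one_mul, Pi.neg_apply, h6, neg_neg])).symm)

lemma exists_conn (J : Finset (Fin 5)) (h0 : 0 ∈ J) (h4 : 4 ∉ J) :
    ∃ w ∈ R, (∃ i ∈ J, w i ≠ 0) ∧ ∃ j ∉ J, w j ≠ 0 := by
  by_contra H
  push Not at H
  have h1 := h.rs.conn (Submodule.pi (↑J)ᶜ fun _ => ⊥) (fun w hw => by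
    by_cases h2 : ∃ i ∈ J, w i ≠ 0
    · exact Or.inl fun j hj => H w hw h2 j hj
    · push Not at h2
      refine Or.inr fun z hz => Finset.sum_eq_zero fun j _ => ?_
      by_cases hj : j ∈ J
      · rw [h2 j hj, zero_mul]
      · rw [show z j = 0 from hz j hj, mul_zero]) (h.rs.frame 0) fun j hj =>
    Pi.single_eq_of_ne (by rintro rfl; exact hj h0) _
  have h2 : (Pi.single 4 1 : V5 F) ∈ Submodule.pi (↑J)ᶜ fun _ => (⊥ : Submodule F F) :=
    h1 ▸ Submodule.mem_top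
  simpa using h2 4 h4

variable [Finite F]

lemma pair (hv : Pt R a b c d e) (ha : a ≠ 0) (hb : b ≠ 0) (hc : c ≠ 0) (hd : d ≠ 0) :
    Pr (4 * (a * a)) (4 * (b * b)) := by
  have h4 := h.four_ne
  refine ⟨fun h0 => ha (h.eq_zero (h.eq hv (h.f0 (h.f1 hv)) (mul_left_cancel₀ h.two (by
    linear_combination 2 * h.norm hv - h0))).1), ?_⟩
  have hr := h.refl (κ := 2 * a) hv h.e0 (by ring)
  have h5 : 4 * (a * a) * (4 * (b * b)) = 4 * ((0 - 2 * a * b) * (0 - 2 * a * b)) := by ring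
  have h6 := h5 ▸ h.sq1_ne hr (by simpa using ⟨⟨h.two, ha⟩, hc⟩)
  have h7 := mul_ne_zero h4 (mul_ne_zero ha ha)
  have h8 := mul_ne_zero h4 (mul_ne_zero hb hb)
  rcases h.t3R hv ha hb hc with H | H | ⟨k, hk, -, -, h9, H⟩
  · obtain ⟨e1, e2⟩ := H a b 1 (by simpa using hv)
    exact (pr_of_tyS e1 e2 h7 h8 (h.sq0_ne hv hc) (h.sq1_ne hv hc) h6).imp_right Or.inl
  · obtain ⟨e1, e2⟩ := H a b 1 (by simpa using hv)
    exact pr_of_tyA h4 e1 e2 (h5 ▸ (H _ _ (-(2 * a)) (by simpa using hr)).2) h7 h8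
      (h.sq0_ne hv hc) (h.sq1_ne hv hc) h6
  · exact (no_sub k h hv hc hd hk h9 H).elim

lemma pairs {v : V5 F} (hv : v ∈ R) {m : Fin 5} (hm : ∀ i, i ≠ m → v i ≠ 0) (i j : Fin 5)
    (hij : i ≠ j) (hi : i ≠ m) (hj : j ≠ m) : Pr (4 * (v i * v i)) (4 * (v j * v j)) := by
  obtain ⟨σ, rfl, rfl, h1, h2⟩ := exists_perm2' i j m hij hi hj
  exact (h.perm _).pair (pt_perm hv σ) (hm _ hi) (hm _ hj) (hm _ h1) (hm _ h2)

lemma not_five (hv : Pt R a b c d e) (ha : a ≠ 0) (hb : b ≠ 0) (hc : c ≠ 0) (hd : d ≠ 0) :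
    e = 0 := by
  by_contra he
  have h0 : ∀ i, ![a, b, c, d, e] i ≠ 0 := fun i => by fin_cases i <;> assumption
  refine five_false h.two (fun i => 4 * (![a, b, c, d, e] i * ![a, b, c, d, e] i))
    (fun i => mul_ne_zero h.four_ne (mul_ne_zero (h0 i) (h0 i))) ?_ fun i j hij => ?_
  · rw [← Finset.mul_sum]
    exact (congrArg (4 * ·) (h.rs.norm _ hv)).trans (mul_one _)
  · obtain ⟨m, h1, h2⟩ : ∃ m, i ≠ m ∧ j ≠ m := by clear hij; revert i j; decide
    exact h.pairs hv (fun i _ => h0 i) i j hij h1 h2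

lemma four (hv : Pt R a b c d e) (ha : a ≠ 0) (hb : b ≠ 0) (hc : c ≠ 0) (hd : d ≠ 0) :
    4 * (a * a) = 1 ∧ 4 * (b * b) = 1 ∧ 4 * (c * c) = 1 ∧ 4 * (d * d) = 1 := by
  obtain rfl := h.not_five hv ha hb hc hd
  have hp := h.pairs hv (m := 4) fun i hi => by fin_cases i <;> first | assumption | exact absurd rfl hi
  have h0 : ∀ {x : F}, x ≠ 0 → 4 * (x * x) ≠ 0 := fun hx => mul_ne_zero h.four_ne (mul_ne_zero hx hx)
  have hn := h.norm hv
  refine ⟨four_one h.two (h0 hb) (h0 hc) (h0 hd) ?_ (hp 0 1 ?_ ?_ ?_) (hp 0 2 ?_ ?_ ?_)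
      (hp 0 3 ?_ ?_ ?_) (hp 1 2 ?_ ?_ ?_) (hp 1 3 ?_ ?_ ?_) (hp 2 3 ?_ ?_ ?_),
    four_one h.two (h0 ha) (h0 hc) (h0 hd) ?_ (hp 1 0 ?_ ?_ ?_) (hp 1 2 ?_ ?_ ?_)
      (hp 1 3 ?_ ?_ ?_) (hp 0 2 ?_ ?_ ?_) (hp 0 3 ?_ ?_ ?_) (hp 2 3 ?_ ?_ ?_),
    four_one h.two (h0 ha) (h0 hb) (h0 hd) ?_ (hp 2 0 ?_ ?_ ?_) (hp 2 1 ?_ ?_ ?_)
      (hp 2 3 ?_ ?_ ?_) (hp 0 1 ?_ ?_ ?_) (hp 0 3 ?_ ?_ ?_) (hp 1 3 ?_ ?_ ?_),
    four_one h.two (h0 ha) (h0 hb) (h0 hc) ?_ (hp 3 0 ?_ ?_ ?_) (hp 3 1 ?_ ?_ ?_)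
      (hp 3 2 ?_ ?_ ?_) (hp 0 1 ?_ ?_ ?_) (hp 0 2 ?_ ?_ ?_) (hp 1 2 ?_ ?_ ?_)⟩ <;>
    first | decide | linear_combination 4 * hn

section N4

variable {η : F} (hη : 2 * η = 1) (hv : Pt R η η η η 0)
include hη hv

lemma heron (hw : Pt R a b c 0 e) (he : e ≠ 0) :
    (a + b + c) * ((-a + b + c) * ((a - b + c) * (a + b - c))) = 0 := by
  by_contra H
  simp only [mul_eq_zero, not_or] at H
  obtain ⟨h1, h2, h3, h4⟩ := H
  have h5 := h.refl (κ := a + b + c) hv hw (by linear_combination -(a + b + c) * hη)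
  rw [mul_zero, sub_zero] at h5
  refine he (h.not_five h5 (fun h0 => h2 ?_) (fun h0 => h3 ?_) (fun h0 => h4 ?_) fun h0 => h1 ?_)
  · linear_combination -2 * h0 - (a + b + c) * hη
  · linear_combination -2 * h0 - (a + b + c) * hη
  · linear_combination -2 * h0 - (a + b + c) * hη
  · linear_combination -2 * h0 - (a + b + c) * hη

lemma n4_two (hw : Pt R a b 0 0 e) (he : e ≠ 0) (hab : a ≠ 0 ∨ b ≠ 0) : 2 * (e * e) = 1 := by
  have key : ∀ {a b e}, Pt R a b 0 0 e → e ≠ 0 → a * a = b * b := fun hw he =>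
    sub_eq_zero.1 (mul_self_eq_zero.1 (by linear_combination -h.heron hη hv hw he))
  have h1 := key hw he
  have ha : a ≠ 0 := by
    rintro rfl
    exact hab.elim (· rfl) fun hb => hb (mul_self_eq_zero.1 (by linear_combination -h1))
  have h2 := key (by simpa using h.refl (κ := 2 * a) hw h.e0 (by ring))
    (neg_ne_zero.2 (mul_ne_zero (mul_ne_zero h.two ha) he))
  linear_combination 2 * h.norm hw + h2 + (2 - 4 * a * a) * h1

lemma n4_three (hw : Pt R a b c 0 e) (he : e ≠ 0) (hab : a ≠ 0 ∨ b ≠ 0 ∨ c ≠ 0) :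
    2 * (e * e) = 1 := by
  by_cases hc : c = 0
  · subst hc
    exact h.n4_two hη hv hw he (by simpa using hab)
  by_cases hb : b = 0
  · subst hb
    exact (h.perm _).n4_two hη hv.s12 hw.s12 he (Or.inr hc)
  by_cases ha : a = 0
  · subst ha
    exact (h.perm _).n4_two hη hv.s02 hw.s02 he (Or.inl hc)
  obtain ⟨e1, e2, e3, -⟩ := (h.perm _).four hw.s34 ha hb hc he
  have h3 : (3 : F) = 0 := by
    linear_combination 16 * h.heron hη hv hw he + (4 * a * a - 8 * b * b - 8 * c * c + 1) * e1 +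
      (4 * b * b - 8 * c * c - 1) * e2 + (4 * c * c - 3) * e3
  exact absurd (by linear_combination e1 - h3) (h.sq0_ne hw hc)

lemma n4_half : False := by
  obtain ⟨w, hw, he, ⟨j, hj, h1⟩, h2⟩ := h.exists_bs 4
  have h3 : w 0 ≠ 0 ∨ w 1 ≠ 0 ∨ w 2 ≠ 0 ∨ w 3 ≠ 0 := by
    fin_cases j
    exacts [Or.inl h1, Or.inr (Or.inl h1), Or.inr (Or.inr (Or.inl h1)),
      Or.inr (Or.inr (Or.inr h1)), absurd rfl hj]
  have hw' := pt_of_mem hw
  generalize w 0 = a, w 1 = b, w 2 = c, w 3 = d, w 4 = e at *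
  refine h2 ?_
  by_cases hd : d = 0
  · subst hd
    exact h.n4_three hη hv hw' he (by simpa using h3)
  by_cases hc : c = 0
  · subst hc
    exact (h.perm _).n4_three hη hv.s23 hw'.s23 he (Or.inr (Or.inr hd))
  by_cases hb : b = 0
  · subst hb
    exact (h.perm _).n4_three hη hv.s13 hw'.s13 he (Or.inr (Or.inr hc))
  by_cases ha : a = 0
  · subst ha
    exact (h.perm _).n4_three hη hv.s03 hw'.s03 he (Or.inr (Or.inr hc))
  exact absurd (h.not_five hw' ha hb hc hd) he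

end N4

lemma n4 (hv : Pt R a b c d e) (ha : a ≠ 0) (hb : b ≠ 0) (hc : c ≠ 0) (hd : d ≠ 0) : False := by
  obtain ⟨e1, e2, e3, e4⟩ := h.four hv ha hb hc hd
  obtain rfl := h.not_five hv ha hb hc hd
  have hη : (2 : F) * 2⁻¹ = 1 := mul_inv_cancel₀ h.two
  have key : ∀ {x : F} {P : F → Prop}, 4 * (x * x) = 1 → P x → P (-x) → P 2⁻¹ :=
    fun {x P} hx h1 h2 => by
      rcases mul_self_eq_mul_self_iff.1 (show 2⁻¹ * 2⁻¹ = x * x from mul_left_cancel₀ h.four_ne (by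
        linear_combination (2 * 2⁻¹ + 1) * hη - hx)) with e | e <;> rwa [e]
  have v1 := key (P := fun x => Pt R x b c d 0) e1 hv (h.f0 hv)
  have v2 := key (P := fun x => Pt R _ x c d 0) e2 v1 (h.f1 v1)
  have v3 := key (P := fun x => Pt R _ _ x d 0) e3 v2 (h.f2 v2)
  exact h.n4_half hη (key (P := fun x => Pt R _ _ _ x 0) e4 v3 (h.f3 v3))

lemma sup_three : Sup R 3 := fun v hv J hJ => by
  by_contra H
  obtain ⟨σ, h0, h1, h2, h3⟩ := exists_perm4 J (not_le.1 H)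
  exact (h.perm _).n4 (pt_perm hv σ) (hJ _ h0) (hJ _ h1) (hJ _ h2) (hJ _ h3)

omit [Finite F]

lemma exists_flip {p q r : F} (hw : Pt R a b c d e) (h1 : p * a ≠ 0 ∨ q * b ≠ 0 ∨ r * c ≠ 0) :
    ∃ a b c, Pt R a b c d e ∧ p * a + q * b + r * c ≠ 0 := by
  by_cases h0 : p * a + q * b + r * c = 0
  · rcases h1 with h1 | h1 | h1
    · exact ⟨_, _, _, h.f0 hw, fun h2 => h1 (h.eq_zero (by linear_combination h0 - h2))⟩
    · exact ⟨_, _, _, h.f1 hw, fun h2 => h1 (h.eq_zero (by linear_combination h0 - h2))⟩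
    · exact ⟨_, _, _, h.f2 hw, fun h2 => h1 (h.eq_zero (by linear_combination h0 - h2))⟩
  · exact ⟨_, _, _, hw, h0⟩

section N5

variable (hs : Sup R 3) {x y z : F} (hv : Pt R x y z 0 0) (hx : x ≠ 0) (hy : y ≠ 0) (hz : z ≠ 0)
include hs hv hx hy hz

lemma n5a (hw : Pt R a b c d e) (hd : d ≠ 0) (he : e ≠ 0) : a = 0 ∧ b = 0 ∧ c = 0 := by
  have key : ∀ {a b c}, Pt R a b c d e → (a = 0 ∨ b = 0) ∧ (a = 0 ∨ c = 0) ∧ (b = 0 ∨ c = 0) :=
    fun {a b c} hw => by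
      refine ⟨?_, ?_, ?_⟩ <;> by_contra H <;> push Not at H
      · exact absurd (hs _ hw {0, 1, 3, 4} (by simp [*])) (by decide)
      · exact absurd (hs _ hw {0, 2, 3, 4} (by simp [*])) (by decide)
      · exact absurd (hs _ hw {1, 2, 3, 4} (by simp [*])) (by decide)
  have h1 := h.refl hv hw rfl
  simp only [mul_zero, sub_zero] at h1
  obtain ⟨k1, k2, k3⟩ := key hw
  obtain ⟨l1, l2, l3⟩ := key h1
  have h2 := h.two
  refine ⟨?_, ?_, ?_⟩ <;> by_contra H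
  · simp [k1.resolve_left H, k2.resolve_left H, *] at l3
  · simp [k1.resolve_right H, k3.resolve_left H, *] at l2
  · simp [k2.resolve_right H, k3.resolve_right H, *] at l1

lemma n5c {p q r f : F} (hw : Pt R p q r 0 f) (hf : f ≠ 0) (hp : p ≠ 0 ∨ q ≠ 0 ∨ r ≠ 0) :
    False := by
  have h2 := h.two
  have c1 : ∀ {a b c d e}, Pt R a b c d e → d ≠ 0 → e ≠ 0 → 2 * (d * d) = 1 :=
    fun {a b c d e} hu hd he => by
      obtain ⟨rfl, rfl, rfl⟩ := h.n5a hs hv hx hy hz hu hd he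
      have h3 := h.refl (κ := 2 * (e * f)) hu hw (by ring)
      by_contra H
      obtain ⟨e1, e2, e3⟩ := h.n5a hs hv hx hy hz h3 (by simp [*]) fun h4 => H (by
        linear_combination 2 * h.norm hu + (mul_left_cancel₀ hf (show f * (1 - 2 * (e * e)) = f * 0 by
          linear_combination h4)))
      simp only [mul_zero, sub_zero] at e1 e2 e3
      simp [*] at hp
  have c3 : ∀ {a b c d}, Pt R a b c d 0 → d ≠ 0 → p * a ≠ 0 ∨ q * b ≠ 0 ∨ r * c ≠ 0 →
      2 * (d * d) = 1 := fun {a b c d} hu hd h3 => by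
    obtain ⟨a, b, c, hu, h4⟩ := h.exists_flip hu h3
    simpa using c1 (h.refl (κ := 2 * (p * a + q * b + r * c)) hw hu (by ring)) (by simpa)
      (by simp [*])
  obtain ⟨w, hw', hd, ⟨j, hj, h3⟩, h4⟩ := h.exists_bs 3
  have hu := pt_of_mem hw'
  refine h4 ?_
  by_cases he : w 4 = 0
  swap
  · exact c1 hu hd he
  have h5 : x * w 0 ≠ 0 ∨ y * w 1 ≠ 0 ∨ z * w 2 ≠ 0 := by
    fin_cases j
    exacts [Or.inl (mul_ne_zero hx h3), Or.inr (Or.inl (mul_ne_zero hy h3)),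
      Or.inr (Or.inr (mul_ne_zero hz h3)), absurd rfl hj, absurd he h3]
  rw [he] at hu
  obtain ⟨a, b, c, hu, h6⟩ := h.exists_flip hu h5
  by_cases h7 : p * a ≠ 0 ∨ q * b ≠ 0 ∨ r * c ≠ 0
  · exact c3 hu hd h7
  push Not at h7
  have h8 := h.refl (κ := 2 * (x * a + y * b + z * c)) hv hu (by ring)
  simp only [mul_zero, sub_zero] at h8
  refine c3 h8 hd ?_
  rw [mul_sub, mul_sub, mul_sub, h7.1, h7.2.1, h7.2.2]
  simpa [h2, h6, hx, hy, hz] using hp

lemma n5 : False := by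
  obtain ⟨w, hw, ⟨i, hi, h1⟩, j, hj, h2⟩ := h.exists_conn {0, 1, 2} (by decide) (by decide)
  have hu := pt_of_mem hw
  have h3 : w 0 ≠ 0 ∨ w 1 ≠ 0 ∨ w 2 ≠ 0 := by
    simp only [Finset.mem_insert, Finset.mem_singleton] at hi
    rcases hi with rfl | rfl | rfl <;> simp [h1]
  have h4 : w 3 ≠ 0 ∨ w 4 ≠ 0 := by
    obtain rfl | rfl : j = 3 ∨ j = 4 := by clear h2; revert j; decide
    exacts [Or.inl h2, Or.inr h2]
  by_cases hd : w 3 = 0
  · rw [hd] at hu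
    exact h.n5c hs hv hx hy hz hu (h4.resolve_left (· hd)) h3
  by_cases he : w 4 = 0
  · rw [he] at hu
    exact (h.perm _).n5c (hs.perm _) hv.s34 hx hy hz hu.s34 hd h3
  · simp [h.n5a hs hv hx hy hz hu hd he] at h3

end N5

lemma sup_two (hs : Sup R 3) : Sup R 2 := fun v hv J hJ => by
  by_contra H
  obtain ⟨σ, h0, h1, h2⟩ := exists_perm3 J (not_le.1 H)
  have hu := pt_perm hv σ
  have hs' := hs.perm σ.symm
  have := hJ _ h0
  have := hJ _ h1
  have := hJ _ h2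
  have h3 : v (σ 3) = 0 := by_contra fun h3 =>
    absurd (hs' _ hu {0, 1, 2, 3} (by simp [*])) (by decide)
  have h4 : v (σ 4) = 0 := by_contra fun h3 =>
    absurd (hs' _ hu {0, 1, 2, 4} (by simp [*])) (by decide)
  rw [h3, h4] at hu
  exact (h.perm _).n5 hs' hu (hJ _ h0) (hJ _ h1) (hJ _ h2)

lemma n6a (hs : Sup R 2) (hv : Pt R a b c d e) (ha : a ≠ 0) (hb : b ≠ 0) : 2 * (a * a) = 1 := by
  obtain rfl : c = 0 := by_contra fun h3 => absurd (hs _ hv {0, 1, 2} (by simp [*])) (by decide)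
  obtain rfl : d = 0 := by_contra fun h3 => absurd (hs _ hv {0, 1, 3} (by simp [*])) (by decide)
  obtain rfl : e = 0 := by_contra fun h3 => absurd (hs _ hv {0, 1, 4} (by simp [*])) (by decide)
  obtain ⟨w, hw, ⟨i, hi, h1⟩, j, hj, h2⟩ := h.exists_conn {0, 1} (by decide) (by decide)
  have key : ∀ u ∈ R, u j ≠ 0 → u 0 = 0 ∨ u 1 = 0 := fun u hu h3 => by
    by_contra H
    push Not at H
    exact absurd (hs _ hu {0, 1, j} (by simp [*])) (by clear h2 h3; revert j; decide)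
  have h3 := key _ (h.rs.refl _ hv _ hw) (by
    obtain rfl | rfl | rfl : j = 2 ∨ j = 3 ∨ j = 4 := by clear h2 key; revert j; decide
    all_goals simpa [rf_apply] using h2)
  have h4 : ![a, b, 0, 0, 0] ⬝ᵥ w = a * w 0 + b * w 1 := by simp [dotProduct, Fin.sum_univ_five]
  simp only [rf_apply, h4, cons_val_zero, cons_val_one] at h3
  have h5 := h.two
  simp only [Finset.mem_insert, Finset.mem_singleton] at hi
  rcases hi with rfl | rfl
  · rw [(key w hw h2).resolve_left h1] at h3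
    exact mul_left_cancel₀ h1 (by linear_combination -(h3.resolve_right (by simp [*])))
  · rw [(key w hw h2).resolve_right h1] at h3
    exact mul_left_cancel₀ h1 (by
      linear_combination 2 * w 1 * h.norm hv + h3.resolve_left (by simp [*]))

lemma n6 (hs : Sup R 2) : False := by
  obtain ⟨w, hw, h0, ⟨j, hj, h1⟩, h2⟩ := h.exists_bs 0
  obtain ⟨σ, e0, rfl⟩ := exists_perm2 0 j hj.symm
  rw [← e0] at h0 h2
  exact h2 ((h.perm _).n6a (hs.perm _) (pt_perm hw σ) h0 h1)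

end RN

/-- Every root set has a degenerate pair. -/
theorem nd : NDStmt.{u} := fun F _ _ R hR => by
  by_contra H
  push Not at H
  have h : RN R := ⟨hR, H⟩
  exact h.n6 (h.sup_two h.sup_three)

end Cfsg.Agent.H80.ND
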