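import Cfsg.Agent.H77.SgDefs

/-! A subgroup of `AGL₁(q)` of order at least `q` contains all translations. -/

set_option autoImplicit false

namespace Cfsg.Agent.H80.SgAgl

open Cfsg.Agent.H77.Sg

universe u v

section abstract

variable {F : Type u} [Field F] [Fintype F] {P : F → F → Prop}

theorem cancel {e u : F} (he : e ≠ 0) (h : ∀ k, P 1 k → P 1 (e * k)) (hu : P 1 (e * u)) :
    P 1 u := by
  have key : ∀ n : ℕ, P 1 (e ^ (n + 1) * u) := fun n => by
    induction n with
    | zero => simpa using hu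
    | succ n ih => have := h _ ih; rwa [← mul_assoc, ← pow_succ'] at this
  have h1 := FiniteField.pow_card_sub_one_eq_one e he
  have h2 := key (Fintype.card F - 2)
  have h3 := Fintype.one_lt_card (α := F)
  rwa [show Fintype.card F - 2 + 1 = Fintype.card F - 1 by omega, h1, one_mul] at h2

theorem small (hn : ∀ α γ, P α γ → α ≠ 0)
    (hm : ∀ α γ β δ, P α γ → P β δ → P (α * β) (β * γ + δ))
    (hi : ∀ α γ, P α γ → P α⁻¹ (-(α⁻¹ * γ))) {u : F} (hu : ¬ P 1 u) (S : Finset (F × F))
    (hS : ∀ s ∈ S, P s.1 s.2) : S.card < Fintype.card F := by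
  classical
  have sub : ∀ α γ δ, P α γ → P α δ → P 1 (γ - δ) := fun α γ δ h k => by
    have h0 := hn _ _ h
    have := hm _ _ _ _ (hi _ _ k) h
    convert this using 1 <;> field_simp
    ring
  have mul : ∀ α γ, P α γ → ∀ k, P 1 k → P 1 (α * k) := fun α γ h k hk => by
    have h0 := hn _ _ h
    have := hm _ _ _ _ (hm _ _ _ _ (hi _ _ h) hk) h
    convert this using 1 <;> field_simp
    ring
  let s : F → F := fun α => if h : ∃ γ, P α γ then h.choose else 0
  have hs : ∀ α γ, P α γ → P α (s α) := fun α γ h => by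
    have e : ∃ γ, P α γ := ⟨γ, h⟩
    simp only [s, dif_pos e]
    exact e.choose_spec
  have h1 : S.card ≤ (Finset.univ.erase (0 : F)).card := by
    refine Finset.card_le_card_of_injOn (fun p => p.1 * u + (p.2 - s p.1)) ?_ ?_
    · intro p hp
      have h := hS p hp
      simp only [Finset.coe_erase, Finset.coe_univ, Set.mem_sdiff, Set.mem_univ,
        Set.mem_singleton_iff, true_and]
      intro e
      refine hu (cancel (hn _ _ h) (mul _ _ h) ?_)
      rw [show p.1 * u = s p.1 - p.2 by linear_combination e]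
      exact sub _ _ _ (hs _ _ h) h
    · rintro ⟨α, γ⟩ hp ⟨β, δ⟩ hq e
      have h : P α γ := hS _ hp
      have k : P β δ := hS _ hq
      simp only at e
      by_cases hab : α = β
      · subst hab
        rw [show γ = δ by linear_combination e]
      · refine (hu (cancel (sub_ne_zero.2 hab) (fun t ht => ?_) ?_)).elim
        · rw [sub_mul]
          exact sub _ _ _ (mul _ _ h t ht) (mul _ _ k t ht)
        · rw [show (α - β) * u = (δ - s β) - (γ - s α) by linear_combination e]
          exact sub _ _ _ (sub _ _ _ k (hs _ _ k)) (sub _ _ _ h (hs _ _ h))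
  rw [Finset.card_erase_of_mem (Finset.mem_univ _), Finset.card_univ] at h1
  have := Fintype.card_pos (α := F)
  omega

end abstract

theorem agl : AglStmt.{u, v} := by
  intro F V _ _ _ _ X Z hZ H x y hx hy c
  classical
  have := Fintype.ofFinite F
  rw [Nat.card_eq_fintype_card] at hZ
  let P : F → F → Prop := fun α γ => ∃ g ∈ X, g x = x ∧ g y = α • y + γ • x
  suffices h : P 1 c by simpa [P] using h
  by_contra hu
  have hn : ∀ α γ, P α γ → α ≠ 0 := by
    rintro α γ ⟨g, -, h1, h2⟩ rfl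
    refine hy (Submodule.mem_span_singleton.2 ⟨γ, g.injective ?_⟩)
    rw [map_smul, h1, h2, zero_smul, zero_add]
  have hm : ∀ α γ β δ, P α γ → P β δ → P (α * β) (β * γ + δ) := by
    rintro α γ β δ ⟨g, hg, h1, h2⟩ ⟨k, hk, k1, k2⟩
    refine ⟨g * k, mul_mem hg hk, ?_, ?_⟩
    · rw [LinearEquiv.mul_apply, k1, h1]
    · rw [LinearEquiv.mul_apply, k2, map_add, map_smul, map_smul, h1, h2]
      module
  have hi : ∀ α γ, P α γ → P α⁻¹ (-(α⁻¹ * γ)) := fun α γ h => by
    have h0 := hn _ _ h
    obtain ⟨g, hg, h1, h2⟩ := h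
    refine ⟨g⁻¹, inv_mem hg, ?_, ?_⟩
    · exact g.symm_apply_eq.2 h1.symm
    · refine g.symm_apply_eq.2 ?_
      rw [map_add, map_smul, map_smul, h1, h2, smul_add, smul_smul, inv_mul_cancel₀ h0, smul_smul]
      module
  have hy' : ∀ p : F × F, p.1 ≠ 0 → p.1 • y + p.2 • x ∉ F ∙ x := fun p hp h => by
    refine hy ?_
    have h1 := Submodule.smul_mem _ p.1⁻¹ (Submodule.sub_mem _ h
      (Submodule.smul_mem _ p.2 (Submodule.mem_span_singleton_self x)))
    rwa [add_sub_cancel_right, smul_smul, inv_mul_cancel₀ hp, one_smul] at h1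
  choose! f hf g hg h1 h2 using fun (p : F × F) (hp : p.1 ≠ 0) => H x _ hx (hy' p hp)
  let D : Finset (F × F) := Finset.univ.erase (0 : F) ×ˢ Finset.univ
  have hD : ∀ p ∈ D, p.1 ≠ 0 := fun p hp => (Finset.mem_erase.1 (Finset.mem_product.1 hp).1).1
  have q1 := Fintype.one_lt_card (α := F)
  obtain ⟨z, -, hz⟩ := Finset.exists_lt_card_fiber_of_mul_lt_card_of_maps_to (s := D) (t := Z)
    (f := f) (n := Fintype.card F - 1) (fun p hp => hf p (hD p hp)) (by
      rw [Finset.card_product, Finset.card_erase_of_mem (Finset.mem_univ _), Finset.card_univ,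
        mul_comm]
      exact Nat.mul_lt_mul_of_pos_left hZ (by omega))
  obtain ⟨p₀, hp₀⟩ := Finset.card_pos.1 (lt_of_le_of_lt (Nat.zero_le _) hz)
  obtain ⟨d₀, e₀⟩ := Finset.mem_filter.1 hp₀
  have n₀ := hD _ d₀
  have inj : Function.Injective fun p : F × F => (p₀.1⁻¹ * p.1, p₀.1⁻¹ * (p.2 - p₀.2)) := by
    intro p r e
    obtain ⟨e1, e2⟩ := Prod.ext_iff.1 e
    exact Prod.ext (mul_left_cancel₀ (inv_ne_zero n₀) e1)
      (sub_left_injective (mul_left_cancel₀ (inv_ne_zero n₀) e2))
  have := small hn hm hi hu ((D.filter fun p => f p = z).map ⟨_, inj⟩) (by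
    intro s hs
    obtain ⟨p, hp, rfl⟩ := Finset.mem_map.1 hs
    obtain ⟨d, e⟩ := Finset.mem_filter.1 hp
    have n := hD _ d
    have a1 : ((g p)⁻¹ * g p₀) x = x := by
      rw [LinearEquiv.mul_apply]
      exact (g p).symm_apply_eq.2 (by rw [h1 p n, h1 p₀ n₀, e, e₀])
    have a2 : ((g p)⁻¹ * g p₀) (p₀.1 • y + p₀.2 • x) = p.1 • y + p.2 • x := by
      rw [LinearEquiv.mul_apply]
      exact (g p).symm_apply_eq.2 (by rw [h2 p n, h2 p₀ n₀, e, e₀])
    refine ⟨_, mul_mem (inv_mem (hg p n)) (hg p₀ n₀), a1, ?_⟩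
    rw [map_add, map_smul, map_smul, a1] at a2
    have a3 := congrArg (fun w => p₀.1⁻¹ • (w - p₀.2 • x)) a2
    simp only [add_sub_cancel_right, smul_smul, inv_mul_cancel₀ n₀, one_smul] at a3
    rw [a3]
    simp only [Function.Embedding.coeFn_mk]
    module)
  rw [Finset.card_map] at this
  omega

end Cfsg.Agent.H80.SgAgl
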