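import Cfsg.Agent.H21.DSDefs

/-!
Project DS, piece LINE: a linear character from an endo-permutation module.
-/

set_option autoImplicit false

namespace Cfsg.Agent.H80.DsLine

open Matrix Cfsg.Agent.H21.DS

universe u

variable {k : Type} [Field k] {A : Type u} [CommGroup A] [Fintype A] {n : ℕ}
  {Y : Type u} [Group Y]

/-- Renaming the variables. -/
noncomputable def ren (k : Type) [Field k] (α : Y →* MulAut A) :
    Y →* (MvPolynomial A k ≃ₐ[k] MvPolynomial A k) :=
  MonoidHom.mk' (fun y => MvPolynomial.renameEquiv k (α y).toEquiv) (fun y y' => by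
    apply AlgEquiv.coe_toAlgHom_injective
    apply MvPolynomial.algHom_ext
    intro a
    simp)

/-- The induced automorphisms of the field of rational functions. -/
noncomputable def fa (k : Type) [Field k] (α : Y →* MulAut A) :
    Y →* (Kf k A ≃ₐ[k] Kf k A) :=
  (IsFractionRing.fieldEquivOfAlgEquivHom k (Kf k A)).comp (ren k α)

omit [Fintype A] in
theorem fa_alg (α : Y →* MulAut A) (y : Y) (f : MvPolynomial A k) :
    fa k α y (algebraMap _ (Kf k A) f) = algebraMap _ (Kf k A) (ren k α y f) :=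
  IsFractionRing.fieldEquivOfAlgEquiv_algebraMap k (Kf k A) (Kf k A) _ f

omit [Fintype A] in
theorem fa_X (α : Y →* MulAut A) (y : Y) (a : A) :
    fa k α y (algebraMap _ (Kf k A) (MvPolynomial.X a : MvPolynomial A k)) =
      algebraMap _ (Kf k A) (MvPolynomial.X (α y a) : MvPolynomial A k) := by
  rw [fa_alg]
  simp [ren]

omit [Fintype A] in
theorem fa_one (α : Y →* MulAut A) {z : Y} (hz : α z = 1) : fa k α z = 1 := by
  have : ren k α z = 1 := by
    apply AlgEquiv.coe_toAlgHom_injective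
    apply MvPolynomial.algHom_ext
    intro a
    simp [ren, hz]
  simp only [fa, MonoidHom.comp_apply, this, map_one]

/-- Extension of scalars. -/
noncomputable abbrev ex (A : Type u) (M : Mat n k) : Mat n (Kf k A) :=
  M.map (algebraMap k (Kf k A))

omit [CommGroup A] [Fintype A] in
theorem ex_mul (M N : Mat n k) : ex A (M * N) = ex A M * ex A N := Matrix.map_mul

omit [CommGroup A] [Fintype A] in
theorem ex_one : ex A (1 : Mat n k) = 1 := Matrix.map_one _ (map_zero _) (map_one _)

theorem nil (p : ℕ) [Fact p.Prime] [CharP k p] (hA : IsPGroup p A) (hn : n ≠ 0)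
    (ρ : A →* Mat n k) : IsNilpotent (Th ρ) := by
  haveI : Nonempty (Fin n) := ⟨⟨0, Nat.pos_of_ne_zero hn⟩⟩
  haveI : CharP (Kf k A) p := charP_of_injective_algebraMap (algebraMap k (Kf k A)).injective p
  have hc : ∀ g h : A, Commute (ex A (ρ g)) (ex A (ρ h)) := fun g h => by
    rw [Commute, SemiconjBy, ← ex_mul, ← ex_mul, ← map_mul, ← map_mul, mul_comm]
  refine Commute.isNilpotent_sum (fun g _ => IsNilpotent.smul ?_ _) fun g h _ _ => ?_
  · obtain ⟨m, hm⟩ := hA g
    refine ⟨p ^ m, ?_⟩
    rw [sub_pow_char_pow_of_commute p m (Commute.one_right _), one_pow, sub_eq_zero]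
    have := map_pow ((algebraMap k (Kf k A)).mapMatrix (m := Fin n)) (ρ g) (p ^ m)
    rw [← map_pow, hm, map_one, map_one] at this
    exact this.symm
  · exact (((hc g h).sub_left (Commute.one_left _)).sub_right (Commute.one_right _)).smul_left _
      |>.smul_right _

section act

variable (α : Y →* MulAut A) (σ : Y →* Mat n k)

/-- The semilinear action. -/
noncomputable def act (y : Y) (v : Fin n → Kf k A) : Fin n → Kf k A :=
  ex A (σ y) *ᵥ (fun j => fa k α y (v j))

omit [Fintype A] in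
theorem map_mv (y : Y) (M : Mat n (Kf k A)) (v : Fin n → Kf k A) :
    (fun j => fa k α y ((M *ᵥ v) j)) = M.map (fa k α y) *ᵥ (fun j => fa k α y (v j)) := by
  funext j
  exact RingHom.map_mulVec (fa k α y : Kf k A →+* Kf k A) M v j

omit [Fintype A] in
theorem map_ex (y : Y) (M : Mat n k) : (ex A M).map (fa k α y) = ex A M := by
  ext i j
  simp [Matrix.map_apply]

omit [Fintype A] in
theorem act_mul (y y' : Y) (v : Fin n → Kf k A) :
    act α σ (y * y') v = act α σ y (act α σ y' v) := by
  unfold act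
  rw [map_mv, map_ex, mulVec_mulVec, ← ex_mul, ← map_mul]
  simp

omit [Fintype A] in
theorem act_one (v : Fin n → Kf k A) : act α σ 1 v = v := by
  unfold act
  rw [map_one, ex_one, one_mulVec]
  simp

omit [Fintype A] in
theorem act_sub_smul (y : Y) (v w : Fin n → Kf k A) (c : Kf k A) :
    act α σ y (v - c • w) = act α σ y v - fa k α y c • act α σ y w := by
  unfold act
  rw [← mulVec_smul, ← mulVec_sub]
  congr 1
  funext j
  simp

omit [Fintype A] in
theorem act_zero (y : Y) : act α σ y (0 : Fin n → Kf k A) = 0 := by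
  unfold act
  rw [← mulVec_zero (ex A (σ y))]
  congr 1
  funext j
  simp

variable {α σ} {ρ : A →* Mat n k} (h : ∀ y a, σ y * ρ a = ρ (α y a) * σ y)
include h

theorem act_Th (y : Y) (v : Fin n → Kf k A) :
    act α σ y (Th ρ *ᵥ v) = Th ρ *ᵥ act α σ y v := by
  unfold act
  rw [map_mv, mulVec_mulVec, mulVec_mulVec]
  congr 1
  have e : (Th ρ).map (fa k α y) = ∑ g, algebraMap (MvPolynomial A k) (Kf k A)
      (MvPolynomial.X (α y g)) • (ex A (ρ g) - 1) := by
    ext i j
    simp only [Th, Matrix.map_apply, Matrix.sum_apply, Matrix.smul_apply, smul_eq_mul, map_sum,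
      map_mul, fa_X, Matrix.sub_apply, map_sub, AlgEquiv.commutes, Matrix.one_apply]
    refine Finset.sum_congr rfl fun g _ => ?_
    split_ifs <;> simp
  rw [e, Th, Finset.mul_sum, Finset.sum_mul]
  conv_rhs => rw [← Equiv.sum_comp (α y).toEquiv]
  refine Finset.sum_congr rfl fun g _ => ?_
  rw [Matrix.mul_smul, Matrix.smul_mul, mul_sub, sub_mul, mul_one, one_mul, ← ex_mul, h, ex_mul]
  rfl

theorem act_Fl (y : Y) (a : ℕ) {v : Fin n → Kf k A} (hv : v ∈ Fl (Th ρ) a) :
    act α σ y v ∈ Fl (Th ρ) a := by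
  obtain ⟨h1, w, h2⟩ := hv
  refine ⟨?_, act α σ y w, ?_⟩
  · rw [SetLike.mem_coe, LinearMap.mem_ker, toLin'_apply] at h1 ⊢
    rw [← act_Th h, h1, act_zero]
  · rw [toLin'_apply] at h2 ⊢
    rw [← h2]
    clear h2 h1
    induction a with
    | zero => simp
    | succ a ih => rw [pow_succ', ← mulVec_mulVec, ← mulVec_mulVec, act_Th h, ih]

end act

/-- The matrix form. -/
theorem line_mat (hJ : JordStmt.{u}) (hG : GcdStmt.{u}) [Finite Y] (α : Y →* MulAut A)
    (σ : Y →* Mat n k) (ρ : A →* Mat n k) (h : ∀ y a, σ y * ρ a = ρ (α y a) * σ y)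
    (hnil : IsNilpotent (Th ρ)) (hn : (n : k) ≠ 0) (hr : RkOne (Th ρ)) :
    ∃ μ : Y →* kˣ, ∀ z, α z = 1 → ∀ c : k, σ z = c • 1 → (μ z : k) = c := by
  have hn' : (n : Kf k A) ≠ 0 := by
    rw [← map_natCast (algebraMap k (Kf k A))]
    exact (map_ne_zero _).2 hn
  obtain ⟨a, v, hv, hv', hall⟩ := hJ _ n (Th ρ) hnil hn' hr
  choose t ht using fun y => hall _ (act_Fl h y a hv)
  have uniq : ∀ (w : Fin n → Kf k A) (c c' : Kf k A), w - c • v ∈ Fl (Th ρ) (a + 1) →
      w - c' • v ∈ Fl (Th ρ) (a + 1) → c = c' := by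
    intro w c c' h1 h2
    by_contra hne
    apply hv'
    have h3 := Submodule.smul_mem _ (c - c')⁻¹ (Submodule.sub_mem _ h2 h1)
    rwa [sub_sub_sub_cancel_left, ← sub_smul, smul_smul, inv_mul_cancel₀ (sub_ne_zero.2 hne),
      one_smul] at h3
  have tmul : ∀ y y', t (y * y') = t y * fa k α y (t y') := by
    intro y y'
    refine uniq _ _ _ (ht (y * y')) ?_
    have h1 := act_Fl h y _ (ht y')
    rw [act_sub_smul, ← act_mul] at h1
    have h2 := Submodule.add_mem _ h1 (Submodule.smul_mem _ (fa k α y (t y')) (ht y))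
    rwa [smul_sub, sub_add_sub_cancel, smul_smul, mul_comm] at h2
  have tone : t 1 = 1 := uniq _ _ _ (ht 1) (by rw [act_one, one_smul, sub_self]; exact zero_mem _)
  have tne : ∀ y, t y ≠ 0 := fun y h0 => by
    have := tmul y y⁻¹
    rw [mul_inv_cancel, tone, h0, zero_mul] at this
    exact one_ne_zero this
  obtain ⟨w, μ, hw, hμ⟩ := hG k A Y (fa k α) (fun y f => ⟨_, fa_alg α y f⟩) t tne tmul
  refine ⟨μ, fun z hz c hc => ?_⟩
  have tz : t z = algebraMap k (Kf k A) c := by
    refine uniq _ _ _ (ht z) ?_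
    have : act α σ z v = algebraMap k (Kf k A) c • v := by
      unfold act
      have e : ex A (c • (1 : Mat n k)) = algebraMap k (Kf k A) c • (1 : Mat n (Kf k A)) := by
        ext i j
        by_cases hij : i = j <;> simp [Matrix.map_apply, Matrix.one_apply, hij]
      rw [hc, fa_one α hz, e, smul_mulVec, one_mulVec]
      rfl
    rw [this, sub_self]
    exact zero_mem _
  have := hμ z
  rw [tz, fa_one α hz] at this
  exact ((algebraMap k (Kf k A)).injective (mul_right_cancel₀ hw this)).symm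

/-- LINE. -/
theorem line (hK : KerStmt.{u}) (hJ : JordStmt.{u}) (hG : GcdStmt.{u}) : LineStmt.{u} := by
  intro k _ p _ _ A _ _ hA Y _ _ α U _ _ _ ρ σ h hn X _ _ r i h1 h2 h3 h4
  classical
  let e : Module.End k U ≃ₐ[k] Mat (Module.finrank k U) k :=
    LinearMap.toMatrixAlgEquiv (Module.finBasis k U)
  let ρ' : A →* Mat (Module.finrank k U) k := (e : Module.End k U →* _).comp ρ
  let σ' : Y →* Mat (Module.finrank k U) k := (e : Module.End k U →* _).comp σ
  have eρ : ∀ a, ρ' a = e (ρ a) := fun _ => rfl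
  have eσ : ∀ y, σ' y = e (σ y) := fun _ => rfl
  let s : X → Mat (Module.finrank k U) k := fun x =>
    Matrix.of fun l m => i (e.symm (single m l 1)) x
  have hs : ∀ T x, (T * s x).trace = i (e.symm T) x := by
    intro T x
    conv_rhs => rw [matrix_eq_sum_single T]
    simp only [Matrix.trace, Matrix.diag_apply, Matrix.mul_apply, map_sum, Finset.sum_apply, s,
      Matrix.of_apply]
    refine Finset.sum_congr rfl fun m _ => Finset.sum_congr rfl fun l _ => ?_
    rw [show single m l (T m l) = T m l • single m l (1 : k) by simp, map_smul, map_smul]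
    rfl
  have hF : Frame ρ' (fun x => e (r x)) s := by
    refine ⟨fun T => ?_, fun a x => ?_, fun a x => ?_, fun x hx => ?_⟩
    · simp only [hs, ← map_smul, ← map_sum, h1, AlgEquiv.apply_symm_apply]
    · rw [h2, map_mul, map_mul, eρ, eρ]
    · rw [Matrix.ext_iff_trace_mul_left]
      intro T
      rw [← mul_assoc, Matrix.trace_mul_comm _ (ρ' a⁻¹), ← mul_assoc, ← mul_assoc, hs,
        hs, ← h3 a (e.symm (ρ' a⁻¹ * T * ρ' a)), eρ, eρ, map_mul e.symm,
        map_mul e.symm, AlgEquiv.symm_apply_apply,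
        AlgEquiv.symm_apply_apply]
      rw [← mul_assoc, ← mul_assoc, ← map_mul, mul_inv_cancel, map_one, one_mul, mul_assoc,
        ← map_mul, mul_inv_cancel, map_one, mul_one]
    · obtain ⟨c, hc⟩ := h4 x hx
      exact ⟨c, by rw [hc, map_smul, map_one]⟩
  have hn0 : Module.finrank k U ≠ 0 := fun h0 => hn (by rw [h0, Nat.cast_zero])
  obtain ⟨μ, hμ⟩ := line_mat hJ hG α σ' ρ'
    (fun y a => by rw [eσ, eρ, eρ, ← map_mul, h, map_mul]) (nil p hA hn0 ρ') hn
    (hK k p A hA _ ρ' X _ s hF)
  exact ⟨μ, fun z hz c hc => hμ z hz c (by rw [eσ, hc, map_smul, map_one])⟩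

end Cfsg.Agent.H80.DsLine
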