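import Mathlib
import Cfsg.Agent.H80.F23Kit

/-!
# Rational groups of degree 23: lattices of determinant 23, transport to the Leech lattice
-/

set_option autoImplicit false

namespace Cfsg.Agent.H80.F23

open Module Matrix

universe u

section lat

variable {W : Type*} [AddCommGroup W] [Module ℚ W] {B : LinearMap.BilinForm ℚ W} {L : Submodule ℤ W}
variable {W' : Type*} [AddCommGroup W'] [Module ℚ W'] {B' : LinearMap.BilinForm ℚ W'} {L' : Submodule ℤ W'}

/-- An even lattice whose dual is generated by `y` of norm `c / 23`. -/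
structure GD (B : LinearMap.BilinForm ℚ W) (L : Submodule ℤ W) (y : W) (c : ℤ) : Prop where
  pd : PD B
  ev : EvLat B L
  mem : y ∈ dual B L
  val : B y y = c / 23
  gen : ∀ z ∈ dual B L, ∃ k : ℤ, z - k • y ∈ L
  smul : (23 : ℤ) • y ∈ L
  ndvd : ¬ 23 ∣ c

variable {y : W} {y' : W'} {c c' : ℤ}

theorem GD.dvd (h : GD B L y c) {k j : ℤ} (e : k * B y y = j) : 23 ∣ k := by
  have h1 : k * c = 23 * j := by
    rw [h.val] at e
    exact_mod_cast (by linarith : (k * c : ℚ) = 23 * j)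
  exact ((Int.prime_iff_natAbs_prime.2 (by norm_num)).dvd_or_dvd ⟨j, h1⟩).resolve_right h.ndvd

theorem GD.smul_mem (h : GD B L y c) {k : ℤ} (e : 23 ∣ k) : k • y ∈ L := by
  obtain ⟨k, rfl⟩ := e
  rw [mul_comm, mul_smul]
  exact L.smul_mem k h.smul

theorem GD.dvd_of_mem (h : GD B L y c) {k : ℤ} (e : k • y ∈ L) : 23 ∣ k := by
  obtain ⟨j, hj⟩ := mem_dual.1 h.mem _ e
  exact h.dvd (j := j) (by simpa using hj)

theorem GD.mul (h : GD B L y c) {t : ℤ} (ht : ¬ 23 ∣ t) : GD B L (t • y) (t ^ 2 * c) := by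
  have hp : Prime (23 : ℤ) := Int.prime_iff_natAbs_prime.2 (by norm_num)
  refine ⟨h.pd, h.ev, Submodule.smul_mem _ t h.mem, by simp [h.val]; ring, fun z hz => ?_,
    smul_comm t (23 : ℤ) y ▸ L.smul_mem t h.smul, fun e => (hp.dvd_or_dvd e).elim
      (fun e => ht (hp.dvd_of_dvd_pow e)) h.ndvd⟩
  obtain ⟨k, hk⟩ := h.gen z hz
  obtain ⟨a, b, e⟩ := (hp.coprime_iff_not_dvd).2 ht
  refine ⟨k * b, ?_⟩
  convert add_mem hk (h.smul_mem (k := k * a * 23) (dvd_mul_left _ _)) using 1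
  linear_combination (norm := module) - congrArg (fun s => (k * s) • y) e

theorem GD.glue (h : GD B L y c) (h' : GD B' L' y' c') (e : 46 ∣ c + c') :
    EvLat (sumF B B') (glue L L' y y') ∧ dual (sumF B B') (glue L L' y y') ≤ glue L L' y y' := by
  obtain ⟨k, hk⟩ := e
  have h1 := glue_ev h.pd h'.pd h.ev h'.ev h.mem h'.mem ⟨k, by
    have : (c + c' : ℚ) = 46 * k := by exact_mod_cast hk
    rw [h.val, h'.val]; linarith⟩
  exact ⟨h1, glue_dual h1 h.gen h'.gen fun k j e => h'.smul_mem (h'.dvd e)⟩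

variable {g : End ℚ W}

theorem glue_inv (h1 : ∀ z ∈ L, g z ∈ L) (h2 : g y - y ∈ L) :
    ∀ z ∈ glue L L' y y', g.prodMap (1 : End ℚ W') z ∈ glue L L' y y' := fun z hz => by
  obtain ⟨k, k1, k2⟩ := mem_glue.1 hz
  refine mem_glue.2 ⟨k, ?_, k2⟩
  convert add_mem (h1 _ k1) (L.smul_mem k h2) using 1
  simp [smul_sub]

theorem pow_prod (n : ℕ) (z : W × W') : ((g.prodMap (1 : End ℚ W') : End ℚ (W × W')) ^ n) z = ((g ^ n) z.1, z.2) := by
  induction n with
  | zero => rfl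
  | succ n ih => rw [pow_succ', End.mul_apply, ih, pow_succ']; rfl

theorem nm_prod (z : W × W') : nm (g.prodMap (1 : End ℚ W')) z = (nm g z.1, (23 : ℚ) • z.2) := by
  simp only [nm_apply, pow_prod]
  ext
  · simp [Prod.fst_sum]
  · simp [Prod.snd_sum, ← Nat.cast_smul_eq_nsmul ℚ]

theorem Iso23.prod (h : Iso23 B g) (B' : LinearMap.BilinForm ℚ W') : Iso23 (sumF B B') (g.prodMap 1) :=
  ⟨fun x y => by simp [h.iso], LinearMap.ext fun z => by rw [pow_prod, h.pow]; rfl⟩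

theorem Iso23.restrict (h : Iso23 B g) {U : Submodule ℚ W} (k : ∀ x ∈ U, g x ∈ U) :
    Iso23 (B.restrict U) (g.restrict k) :=
  ⟨fun x y => h.iso x y, LinearMap.ext fun z => Subtype.ext (by
    rw [End.pow_restrict, LinearMap.coe_restrict_apply, h.pow]; rfl)⟩

theorem nm_restrict {U : Submodule ℚ W} (k : ∀ x ∈ U, g x ∈ U) (z : U) : (nm (g.restrict k) z : W) = nm g z := by
  rw [nm_apply, nm_apply, Submodule.coe_sum]
  exact Finset.sum_congr rfl fun i _ => by rw [End.pow_restrict, LinearMap.coe_restrict_apply]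

/-- A set of vectors, orthogonal up to sign. -/
theorem ncard_orth [FiniteDimensional ℚ W] (h : PD B) {X : Set W} (h0 : ∀ x ∈ X, x ≠ 0)
    (h1 : ∀ x ∈ X, ∀ z ∈ X, x = z ∨ x = -z ∨ B x z = 0) : X.Finite ∧ X.ncard ≤ 2 * finrank ℚ W := by
  obtain ⟨b, k1, k2, k3⟩ := exists_linearIndependent ℚ X
  have k4 := k3.setFinite
  have k5 : X ⊆ b ∪ Neg.neg '' b := fun x hx => by
    by_contra k
    have : Submodule.span ℚ b ≤ LinearMap.ker (B x) := Submodule.span_le.2 fun z hz =>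
      ((h1 x hx z (k1 hz)).resolve_left fun e => k (.inl (e ▸ hz))).resolve_left fun e => k (.inr ⟨z, hz, e.symm⟩)
    exact h0 x hx (h.eq_zero (this (k2 ▸ Submodule.subset_span hx)).le)
  refine ⟨(k4.union (k4.image _)).subset k5, (Set.ncard_le_ncard k5 (k4.union (k4.image _))).trans
    ((Set.ncard_union_le _ _).trans ?_)⟩
  have := k4.fintype
  have k6 := k3.fintype_card_le_finrank
  rw [← Nat.card_eq_fintype_card, Nat.card_coe_set_eq] at k6
  have := Set.ncard_image_le (f := Neg.neg) k4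
  omega

/-- Transport of an isometry to the Leech lattice. -/
theorem exists_co0 {f : L ≃+ leechLattice} (hf : ∀ x : L, (sqNorm (f x : GolayPt → ℤ) : ℚ) = 8 * B x x)
    {φ ψ : End ℚ W} (h1 : ∀ x ∈ L, φ x ∈ L) (h2 : ∀ x ∈ L, ψ x ∈ L) (h3 : ∀ x, φ (ψ x) = x) (h4 : ∀ x, ψ (φ x) = x)
    (h5 : ∀ x, B (φ x) (φ x) = B x x) : ∃ γ : Co0, ∀ x : L, γ • f x = f ⟨φ x, h1 x x.2⟩ := by
  let e : L ≃+ L := ⟨⟨fun x => ⟨φ x, h1 x x.2⟩, fun x => ⟨ψ x, h2 x x.2⟩, fun x => Subtype.ext (h4 x),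
    fun x => Subtype.ext (h3 x)⟩, fun x y => Subtype.ext (map_add φ _ _)⟩
  refine ⟨⟨(f.symm.trans (e.trans f)).toEquiv, map_add (f.symm.trans (e.trans f)), fun v => ?_⟩,
    fun x => congrArg (fun z => f (e z)) (f.symm_apply_apply x)⟩
  obtain ⟨v, rfl⟩ := f.surjective v
  have := (hf (e v)).trans ((congrArg _ (h5 v)).trans (hf v).symm)
  simpa using this

theorem dot_of {f : L ≃+ leechLattice} (h : PD B)
    (hf : ∀ x : L, (sqNorm (f x : GolayPt → ℤ) : ℚ) = 8 * B x x) (x z : L) :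
    (dotInt (f x : GolayPt → ℤ) (f z : GolayPt → ℤ) : ℚ) = 8 * B x z := by
  have h1 := hf (x + z)
  have h2 : ∀ a b : GolayPt → ℤ, sqNorm (a + b) = sqNorm a + 2 * dotInt a b + sqNorm b := fun a b => by
    simp only [sqNorm, dotInt, Finset.mul_sum, ← Finset.sum_add_distrib, Pi.add_apply]
    exact Finset.sum_congr rfl fun i _ => by ring
  rw [map_add, AddSubgroup.coe_add, h2, Submodule.coe_add, h.add_self] at h1
  push_cast at h1
  linarith [hf x, hf z]

end lat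

section gram

variable {n : ℕ}

/-- The integer vectors. -/
def zL (n : ℕ) : Submodule ℤ (Fin n → ℚ) := Submodule.pi Set.univ fun _ => (1 : Submodule ℤ ℚ)

theorem mem_zL {z : Fin n → ℚ} : z ∈ zL n ↔ ∃ k : Fin n → ℤ, z = fun i => (k i : ℚ) := by
  simp only [zL, Submodule.mem_pi, Set.mem_univ, true_imp_iff, Submodule.mem_one, funext_iff, eq_comm]
  exact Classical.skolem

/-- The form with a given Gram matrix. -/
def gF (A : Matrix (Fin n) (Fin n) ℤ) : LinearMap.BilinForm ℚ (Fin n → ℚ) := toBilin' (A.map (↑))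

theorem gF_apply (A : Matrix (Fin n) (Fin n) ℤ) (x y : Fin n → ℚ) : gF A x y = ∑ i, ∑ j, x i * A i j * y j :=
  toBilin'_apply _ x y

theorem gd_of {A D : Matrix (Fin n) (Fin n) ℤ} {y t s : Fin n → ℤ} (h : PD (gF A))
    (h1 : ∀ k : Fin n → ℤ, 2 ∣ ∑ i, ∑ j, k i * A i j * k j) (h2 : ∀ j, ∑ i, y i * A i j = 23 * s j)
    (h3 : ∀ i l, ∑ j, A i j * (23 * D l j + t j * y l) = if i = l then 23 else 0) (h4 : ¬ 23 ∣ ∑ i, s i * y i) :
    GD (gF A) (zL n) (fun i => y i / 23) (∑ i, s i * y i) := by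
  have k1 : ∀ z, gF A (fun i => y i / 23) z = ∑ j, s j * z j := fun z => by
    rw [gF_apply, Finset.sum_comm]
    refine Finset.sum_congr rfl fun j _ => ?_
    have := congrArg (Int.cast : ℤ → ℚ) (h2 j)
    push_cast at this
    simp only [← Finset.sum_mul, div_mul_eq_mul_div, ← Finset.sum_div, this]
    ring
  refine ⟨h, evLat_of h (Submodule.fg_pi fun _ => Submodule.one_eq_span (R := ℤ) (A := ℚ) ▸ Submodule.fg_span_singleton _) fun x hx => ?_, mem_dual.2 fun x hx => ?_,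
    by simp [k1, Finset.sum_div, mul_div_assoc], fun z hz => ?_, mem_zL.2 ⟨y, funext fun i => by simp; ring⟩, h4⟩
  · obtain ⟨k, rfl⟩ := mem_zL.1 hx
    exact (h1 k).imp fun a e => by rw [gF_apply]; exact_mod_cast e
  · obtain ⟨k, rfl⟩ := mem_zL.1 hx
    exact ⟨∑ j, s j * k j, by simp [k1]⟩
  · choose k hk using fun j => mem_dual.1 hz (Pi.single j 1) (mem_zL.2 ⟨Pi.single j 1, funext fun i => by
      simp [Pi.single_apply]⟩)
    refine ⟨∑ j, t j * k j, mem_zL.2 ⟨fun l => ∑ j, D l j * k j, funext fun l => ?_⟩⟩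
    have k2 : ∀ j, (k j : ℚ) = ∑ i, z i * A i j := fun j => by simp [← hk, gF_apply, Pi.single_apply]
    have k3 : ∑ j, (k j : ℚ) * (23 * D l j + t j * y l) = 23 * z l := by
      simp only [k2, Finset.sum_mul, mul_assoc]
      rw [Finset.sum_comm]
      have : ∀ i, ∑ j, (A i j : ℚ) * (23 * D l j + t j * y l) = if i = l then 23 else 0 := fun i => by
        exact_mod_cast h3 i l
      simp only [← Finset.mul_sum, this]
      simp [mul_comm]
    have k4 : ∑ j, (k j : ℚ) * (23 * D l j + t j * y l) = 23 * ∑ j, (D l j : ℚ) * k j + (∑ j, (t j : ℚ) * k j) * y l := by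
      rw [Finset.mul_sum, Finset.sum_mul, ← Finset.sum_add_distrib]
      exact Finset.sum_congr rfl fun j _ => by ring
    rw [Pi.sub_apply, Pi.smul_apply, zsmul_eq_mul]
    push_cast
    linarith

/-- A rank six lattice of determinant `23`. -/
def mK : Matrix (Fin 6) (Fin 6) ℤ :=
  !![2,-1,0,0,0,0; -1,2,-1,0,0,-1; 0,-1,2,-1,0,0; 0,0,-1,2,0,0; 0,0,0,0,2,-1; 0,-1,0,0,-1,4]

/-- A rank two lattice of determinant `23`. -/
def mN : Matrix (Fin 2) (Fin 2) ℤ := !![4,1; 1,6]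

theorem gd_K : GD (gF mK) (zL 6) (fun i => (![6,12,8,4,5,10] i : ℤ) / 23) 10 := by
  refine gd_of (D := !![2,3,-2,-1,3,0; 3,6,-4,-2,6,0; 2,4,-2,-1,4,0; 1,2,-1,0,2,0; 1,2,-2,-1,3,0; 2,4,-4,-2,5,0])
    (t := ![-4,-8,10,5,-11,1]) (s := ![0,0,0,0,0,1]) ⟨fun x y => ?_, fun x hx => ?_⟩ (fun k => ?_)
    (by decide) (by decide) (by decide)
  · simp [gF_apply, Fin.sum_univ_succ, mK]; ring
  · by_contra! h
    have e : gF mK x x = (x 0 - x 5) ^ 2 + (x 1 - x 0 - x 5) ^ 2 + (x 2 - x 1) ^ 2 + (x 3 - x 2) ^ 2 + x 3 ^ 2 +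
        x 4 ^ 2 + (x 5 - x 4) ^ 2 + x 5 ^ 2 := by simp [gF_apply, Fin.sum_univ_succ, mK]; ring
    have h1 := sq_nonneg (x 0 - x 5)
    have h2 := sq_nonneg (x 1 - x 0 - x 5)
    have h3 := sq_nonneg (x 2 - x 1)
    have h4 := sq_nonneg (x 3 - x 2)
    have h5 := sq_nonneg (x 3)
    have h6 := sq_nonneg (x 4)
    have h7 := sq_nonneg (x 5 - x 4)
    have h8 := sq_nonneg (x 5)
    have k : ∀ a : ℚ, a ^ 2 ≤ 0 → a = 0 := fun a h => by nlinarith
    have k1 := k (x 0 - x 5) (by linarith)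
    have k3 := k (x 2 - x 1) (by linarith)
    have k4 := k (x 3 - x 2) (by linarith)
    have k5 := k (x 3) (by linarith)
    have k6 := k (x 4) (by linarith)
    have k8 := k (x 5) (by linarith)
    exact hx (funext fun i => by fin_cases i <;> simp <;> linarith)
  · exact ⟨k 0 ^ 2 + k 1 ^ 2 + k 2 ^ 2 + k 3 ^ 2 + k 4 ^ 2 + 2 * k 5 ^ 2 - k 0 * k 1 - k 1 * k 2 - k 2 * k 3 -
      k 1 * k 5 - k 4 * k 5, by simp [Fin.sum_univ_succ, mK]; ring⟩

theorem gF_N (x y : Fin 2 → ℚ) : gF mN x y = 4 * x 0 * y 0 + x 0 * y 1 + x 1 * y 0 + 6 * x 1 * y 1 := by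
  simp [gF_apply, mN]; ring

theorem gd_N : GD (gF mN) (zL 2) (fun i => (![-1,4] i : ℤ) / 23) 4 := by
  refine gd_of (D := !![0,0; 1,0]) (t := ![-6,1]) (s := ![0,1]) ⟨fun x y => ?_, fun x hx => ?_⟩ (fun k => ?_)
    (by decide) (by decide) (by decide)
  · rw [gF_N, gF_N]; ring
  · by_contra! h
    rw [gF_N] at h
    have k0 : x 0 = 0 := by nlinarith [sq_nonneg (x 0 + x 1), sq_nonneg (x 1)]
    have k1 : x 1 = 0 := by nlinarith [sq_nonneg (x 0 + x 1), sq_nonneg (x 0)]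
    exact hx (funext fun i => by fin_cases i <;> assumption)
  · exact ⟨2 * k 0 ^ 2 + k 0 * k 1 + 3 * k 1 ^ 2, by simp [mN]; ring⟩

end gram

end Cfsg.Agent.H80.F23
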