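import Mathlib
import Cfsg.Agent.H80.F23Glue

/-!
# Rational groups of degree 23: the determinant
-/

set_option autoImplicit false

namespace Cfsg.Agent.H80.F23

open Module

universe u

attribute [local irreducible] nm

theorem tau_exists {d : ℤ} (e : ℤ) (h2 : 2 ∣ d) (h : ¬ 23 ∣ d) : ∃ t : ℤ, ¬ 23 ∣ t ∧
    (46 ∣ t ^ 2 * (46 * e - d) + 4 ∨ 46 ∣ t ^ 2 * (46 * e - d) + 10) := by
  obtain ⟨d, rfl⟩ := h2
  have key : ∀ a : ZMod 23, a ≠ 0 → ∃ t : ZMod 23, t ≠ 0 ∧ (t ^ 2 * a - 2 = 0 ∨ t ^ 2 * a - 5 = 0) := by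
    decide +kernel
  obtain ⟨t, h1, h2⟩ := key d fun k => h (((ZMod.intCast_zmod_eq_zero_iff_dvd d 23).1 k).mul_left 2)
  obtain ⟨t, rfl⟩ := ZMod.intCast_surjective t
  refine ⟨t, fun k => h1 ((ZMod.intCast_zmod_eq_zero_iff_dvd t 23).2 k), h2.imp (fun k => ?_) fun k => ?_⟩
  · obtain ⟨j, hj⟩ := (ZMod.intCast_zmod_eq_zero_iff_dvd (t ^ 2 * d - 2) 23).1 (by push_cast; exact k)
    exact ⟨t ^ 2 * e - j, by push_cast at hj; linear_combination (-2) * hj⟩
  · obtain ⟨j, hj⟩ := (ZMod.intCast_zmod_eq_zero_iff_dvd (t ^ 2 * d - 5) 23).1 (by push_cast; exact k)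
    exact ⟨t ^ 2 * e - j, by push_cast at hj; linear_combination (-2) * hj⟩

theorem cls_min (k : ℤ) : ∃ a b : ℤ, ∃ v ∈ ([0, 4, 6, 8, 12, 16, 18, 24, 26, 32, 36, 48] : List ℤ),
    4 * (23 * a - k) ^ 2 + 2 * (23 * a - k) * (23 * b + 4 * k) + 6 * (23 * b + 4 * k) ^ 2 = 23 * v := by
  have key : ∀ k ∈ Finset.Ico (0 : ℤ) 23, ∃ a ∈ ([0, 1] : List ℤ), ∃ b ∈ ([0, -1, -2, -3, -4] : List ℤ),
      ∃ v ∈ ([0, 4, 6, 8, 12, 16, 18, 24, 26, 32, 36, 48] : List ℤ),
      4 * (23 * a - k) ^ 2 + 2 * (23 * a - k) * (23 * b + 4 * k) + 6 * (23 * b + 4 * k) ^ 2 = 23 * v := by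
    decide +kernel
  obtain ⟨a, -, b, -, v, hv, e⟩ := key (k % 23) (by simp only [Finset.mem_Ico]; omega)
  refine ⟨a + k / 23, b - 4 * (k / 23), v, hv, ?_⟩
  rw [← e, show 23 * (a + k / 23) - k = 23 * a - k % 23 by omega,
    show 23 * (b - 4 * (k / 23)) + 4 * k = 23 * b + 4 * (k % 23) by omega]

theorem fin_d {s d v : ℤ} (hs : s ≠ 0) (h0 : 0 < d) (h2 : 2 ∣ d) (h8 : ¬ 8 ∣ d) (h9 : ¬ 9 ∣ d)
    (hv : v ∈ ([0, 4, 6, 8, 12, 16, 18, 24, 26, 32, 36, 48] : List ℤ)) (h1 : s ^ 2 * d ≤ v)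
    (h3 : 46 ∣ v - s ^ 2 * d) : d = 2 ∨ d = 4 ∨ d = 6 ∨ d = 12 ∨ d = 26 := by
  have h4 : v ≤ 48 := by simp only [List.mem_cons, List.not_mem_nil, or_false] at hv; omega
  obtain ⟨a, ha, h5, h6⟩ : ∃ a, s ^ 2 = a ^ 2 ∧ 0 < a ∧ a < 5 :=
    ⟨|s|, (sq_abs s).symm, abs_pos.2 hs, by nlinarith [sq_abs s, Int.le_of_dvd h0 h2, abs_pos.2 hs]⟩
  rw [ha] at h1 h3
  simp only [List.mem_cons, List.not_mem_nil, or_false] at hv
  interval_cases a <;> omega

section core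

variable {W : Type} [AddCommGroup W] [Module ℚ W] {B : LinearMap.BilinForm ℚ W} {L : Submodule ℤ W}
  {g : End ℚ W} {x : W} {d : ℤ}

theorem gd_ker (hB : PD B) (I : Iso23 B g) (hL : EvLat B L) (hg : ∀ y ∈ L, g y ∈ L) (hx : x ∈ L)
    (hv : B (nm g x) x = d) (h23 : ¬ 23 ∣ d) (gen : ∀ y ∈ L, ∃ k : ℤ, nm g y = k • nm g x)
    (hd : ∀ y ∈ dual B L, ∃ c : ℚ, y - c • nm g x ∈ L) {e : ℤ} (he : B x x = 2 * e) :
    GD (B.restrict (LinearMap.ker (nm g))) (resL L _) ⟨pr g x, nm_pr I.pow x⟩ (46 * e - d) := by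
  refine ⟨hB.restrict _, evLat_of (hB.restrict _) (resL_fg hL.fg _) fun z hz => hL.even z hz,
    mem_dual.2 fun z hz => (hL.int x hx z hz).imp fun k hk => (I.pr_left x z.2).trans hk,
    (I.pr_self x).trans (by rw [he, hv]; push_cast; ring), fun z hz => ?_, ?_, by omega⟩
  · exact I.ker_dual (by rw [hv]; exact Int.cast_ne_zero.2 fun k => h23 (k ▸ dvd_zero _)) gen hx hd z.2
      fun m hm h0 => mem_dual.1 hz ⟨m, h0⟩ hm
  · convert sub_mem (L.smul_mem 23 hx) (nm_mem hg hx) using 1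
    rw [mem_resL, iff_eq_eq]
    congr 1
    simp only [pr, Submodule.coe_smul_of_tower, ← Int.cast_smul_eq_zsmul ℚ]
    module

theorem bound_core (h8 : EU8) (h24 : EU24) (hl : LE) [FiniteDimensional ℚ W] (hB : PD B) (I : Iso23 B g)
    (hL : EvLat B L) (hg : ∀ y ∈ L, g y ∈ L) (hx : x ∈ L) (hv : B (nm g x) x = d) (h0 : 0 < d) (h2 : 2 ∣ d)
    (h8' : ¬ 8 ∣ d) (h9 : ¬ 9 ∣ d) (h23 : ¬ 23 ∣ d) (gen : ∀ y ∈ L, ∃ k : ℤ, nm g y = k • nm g x)
    (hd : ∀ y ∈ dual B L, ∃ c : ℚ, y - c • nm g x ∈ L) (hr : ∀ r ∈ L, B r r ≠ 2)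
    (hk : finrank ℚ (LinearMap.ker (nm g)) = 22)
    (h4 : ∀ l ∈ L, B l l = 4 → ∃ l ∈ L, B l l = 4 ∧ nm g l ≠ 0) : d = 4 ∨ d = 6 ∨ d = 12 ∨ d = 26 := by
  obtain ⟨e, he⟩ := hL.even x hx
  have hm := gd_ker hB I hL hg hx hv h23 gen hd he
  set U := LinearMap.ker (nm g)
  set m : U := ⟨pr g x, nm_pr I.pow x⟩ with hm0
  obtain ⟨t, ht, k | k⟩ := tau_exists e h2 h23
  swap
  · have := h8 _ _ _ (hm.pd.sum gd_K.pd) ((hm.mul ht).glue gd_K k).1 ((hm.mul ht).glue gd_K k).2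
    rw [finrank_prod, hk, finrank_fin_fun] at this
    omega
  obtain ⟨E, D⟩ := (hm.mul ht).glue gd_N k
  have hN := gd_N
  set y₀ : Fin 2 → ℚ := fun i => (![-1,4] i : ℤ) / 23 with hy₀
  set Λ := glue (resL L U) (zL 2) (t • m) y₀
  have hU : ∀ z ∈ U, g z ∈ U := fun z hz => (nm_g I.pow z).trans hz
  have I' := (I.restrict hU).prod (gF mN)
  have P := hm.pd.sum hN.pd
  set g' : End ℚ (U × (Fin 2 → ℚ)) := (g.restrict hU).prodMap 1 with hg'
  have inv : ∀ z ∈ Λ, g' z ∈ Λ := glue_inv (fun z hz => hg _ hz) (by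
    convert L.smul_mem t (sub_mem (hg x hx) hx) using 1
    simp [mem_resL, hm0, pr, g_nm I.pow, smul_sub])
  have N0 : ∀ z : U, nm (g.restrict hU) z = 0 := fun z => Subtype.ext ((nm_restrict hU z).trans z.2)
  have N' : ∀ z, nm g' z = (0, (23 : ℚ) • z.2) := fun z => by rw [hg', nm_prod, N0]
  have k0 : ∀ z ∈ Λ, nm g' z = 0 → (z.1 : W) ∈ L ∧ B z.1 z.1 = sumF (B.restrict U) (gF mN) z z := fun z hz e => by
    have h1 : z.2 = 0 := by simpa [N'] using e
    obtain ⟨k, k1, k2⟩ := mem_glue.1 hz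
    rw [h1, zero_sub, neg_mem_iff] at k2
    exact ⟨by simpa [mem_resL] using add_mem k1 ((hm.mul ht).smul_mem (hN.dvd_of_mem k2)), by simp [h1]⟩
  have k1 : ∀ z : U, g z = z → z = 0 := fun z e => by
    have := nm_of_fix e
    rw [z.2] at this
    simpa using this.symm
  have root : ∀ r ∈ Λ, sumF (B.restrict U) (gF mN) r r ≠ 2 := I'.rootless P E inv
    (fun r h e => (k0 r h e).2 ▸ hr _ (k0 r h e).1) fun z hz e => by
      have h1 := k1 z.1 (congrArg (fun a => (a.1 : W)) e)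
      obtain ⟨k, k1, k2⟩ := mem_glue.1 hz
      rw [h1, zero_sub, neg_mem_iff] at k1
      obtain ⟨a, ha⟩ := mem_zL.1 (add_mem k2 (hN.smul_mem ((hm.mul ht).dvd_of_mem k1)))
      rw [sub_add_cancel] at ha
      rw [sumF_apply, h1, map_zero, zero_add, ha, gF_N]
      generalize a 0 = p, a 1 = q
      have key : ∀ c : ℤ, c = 2 ∨ c = 46 → (4 * p * p + p * q + q * p + 6 * q * q : ℤ) ≠ c := fun c hc k => by
        have h3 : -4 < p ∧ p < 4 ∧ -4 < q ∧ q < 4 := by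
          refine ⟨?_, ?_, ?_, ?_⟩ <;> rcases hc with rfl | rfl <;> nlinarith [sq_nonneg (p + q), sq_nonneg p, sq_nonneg q]
        obtain ⟨h3, h4, h5, h6⟩ := h3
        interval_cases p <;> interval_cases q <;> omega
      exact ⟨by exact_mod_cast key 2 (.inl rfl), by exact_mod_cast key 46 (.inr rfl)⟩
  obtain ⟨f, hf⟩ := h24 _ _ Λ P E D (by rw [finrank_prod, hk, finrank_fin_fun]) root
  obtain ⟨γ, hγ⟩ := exists_co0 hf inv (ψ := g' ^ 22) (fun _ => pow_mem_of inv 22)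
    (fun z => by rw [← End.mul_apply, ← pow_succ', I'.pow, End.one_apply])
    (fun z => by rw [← End.mul_apply, ← pow_succ, I'.pow, End.one_apply]) fun z => I'.iso z z
  have hγ' : ∀ (i : ℕ) (z : Λ), (γ ^ i) • f z = f ⟨(g' ^ i) z, pow_mem_of inv i z.2⟩ := fun i z => by
    induction i with
    | zero => rfl
    | succ i ih => rw [pow_succ', mul_smul, ih, hγ]; simp only [pow_succ', End.mul_apply]
  have hN' : ∀ z : Λ, ∑ i ∈ Finset.range 23, (γ ^ i) • f z = f ⟨nm g' z, nm_mem inv z.2⟩ := fun z => by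
    simp only [hγ', ← map_sum]
    exact congrArg f (Subtype.ext ((Submodule.coe_sum _ _ _).trans (nm_apply _).symm))
  have : Fact (Nat.Prime 23) := ⟨by norm_num⟩
  obtain ⟨⟨y, hy, hy'⟩, y', hz, hz'⟩ := hl γ (orderOf_eq_prime (Subtype.ext (Equiv.ext fun v => by
      obtain ⟨v, rfl⟩ := f.surjective v
      exact (hγ' 23 v).trans (by simp only [I'.pow, End.one_apply]; rfl))) fun e => by
    have h1 := hγ ⟨((23 : ℤ) • m, 0), mem_glue.2 ⟨0, by simpa using hm.smul⟩⟩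
    rw [e, one_smul, f.apply_eq_iff_eq] at h1
    have h3 := k1 ((23 : ℤ) • m) (congrArg (fun a : Λ => (a.1.1 : W)) h1).symm
    have h5 := hm.dvd (k := 1) (j := 0) (by simpa using congrArg (B.restrict U m) h3)
    omega)
  have k2 : ∀ (z : U) (s : ℚ), B (z + s • nm g x) (z + s • nm g x) = B z z + 23 * s ^ 2 * d := fun z s => by
    have h1 : B z (nm g x) = 0 := by rw [← I.nm_adj, z.2]; simp
    rw [hB.add_self]
    simp only [map_smul, LinearMap.smul_apply, smul_eq_mul, h1, I.nm_nm, ← I.nm_adj x x, hv]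
    ring
  have hd2 : d ≠ 2 := by
    rintro rfl
    obtain ⟨z, rfl⟩ := f.surjective y'
    have h1 : sumF (B.restrict U) (gF mN) z z = 4 := by have := hf z; rw [hz] at this; push_cast at this; linarith
    have h3 : sumF (B.restrict U) (gF mN) z (nm g' z) = 48 := by
      have h3 := congrArg (Int.cast : ℤ → ℚ) hz'
      simp only [hγ', Int.cast_sum, dot_of P hf, ← Finset.mul_sum, ← map_sum, ← nm_apply] at h3
      push_cast at h3
      linarith
    have h5 : B z.1.1 z.1.1 = 44 / 23 := by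
      simp only [N', sumF_apply, map_zero, map_smul, smul_eq_mul, LinearMap.BilinForm.restrict_apply,
        LinearMap.domRestrict_apply] at h1 h3
      linarith
    obtain ⟨k, k3, -⟩ := mem_glue.1 z.2
    have key : ∀ s : ℤ, 23 ∣ k * t - s → (z.1.1 : W) + (s / 23 : ℚ) • nm g x ∈ L := fun s hs => by
      convert add_mem (add_mem (mem_resL.1 k3) (mem_resL.1 (hm.smul_mem hs))) (L.smul_mem s hx) using 1
      simp only [hm0, pr, Submodule.coe_sub, Submodule.coe_smul_of_tower, ← Int.cast_smul_eq_zsmul ℚ]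
      push_cast
      module
    obtain ⟨j, hj⟩ := hL.even _ (key (k * t) (by simp))
    rw [k2, h5] at hj
    have h6 : (k * t - 1) * (k * t + 1) = 23 * (j - 1) := by
      exact_mod_cast (by push_cast at hj; linarith : ((k * t - 1) * (k * t + 1) : ℚ) = 23 * (j - 1))
    rcases (Int.prime_iff_natAbs_prime.2 (by norm_num)).dvd_or_dvd ⟨_, h6⟩ with h | h
    · exact hr _ (key 1 h) (by rw [k2, h5]; norm_num)
    · exact hr _ (key (-1) (by simpa using h)) (by rw [k2, h5]; norm_num)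
  refine Or.resolve_left ?_ hd2
  obtain ⟨z, rfl⟩ := f.surjective y
  rw [hN', map_eq_zero_iff _ f.injective, Subtype.ext_iff] at hy'
  obtain ⟨l, l1, l2, l3⟩ := h4 _ (k0 z z.2 hy').1 (by
    have := hf z
    rw [hy, ← (k0 z z.2 hy').2] at this
    push_cast at this
    linarith)
  obtain ⟨s, hs⟩ := gen l l1
  have hs0 : s ≠ 0 := by rintro rfl; exact l3 (by simpa using hs)
  obtain ⟨a, k, hk⟩ := ((Int.prime_iff_natAbs_prime.2 (by norm_num)).coprime_iff_not_dvd).2 ht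
  obtain ⟨p, q, v, v1, v2⟩ := cls_min (s * k)
  let n : Fin 2 → ℚ := fun i => (![p, q] i : ℤ) + (s * k : ℤ) * y₀ i
  have n1 : gF mN n n = v / 23 := by
    have := congrArg (Int.cast : ℤ → ℚ) v2
    simp only [gF_N, n, hy₀, Matrix.cons_val_zero, Matrix.cons_val_one]
    push_cast at this ⊢
    linarith
  let l' : U := ⟨pr g l, nm_pr I.pow l⟩
  have l4 : (l', n) ∈ Λ := mem_glue.2 ⟨s * k, by
    convert add_mem (sub_mem l1 (L.smul_mem s hx)) (mem_resL.1 (hm.smul_mem (k := s * a * 23) (dvd_mul_left _ _))) using 1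
    have : (a * 23 + k * t : ℚ) = 1 := by exact_mod_cast hk
    rw [mem_resL, iff_eq_eq]
    congr 1
    simp only [hm0, l', pr, hs, Submodule.coe_sub, Submodule.coe_smul_of_tower, ← Int.cast_smul_eq_zsmul ℚ]
    push_cast
    linear_combination (norm := module) congrArg (fun c : ℚ => -(s * c) • (x - (1 / 23 : ℚ) • nm g x)) this,
    mem_zL.2 ⟨![p, q], funext fun i => by simp [n]⟩⟩
  have l5 : B l' l' = 4 - s ^ 2 * d / 23 := by
    have := k2 l' (s / 23)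
    rw [show l' + (s / 23 : ℚ) • nm g x = l by
      simp only [l', pr, hs, ← Int.cast_smul_eq_zsmul ℚ]; module, l2] at this
    linarith
  obtain ⟨j, hj⟩ := E.even _ l4
  have l6 : (4 - s ^ 2 * d / 23 + v / 23 : ℚ) = 2 * j := by rw [← hj, ← l5, ← n1]; rfl
  have l7 : v - s ^ 2 * d = 46 * (j - 2) := by
    exact_mod_cast (by linarith : (v - s ^ 2 * d : ℚ) = 46 * (j - 2))
  have l8 : j ≠ 1 := by rintro rfl; exact root _ l4 (by simpa using hj)
  have l9 : 0 < j := by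
    have := P.pos (l', n) fun e => by
      rw [show l' = 0 from congrArg Prod.fst e] at l5
      have : s ^ 2 * d = 23 * 4 := by exact_mod_cast (by simp at l5; linarith : (s ^ 2 * d : ℚ) = 23 * 4)
      have hp : Prime (23 : ℤ) := Int.prime_iff_natAbs_prime.2 (by norm_num)
      obtain ⟨c, rfl⟩ := hp.dvd_of_dvd_pow ((hp.dvd_or_dvd ⟨_, this⟩).resolve_right h23)
      have : 23 * (c ^ 2 * d) = 4 := by linarith
      omega
    rw [hj] at this
    exact_mod_cast (by linarith : (0 : ℚ) < j)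
  exact fin_d hs0 h0 h2 h8' h9 v1 (by omega) ⟨_, l7⟩

end core

theorem boundStmt (h8 : EU8) (h24 : EU24) (hl : LE) : BoundStmt.{u} := fun _ _ ρ B g L _ _ h hr =>
  bound_core h8 h24 hl h.set.pd h.set.iso h.lat (h.linv g) h.mem h.val h.pos h.two h.eight h.nine h.ndvd h.gen
    (fun y hy => (h.dual y hy).elim fun _ k => ⟨_, k⟩) hr h.set.finrank_ker fun l hl e => by
      obtain ⟨y, k, k'⟩ := h.set.irr.exists_not_mem (X := {l | l ∈ L ∧ B l l = 4})
        (fun a x hx => ⟨h.linv a x hx.1, (h.set.inv _ _ _).trans hx.2⟩) ⟨hl, e⟩ (by rintro rfl; simp at e)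
        h.set.ker_ne_top
      exact ⟨y, k.1, k.2, k'⟩

end Cfsg.Agent.H80.F23
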