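import Mathlib
import Cfsg.Agent.H80.F23Glue

/-!
# Rational groups of degree 23: the even sublattice
-/

set_option autoImplicit false

namespace Cfsg.Agent.H80.F23

open Module

universe u

attribute [local irreducible] nm

section core

variable {W : Type} [AddCommGroup W] [Module ℚ W] {B : LinearMap.BilinForm ℚ W} {L : Submodule ℤ W}
  {g : End ℚ W} {x : W} {d : ℤ}

theorem exists_gen (hB : PD B) (I : Iso23 B g) (hL : IntLat B L) (hg : ∀ y ∈ L, g y ∈ L) {z : W} (hz : z ∈ L)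
    (h0 : nm g z ≠ 0) (hfix : ∀ y, ∃ c : ℚ, nm g y = c • nm g z) :
    ∃ x ∈ L, nm g x ≠ 0 ∧ ∀ y ∈ L, ∃ k : ℤ, nm g y = k • nm g x := by
  let H : AddSubgroup ℤ := (L.toAddSubgroup.map (B.flip (nm g z)).toAddMonoidHom).comap (Int.castAddHom ℚ)
  obtain ⟨a, ha⟩ := Int.subgroup_cyclic H
  obtain ⟨x, hx, e⟩ : a ∈ H := ha ▸ AddSubgroup.mem_closure_singleton_self a
  have key : ∀ y ∈ L, ∃ k : ℤ, nm g y = k • nm g x := fun y hy => by
    obtain ⟨j, hj⟩ := hL.int y hy _ (nm_mem hg hz)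
    obtain ⟨k, rfl⟩ := AddSubgroup.mem_closure_singleton.1 (ha.le (⟨y, hy, hj⟩ : j ∈ H))
    obtain ⟨c, hc⟩ := hfix (y - k • x)
    have h1 := I.nm_nm (y - k • x) z
    have e' : B x (nm g z) = a := e
    rw [hc, map_smul, map_sub, map_zsmul, LinearMap.sub_apply, LinearMap.smul_apply, LinearMap.smul_apply, hj, e'] at h1
    obtain rfl : c = 0 := by simpa [(hB.pos _ h0).ne'] using h1
    exact ⟨k, by rwa [zero_smul, map_sub, map_zsmul, sub_eq_zero] at hc⟩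
  exact ⟨x, hx, fun k => h0 ((key z hz).elim fun j hj => by simp [hj, k]), key⟩

theorem ndvd_of (h8 : EU8) [FiniteDimensional ℚ W] (hB : PD B) (I : Iso23 B g) (hL : IntLat B L)
    (hg : ∀ y ∈ L, g y ∈ L) (hx : x ∈ L) (hv : B (nm g x) x = d) (h0 : d ≠ 0)
    (gen : ∀ y ∈ L, ∃ k : ℤ, nm g y = k • nm g x) (hd : ∀ y ∈ dual B L, ∃ c : ℚ, y - c • nm g x ∈ L)
    (hk : finrank ℚ (LinearMap.ker (nm g)) = 22) : ¬ 23 ∣ d := by
  rintro ⟨d, rfl⟩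
  let U := LinearMap.ker (nm g)
  let M := resL (L ⊔ Submodule.span ℤ {pr g x}) U
  have hM : ∀ z : U, z ∈ M ↔ ∃ k : ℤ, (z : W) - k • pr g x ∈ L := fun z => by
    simp only [M, mem_resL, Submodule.mem_sup, Submodule.mem_span_singleton]
    exact ⟨fun ⟨a, ha, _, ⟨k, rfl⟩, e⟩ => ⟨k, by rw [← e, add_sub_cancel_right]; exact ha⟩,
      fun ⟨k, hk⟩ => ⟨_, hk, _, ⟨k, rfl⟩, sub_add_cancel _ _⟩⟩
  have hU : ∀ z ∈ U, g z ∈ U := fun z hz => (nm_g I.pow z).trans hz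
  have h1 : ∀ z ∈ M, ∀ z' ∈ M, ∃ k : ℤ, B.restrict U z z' = k := fun z hz z' hz' => by
    obtain ⟨k, hk⟩ := (hM z).1 hz
    obtain ⟨j, hj⟩ := (hM z').1 hz'
    obtain ⟨a, ha⟩ := hL.int _ (add_mem hk (L.smul_mem k hx)) _ (add_mem hj (L.smul_mem j hx))
    refine ⟨a - k * j * d, ?_⟩
    have e1 : B z (nm g x) = 0 := by rw [← I.nm_adj, z.2]; simp
    have e2 : B (nm g x) z' = 0 := by rw [I.nm_adj, z'.2]; simp
    have e3 : ∀ (k : ℤ) (z : W), z - k • pr g x + k • x = z + (k / 23 : ℚ) • nm g x := fun k z => by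
      rw [pr, ← Int.cast_smul_eq_zsmul ℚ, ← Int.cast_smul_eq_zsmul ℚ]; module
    simp only [e3, map_add, map_smul, LinearMap.add_apply, LinearMap.smul_apply, e1, e2, I.nm_nm, ← I.nm_adj x x, hv,
      smul_eq_mul] at ha
    change B z z' = _
    push_cast at ha ⊢
    linarith
  have := h8 U _ M (hB.restrict U) (evLat_of (hB.restrict U) (resL_fg (hL.fg.sup (Submodule.fg_span_singleton _)) U)
    fun z hz => (I.restrict hU).even (hB.restrict U) h1 (fun z hz => (hM _).2 (((hM z).1 hz).imp fun k hk => by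
      convert add_mem (hg _ hk) (L.smul_mem k (sub_mem (hg x hx) hx)) using 1
      simp [pr, g_nm I.pow, smul_sub]; abel)) hz (Subtype.ext ((nm_restrict hU z).trans z.2)))
    fun z hz => (hM z).2 (I.ker_dual (by rw [hv]; exact Int.cast_ne_zero.2 h0) gen hx hd z.2
      fun m hm h0 => mem_dual.1 hz ⟨m, h0⟩ ((hM _).2 ⟨0, by simpa using hm⟩))
  rw [hk] at this
  omega

theorem dual_of (hL : IntLat B L) (hx : x ∈ L) (hv : B (nm g x) x = d) (h0 : d ≠ 0) {y : W} (hy : y ∈ dual B L)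
    {c : ℚ} (h : y - c • nm g x ∈ L) : ∃ k : ℤ, y - (k / d : ℚ) • nm g x ∈ L := by
  obtain ⟨a, ha⟩ := hL.int _ h x hx
  obtain ⟨b, hb⟩ := mem_dual.1 hy x hx
  rw [map_sub, map_smul, LinearMap.sub_apply, LinearMap.smul_apply, hb, hv, smul_eq_mul] at ha
  exact ⟨b - a, by rwa [show ((b - a : ℤ) / d : ℚ) = c from by
    rw [div_eq_iff (Int.cast_ne_zero.2 h0)]; push_cast; linarith]⟩

theorem dat_core (h8 : EU8) [FiniteDimensional ℚ W] (hB : PD B) (I : Iso23 B g) (hL : IntLat B L)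
    (hg : ∀ y ∈ L, g y ∈ L) {z : W} (hz : z ∈ L) (h0 : nm g z ≠ 0)
    (hfix : ∀ w, g w = w → w ≠ 0 → ∀ y, ∃ c : ℚ, nm g y = c • w)
    (hk : finrank ℚ (LinearMap.ker (nm g)) = 22) {e : ℕ} (h1 : Squarefree e) (h2 : ¬ 23 ∣ e)
    (h3 : ∀ y ∈ dual B L, (e : ℤ) • y ∈ L) (h4 : ∀ y ∈ dual B L, g y - y ∈ L) :
    ∃ x ∈ L, ∃ d : ℤ, B (nm g x) x = d ∧ 0 < d ∧ ¬ 4 ∣ d ∧ ¬ 9 ∣ d ∧ ¬ 23 ∣ d ∧
      (∀ y ∈ L, ∃ k : ℤ, nm g y = k • nm g x) ∧ ∀ y ∈ dual B L, ∃ c : ℚ, y - c • nm g x ∈ L := by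
  obtain ⟨x, hx, h5, gen⟩ := exists_gen hB I hL hg hz h0 (hfix _ (g_nm I.pow z) h0)
  obtain ⟨d, hv⟩ := hL.int _ (nm_mem hg hx) x hx
  have h6 : (0 : ℚ) < d := by
    have := hB.pos _ h5
    rw [I.nm_nm, ← I.nm_adj, hv] at this
    linarith
  have hp : Prime (23 : ℤ) := Int.prime_iff_natAbs_prime.2 (by norm_num)
  have hd : ∀ y ∈ dual B L, ∃ c : ℚ, y - c • nm g x ∈ L := fun y hy => by
    obtain ⟨a, b, hab⟩ := hp.coprime_iff_not_dvd.2 (fun k : (23 : ℤ) ∣ e => h2 (by exact_mod_cast k))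
    obtain ⟨c, hc⟩ := hfix _ (g_nm I.pow x) h5 y
    have k1 : ∀ i : ℕ, (g ^ i) y - y ∈ L := fun i => by
      induction i with
      | zero => simp
      | succ i ih => simpa [pow_succ'] using add_mem (hg _ ih) (h4 y hy)
    have k2 := L.sum_mem fun i (_ : i ∈ Finset.range 23) => k1 i
    rw [Finset.sum_sub_distrib, ← nm_apply, hc, Finset.sum_const, Finset.card_range] at k2
    refine ⟨a * c, ?_⟩
    convert sub_mem (L.smul_mem b (h3 y hy)) (L.smul_mem a k2) using 1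
    simp only [← Int.cast_smul_eq_zsmul ℚ]
    have : (a * 23 + b * e : ℚ) = 1 := by exact_mod_cast hab
    linear_combination (norm := module) -congrArg (· • y) this
  have h7 := ndvd_of h8 hB I hL hg hx hv (Int.cast_pos.1 h6).ne' gen hd hk
  have h8 : d ∣ e := by
    have k1 := h3 ((1 / d : ℚ) • nm g x) (mem_dual.2 fun l hl => (gen l hl).imp fun k hk => by
      rw [map_smul, LinearMap.smul_apply, I.nm_adj, hk, map_zsmul, ← I.nm_adj, hv, zsmul_eq_mul, smul_eq_mul]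
      field_simp)
    obtain ⟨k, hk⟩ := gen _ k1
    rw [map_zsmul, map_smul, nm_nm I.pow, ← Int.cast_smul_eq_zsmul ℚ, ← Int.cast_smul_eq_zsmul ℚ, smul_smul,
      smul_smul] at hk
    have k2 := smul_left_injective ℚ h5 hk
    field_simp at k2
    exact (hp.coprime_iff_not_dvd.2 h7).symm.dvd_of_dvd_mul_right ⟨k, by exact_mod_cast k2⟩
  have h9 : ∀ p : ℕ, p ≠ 1 → ¬ ((p * p : ℕ) : ℤ) ∣ d := fun p hp k =>
    hp (Nat.isUnit_iff.1 (h1 p (by exact_mod_cast k.trans h8)))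
  exact ⟨x, hx, d, hv, Int.cast_pos.1 h6, h9 2 (by norm_num), h9 3 (by norm_num), h7, gen, hd⟩

/-- The even sublattice. -/
def evS (hB : PD B) (hL : IntLat B L) : Submodule ℤ W where
  carrier := {y | y ∈ L ∧ ∃ k : ℤ, B y y = 2 * k}
  zero_mem' := ⟨zero_mem _, 0, by simp⟩
  add_mem' := fun {a b} ⟨ha, i, hi⟩ ⟨hb, j, hj⟩ => ⟨add_mem ha hb, (hL.int a ha b hb).elim fun k hk =>
    ⟨i + j + k, by rw [hB.add_self, hi, hj, hk]; push_cast; ring⟩⟩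
  smul_mem' := fun c a ⟨ha, i, hi⟩ => ⟨L.smul_mem c ha, c * c * i, by simp [hi]; ring⟩

theorem ev_core (hB : PD B) (I : Iso23 B g) (hL : IntLat B L) (hg : ∀ y ∈ L, g y ∈ L) (hx : x ∈ L)
    (hv : B (nm g x) x = d) (h0 : 0 < d) (h4 : ¬ 4 ∣ d) (h9 : ¬ 9 ∣ d) (h23 : ¬ 23 ∣ d)
    (gen : ∀ y ∈ L, ∃ k : ℤ, nm g y = k • nm g x) (hd : ∀ y ∈ dual B L, ∃ c : ℚ, y - c • nm g x ∈ L)
    (hfix : ∀ y, ∃ c : ℚ, nm g y = c • nm g x) :
    ∃ x ∈ evS hB hL, ∃ d : ℤ, B (nm g x) x = d ∧ 0 < d ∧ 2 ∣ d ∧ ¬ 8 ∣ d ∧ ¬ 9 ∣ d ∧ ¬ 23 ∣ d ∧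
      (∀ y ∈ evS hB hL, ∃ k : ℤ, nm g y = k • nm g x) ∧
      ∀ y ∈ dual B (evS hB hL), ∃ c : ℚ, y - c • nm g x ∈ evS hB hL := by
  have k1 : ∀ m ∈ L, nm g m = 0 → m ∈ evS hB hL := fun m hm e => ⟨hm, I.even hB hL.int hg hm e⟩
  have k2 : (23 : ℤ) • x - nm g x ∈ evS hB hL := k1 _ (sub_mem (L.smul_mem _ hx) (nm_mem hg hx)) (by
    rw [map_sub, map_zsmul, nm_nm I.pow, ← Int.cast_smul_eq_zsmul ℚ]; simp)
  obtain ⟨a, ha⟩ := hL.int x hx x hx
  obtain ⟨-, b, hb⟩ := id k2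
  have k3 : 529 * a - 23 * d = 2 * b := by
    simp only [hB.sub_self, map_zsmul, LinearMap.smul_apply, I.nm_nm, ← I.nm_adj x x, hv, ha, zsmul_eq_mul] at hb
    exact_mod_cast (by push_cast at hb; linarith : (529 * a - 23 * d : ℚ) = 2 * b)
  have k4 : (2 : ℤ) • x ∈ evS hB hL := ⟨L.smul_mem 2 hx, 2 * a, by simp [ha]⟩
  have k5 : ∀ y ∈ dual B (evS hB hL), ∃ c : ℚ, y - c • nm g x ∈ evS hB hL := fun y hy => by
    obtain ⟨j, hj⟩ := I.ker_dual (by rw [hv]; exact Int.cast_ne_zero.2 h0.ne') gen hx hd (nm_pr I.pow y)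
      fun m hm e => (mem_dual.1 hy m (k1 m hm e)).imp fun k hk => (I.pr_left y e).trans hk
    obtain ⟨c, hc⟩ := hfix y
    refine ⟨c / 23 - 24 * j / 23, ?_⟩
    convert add_mem (sub_mem (k1 _ hj (by rw [map_sub, map_zsmul, nm_pr I.pow, nm_pr I.pow]; simp))
      (Submodule.smul_mem _ j k2)) (Submodule.smul_mem _ (12 * j) k4) using 1
    simp only [pr, hc, ← Int.cast_smul_eq_zsmul ℚ]
    push_cast
    module
  obtain ⟨a, rfl | rfl⟩ := Int.even_or_odd' a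
  · exact ⟨x, ⟨hx, a, by rw [ha]; push_cast; rfl⟩, d, hv, h0, by omega, by omega, h9, h23, fun y hy => gen y hy.1, k5⟩
  refine ⟨_, k4, 4 * d, by simp [hv]; ring, by omega, by omega, by omega, by omega, by omega, fun y hy => ?_,
    fun y hy => (k5 y hy).elim fun c hc => ⟨c / 2, ?_⟩⟩
  · obtain ⟨k, hk⟩ := gen y hy.1
    obtain ⟨-, c, hc⟩ := sub_mem hy (k1 (y - k • x) (sub_mem hy.1 (L.smul_mem k hx)) (by
      rw [map_sub, map_zsmul, hk, sub_self]))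
    simp only [sub_sub_cancel, map_zsmul, LinearMap.smul_apply, ha, zsmul_eq_mul] at hc
    have h5 : k * (k * (2 * a + 1)) = 2 * c := by exact_mod_cast hc
    obtain ⟨j, rfl | rfl⟩ := Int.even_or_odd' k
    · exact ⟨j, by rw [hk, map_zsmul, smul_smul, mul_comm]⟩
    · exact absurd (congrArg (· % 2) h5) (by simp [Int.mul_emod, Int.add_emod])
  · rwa [map_zsmul, ← Int.cast_smul_eq_zsmul ℚ, smul_smul, Int.cast_ofNat, div_mul_cancel₀ _ two_ne_zero]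

end core

theorem datStmt (h8 : EU8) : DatStmt.{u} := fun G _ ρ B g L e h => by
  have I := h.set.iso
  obtain ⟨z, hz, h0⟩ : ∃ z ∈ L, nm (ρ g) z ≠ 0 := by
    by_contra! k
    exact h.set.ker_ne_top (top_le_iff.1 (h.full ▸ Submodule.span_le.2 k))
  have hfix : ∀ w, ρ g w = w → w ≠ 0 → ∀ y, ∃ c : ℚ, nm (ρ g) y = c • w :=
    fun w hw h0 y => h.set.exists_smul hw h0 (g_nm I.pow y)
  obtain ⟨x, hx, d, h1, h2, h3, h4, h5, h6, h7⟩ := dat_core h8 h.set.pd I h.lat (h.linv g) hz h0 hfix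
    h.set.finrank_ker h.sqf h.ndvd h.exp h.triv
  obtain ⟨x, hx, d, h1, h2, h3, h4, h5, h6, h7, h8⟩ := ev_core h.set.pd I h.lat (h.linv g) hx h1 h2 h3 h4 h5 h6 h7
    (hfix _ (g_nm I.pow x) fun e => h2.ne' (by simpa [e] using h1.symm))
  have E := evLat_of h.set.pd (fg_of_le h.lat.fg (L' := evS h.set.pd h.lat) fun _ k => k.1) fun _ k => k.2
  exact ⟨_, x, d, h.set, E, fun a y hy => ⟨h.linv a y hy.1, h.set.inv a y y ▸ hy.2⟩, hx, h1, h2, h3, h4, h5, h6, h7,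
    fun y hy => (h8 y hy).elim fun _ => dual_of E.toIntLat hx h1 h2.ne' hy⟩

end Cfsg.Agent.H80.F23
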