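import Mathlib
import Cfsg.Agent.H80.F23Glue
import Cfsg.Agent.S0400
import Cfsg.Agent.S0401

/-!
# Rational groups of degree 23: the embedding in the Leech lattice
-/

set_option autoImplicit false

namespace Cfsg.Agent.H80.F23

open Module

universe u

attribute [local irreducible] nm

theorem zq (k : ℤ) (s : ℚ) : k • s = k * s := zsmul_eq_mul _ _

section lat

variable {W : Type*} [AddCommGroup W] [Module ℚ W] {B : LinearMap.BilinForm ℚ W} {L : Submodule ℤ W}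

theorem four_le (h : PD B) (E : EvLat B L) (hr : ∀ r ∈ L, B r r ≠ 2) {z : W} (hz : z ∈ L)
    (h0 : (2 : ℤ) • z ≠ 0) : 16 ≤ B ((2 : ℤ) • z) ((2 : ℤ) • z) := by
  obtain ⟨k, hk⟩ := E.even z hz
  have h1 := h.pos z fun e => h0 (by simp [e])
  have h2 : k ≠ 1 := by rintro rfl; exact hr z hz (by simpa using hk)
  have h3 : 0 < k := by exact_mod_cast (by linarith : (0 : ℚ) < k)
  have h4 : (2 : ℚ) ≤ k := by exact_mod_cast (by omega : 2 ≤ k)
  simp only [map_zsmul, LinearMap.smul_apply, zq, hk]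
  push_cast
  linarith

/-- The short vectors of `2 L + ℤ v`. -/
def short (B : LinearMap.BilinForm ℚ W) (L : Submodule ℤ W) (v : W) : Set W :=
  {z | (∃ l ∈ L, ∃ k : ℤ, z = (2 : ℤ) • l + k • v) ∧ z ≠ 0 ∧ B z z ≤ 8}

theorem short_card [FiniteDimensional ℚ W] (h : PD B) (E : EvLat B L) (hr : ∀ r ∈ L, B r r ≠ 2) {v : W}
    (hv : v ∈ L) : (short B L v).Finite ∧ (short B L v).ncard ≤ 2 * finrank ℚ W := by
  have key : ∀ z ∈ short B L v, ∃ l ∈ L, z = (2 : ℤ) • l + v := by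
    rintro z ⟨⟨l, hl, k, e⟩, h0, h1⟩
    obtain ⟨j, rfl | rfl⟩ := Int.even_or_odd' k
    · have e' : z = (2 : ℤ) • (l + j • v) := by rw [e]; module
      have := four_le h E hr (add_mem hl (L.smul_mem j hv)) (e' ▸ h0)
      rw [← e'] at this
      linarith
    · exact ⟨l + j • v, add_mem hl (L.smul_mem j hv), by rw [e]; module⟩
  refine ncard_orth h (fun x hx => hx.2.1) fun x hx z hz => ?_
  by_contra! k
  obtain ⟨a, ha, e⟩ := key x hx
  obtain ⟨b, hb, e'⟩ := key z hz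
  have e1 : (2 : ℤ) • (a - b) = x - z := by rw [e, e']; module
  have e2 : (2 : ℤ) • (a + b + v) = x + z := by rw [e, e']; module
  have h1 := four_le h E hr (sub_mem ha hb) (e1 ▸ sub_ne_zero.2 k.1)
  have h2 := four_le h E hr (add_mem (add_mem ha hb) hv) (e2 ▸ fun e => k.2.1 (eq_neg_of_add_eq_zero_left e))
  rw [e1, h.sub_self] at h1
  rw [e2, h.add_self] at h2
  exact k.2.2 (by linarith [hx.2.2, hz.2.2])

theorem exists_hom {G : Type u} [Group G] {f : L ≃+ leechLattice}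
    (hf : ∀ x : L, (sqNorm (f x : GolayPt → ℤ) : ℚ) = 8 * B x x) (σ : Representation ℚ G W)
    (h1 : ∀ a, ∀ x ∈ L, σ a x ∈ L) (h2 : ∀ a x, B (σ a x) (σ a x) = B x x) {v : L} (hv : ∀ a, σ a v = v)
    {u : leechLattice} (hu : ∃ c : Co0, c • f v = u) :
    ∃ φ : G →* (Co0 ⊓ MulAction.stabilizer (Equiv.Perm leechLattice) u : Subgroup _),
      ∀ a, φ a = 1 → ∀ x ∈ L, σ a x = x := by
  choose γ hγ using fun a => exists_co0 hf (h1 a) (h1 a⁻¹) (σ.self_inv_apply a) (σ.inv_self_apply a) (h2 a)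
  let φ : G →* Co0 := MonoidHom.mk' γ fun a b => Subtype.ext (Equiv.ext fun y => by
    obtain ⟨y, rfl⟩ := f.surjective y
    change γ (a * b) • f y = γ a • γ b • f y
    simp only [hγ, map_mul, End.mul_apply])
  obtain ⟨c, rfl⟩ := hu
  refine ⟨(Co0.subtype.comp ((MulAut.conj c).toMonoidHom.comp φ)).codRestrict _ fun a =>
    ⟨Subtype.property _, ?_⟩, fun a e x hx => ?_⟩
  · change (c * γ a * c⁻¹) • c • f v = _
    simp only [mul_smul, inv_smul_smul, hγ, hv]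
  · have e0 := congrArg Subtype.val e
    have e1 : c * γ a * c⁻¹ = 1 := Subtype.ext e0
    have := hγ a ⟨x, hx⟩
    rw [conj_eq_one_iff.1 e1, one_smul, f.apply_eq_iff_eq] at this
    exact (congrArg Subtype.val this).symm

/-- The form `d s t` on `ℚ`. -/
def qF (d : ℤ) : LinearMap.BilinForm ℚ ℚ := (d : ℚ) • LinearMap.mul ℚ ℚ

@[simp] theorem qF_apply (d : ℤ) (s t : ℚ) : qF d s t = d * (s * t) := rfl

theorem mem_one' {s : ℚ} : s ∈ (1 : Submodule ℤ ℚ) ↔ ∃ k : ℤ, s = k := by simp [eq_comm]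

end lat

variable {G : Type u} [Group G] {ρ : Representation ℚ G V} {B : LinearMap.BilinForm ℚ V} {g : G}
  {L : Submodule ℤ V} {x : V} {d : ℤ} (h : Dat ρ B g L x d)
include h

theorem Dat.d_ne : (d : ℚ) ≠ 0 := Int.cast_ne_zero.2 h.pos.ne'

theorem Dat.w_ne : nm (ρ g) x ≠ 0 := fun e => h.d_ne (by simpa [e] using h.val.symm)

theorem Dat.fix {l : V} (hl : l ∈ L) (e : ρ g l = l) : ∃ j : ℤ, l = j • nm (ρ g) x := by
  obtain ⟨k, hk⟩ := h.gen l hl
  obtain ⟨a, ha⟩ := h.lat.int l hl x h.mem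
  rw [nm_of_fix e] at hk
  have h1 := congrArg (B · x) hk
  simp only [map_smul, map_zsmul, LinearMap.smul_apply, ha, h.val, smul_eq_mul, zq] at h1
  obtain ⟨j, rfl⟩ := ((Int.prime_iff_natAbs_prime.2 (by norm_num) : Prime (23 : ℤ)).dvd_or_dvd
    (⟨a, by exact_mod_cast h1.symm⟩ : 23 ∣ k * d)).resolve_right h.ndvd
  refine ⟨j, smul_right_injective V (by norm_num : (23 : ℚ) ≠ 0) (hk.trans ?_)⟩
  module

/-- The generator of the dual lattice. -/
noncomputable def y0 (ρ : Representation ℚ G V) (g : G) (x : V) (d : ℤ) : V := (1 / d : ℚ) • nm (ρ g) x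

theorem Dat.d_y0 : d • y0 ρ g x d = nm (ρ g) x := by
  rw [y0, ← Int.cast_smul_eq_zsmul ℚ, smul_smul, mul_one_div_cancel h.d_ne, one_smul]

theorem Dat.smul_y0 {k : ℤ} (e : d ∣ k) : k • y0 ρ g x d ∈ L := by
  obtain ⟨k, rfl⟩ := e
  rw [mul_comm, mul_smul, h.d_y0]
  exact L.smul_mem k (nm_mem (h.linv g) h.mem)

theorem Dat.g_y0 : ρ g (y0 ρ g x d) = y0 ρ g x d := by rw [y0, map_smul, g_nm h.set.iso.pow]

theorem Dat.y0_ne : y0 ρ g x d ≠ 0 := smul_ne_zero (one_div_ne_zero h.d_ne) h.w_ne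

theorem Dat.dvd_y0 {k : ℤ} (e : k • y0 ρ g x d ∈ L) : d ∣ k := by
  obtain ⟨j, hj⟩ := h.fix e (by rw [map_zsmul, h.g_y0])
  rw [← h.d_y0, smul_smul] at hj
  exact ⟨j, (smul_left_injective ℤ h.y0_ne hj).trans (mul_comm _ _)⟩

theorem Dat.y0_dual : y0 ρ g x d ∈ F23.dual B L := mem_dual.2 fun l hl => (h.gen l hl).imp fun k hk => by
  rw [y0, map_smul, LinearMap.smul_apply, h.set.iso.nm_adj, hk, map_zsmul, ← h.set.iso.nm_adj, h.val, zq, smul_eq_mul]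
  field_simp [h.d_ne]

theorem Dat.y0_val : B (y0 ρ g x d) (y0 ρ g x d) = 23 / d := by
  simp only [y0, map_smul, LinearMap.smul_apply, h.set.iso.nm_nm, ← h.set.iso.nm_adj x x, h.val, smul_eq_mul]
  field_simp [h.d_ne]

theorem Dat.y0_gen {z : V} (hz : z ∈ F23.dual B L) : ∃ k : ℤ, z - k • y0 ρ g x d ∈ L :=
  (h.dual z hz).imp fun k hk => by rwa [y0, ← Int.cast_smul_eq_zsmul ℚ, smul_smul, mul_one_div]

theorem Dat.act (a : G) : ∃ u : ℤ, ρ a (y0 ρ g x d) - u • y0 ρ g x d ∈ L ∧ 2 * d ∣ 23 * (u ^ 2 - 1) := by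
  obtain ⟨u, hu⟩ := h.y0_gen (z := ρ a (y0 ρ g x d)) (mem_dual.2 fun l hl => by
    rw [← ρ.self_inv_apply a l, h.set.inv]
    exact mem_dual.1 h.y0_dual _ (h.linv _ l hl))
  obtain ⟨b, hb⟩ := h.lat.even _ hu
  obtain ⟨c, hc⟩ := mem_dual.1 h.y0_dual _ hu
  have h1 := h.set.pd.add_self (u • y0 ρ g x d) (ρ a (y0 ρ g x d) - u • y0 ρ g x d)
  rw [add_sub_cancel, h.set.inv, hb] at h1
  simp only [map_zsmul B, LinearMap.smul_apply, hc, map_zsmul (B (y0 ρ g x d)), h.y0_val, zq] at h1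
  refine ⟨u, hu, -(u * c + b), ?_⟩
  field_simp [h.d_ne] at h1
  exact_mod_cast (by linarith : (23 * (u ^ 2 - 1) : ℚ) = 2 * d * -(u * c + b))

omit h in
theorem qF_pd {d : ℤ} (h : 0 < d) : PD (qF d) :=
  ⟨fun s t => by simp [mul_comm], fun s k => mul_pos (Int.cast_pos.2 h) (mul_self_pos.2 k)⟩

/-- The unimodular lattice. -/
noncomputable def lam (ρ : Representation ℚ G V) (g : G) (L : Submodule ℤ V) (x : V) (d κ : ℤ) :
    Submodule ℤ (V × ℚ) := glue L 1 (κ • y0 ρ g x d) (1 / d)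

theorem Dat.lam_ev {κ : ℤ} (hκ : 2 * d ∣ 23 * κ ^ 2 + 1) : EvLat (sumF B (qF d)) (lam ρ g L x d κ) ∧
    F23.dual (sumF B (qF d)) (lam ρ g L x d κ) ≤ lam ρ g L x d κ := by
  have h0 := h.d_ne
  obtain ⟨c, hc⟩ := hκ
  obtain ⟨d', hd⟩ := h.two
  have h1 : EvLat (sumF B (qF d)) (lam ρ g L x d κ) := glue_ev h.set.pd (qF_pd h.pos) h.lat (evLat_of (qF_pd h.pos)
    (Submodule.one_eq_span (R := ℤ) (A := ℚ) ▸ Submodule.fg_span_singleton _) fun s hs => by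
      obtain ⟨k, rfl⟩ := mem_one'.1 hs
      exact ⟨d' * k * k, by simp [hd]; ring⟩) (Submodule.smul_mem _ κ h.y0_dual) (mem_dual.2 fun s hs => by
      obtain ⟨k, rfl⟩ := mem_one'.1 hs
      exact ⟨k, by simp [h0]⟩) ⟨c, by
    have : (23 * κ ^ 2 + 1 : ℚ) = 2 * d * c := by exact_mod_cast hc
    simp only [map_zsmul, LinearMap.smul_apply, h.y0_val, zq, qF_apply]
    field_simp
    linarith⟩
  refine ⟨h1, glue_dual h1 (fun z hz => ?_) (fun z hz => ?_) fun k j e => mem_one'.2 ⟨j, ?_⟩⟩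
  · obtain ⟨k, hk⟩ := h.y0_gen hz
    refine ⟨-23 * κ * k, ?_⟩
    convert add_mem hk (h.smul_y0 (k := (23 * κ ^ 2 + 1) * k) ⟨2 * c * k, by rw [hc]; ring⟩) using 1
    module
  · obtain ⟨k, hk⟩ := mem_dual.1 hz 1 (mem_one'.2 ⟨1, by simp⟩)
    exact ⟨k, mem_one'.2 ⟨0, by simp at hk; simp [← hk]; field_simp; ring⟩⟩
  · simpa [h0] using e

theorem Dat.lam_root (hr : ∀ r ∈ L, B r r ≠ 2) {κ : ℤ} (hκ : 2 * d ∣ 23 * κ ^ 2 + 1)
    (h2 : ∀ A k : ℤ, d ∣ A - k * κ → 23 * A ^ 2 + k ^ 2 ≠ 2 * d ∧ 23 * A ^ 2 + k ^ 2 ≠ 46 * d) :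
    ∀ r ∈ lam ρ g L x d κ, sumF B (qF d) r r ≠ 2 := by
  have h0 := h.d_ne
  refine (h.set.iso.prod (qF d)).rootless (h.set.pd.sum (qF_pd h.pos)) (h.lam_ev hκ).1
    (glue_inv (h.linv g) (by rw [map_zsmul, h.g_y0, sub_self]; exact zero_mem _)) (fun r hr' e => ?_) fun z hz e => ?_
  · have h1 : r.2 = 0 := by simpa [nm_prod] using congrArg Prod.snd e
    obtain ⟨k, k1, k2⟩ := mem_glue.1 hr'
    obtain ⟨j, hj⟩ := mem_one'.1 k2
    have h3 : k = d * -j := by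
      rw [h1, zq] at hj
      field_simp at hj
      exact_mod_cast (by linarith : (k : ℚ) = d * -j)
    have := add_mem k1 (h.smul_y0 (k := k * κ) (Dvd.dvd.mul_right ⟨_, h3⟩ κ))
    rw [mul_smul, sub_add_cancel] at this
    simpa [h1] using hr _ this
  · obtain ⟨k, k1, k2⟩ := mem_glue.1 hz
    obtain ⟨l, hl⟩ := mem_one'.1 k2
    obtain ⟨j, hj⟩ := h.fix k1 (by
      rw [map_sub, map_zsmul, map_zsmul, h.g_y0, show ρ g z.1 = z.1 from congrArg Prod.fst e])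
    have h3 : z.1 = (k * κ + j * d) • y0 ρ g x d := by rw [add_smul, mul_smul, mul_smul, h.d_y0, ← hj]; abel
    have h4 : z.2 = (k + l * d : ℤ) / d := by
      rw [zq] at hl
      push_cast
      field_simp at hl ⊢
      linarith
    have h5 : sumF B (qF d) z z = (23 * (k * κ + j * d) ^ 2 + (k + l * d) ^ 2 : ℤ) / d := by
      simp only [sumF_apply, h3, h4, map_zsmul, LinearMap.smul_apply, h.y0_val, zq, qF_apply]
      push_cast
      field_simp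
    have h6 := h2 (k * κ + j * d) (k + l * d) ⟨j - l * κ, by ring⟩
    rw [h5]
    exact ⟨fun e => h6.1 (by exact_mod_cast (div_eq_iff h0).1 e), fun e => h6.2 (by exact_mod_cast (div_eq_iff h0).1 e)⟩

omit h in
theorem num_root {d κ : ℤ} (h : d ≤ 26) (h1 : ∀ A ∈ Finset.Icc (-7 : ℤ) 7, ∀ k ∈ Finset.Icc (-34 : ℤ) 34,
    d ∣ A - k * κ → 23 * A ^ 2 + k ^ 2 ≠ 2 * d ∧ 23 * A ^ 2 + k ^ 2 ≠ 46 * d) (h0 : 0 < d) (A k : ℤ)
    (e : d ∣ A - k * κ) : 23 * A ^ 2 + k ^ 2 ≠ 2 * d ∧ 23 * A ^ 2 + k ^ 2 ≠ 46 * d := by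
  by_cases h2 : 23 * A ^ 2 + k ^ 2 ≤ 46 * 26
  · refine h1 A ?_ k ?_ e <;> rw [Finset.mem_Icc] <;> constructor <;> nlinarith [sq_nonneg A, sq_nonneg k]
  · omega

theorem Dat.end_idx (hr : ∀ r ∈ L, B r r ≠ 2) {κ m : ℤ} (hκ : 2 * d ∣ 23 * κ ^ 2 + 1)
    (h2 : ∀ A k : ℤ, d ∣ A - k * κ → 23 * A ^ 2 + k ^ 2 ≠ 2 * d ∧ 23 * A ^ 2 + k ^ 2 ≠ 46 * d)
    (h3 : ∀ u : ℤ, 2 * d ∣ 23 * (u ^ 2 - 1) → d ∣ 2 * (u - 1) ∨ d ∣ 2 * (u + 1)) (h4 : d ∣ 1 - m * κ)
    (h5 : 92 + (2 * m - d) ^ 2 ≤ 8 * d) : Idx G := by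
  have h0 := h.d_ne
  have k := short_card (h.set.pd.sum (qF_pd h.pos)) (h.lam_ev hκ).1 (h.lam_root hr hκ h2) (v := (0, 1))
    (mem_glue.2 ⟨0, by simp, by simp⟩)
  rw [finrank_prod, finrank_fin_fun, finrank_self] at k
  have inv : ∀ a, ∀ y ∈ Prod.fst '' short (sumF B (qF d)) (lam ρ g L x d κ) (0, 1),
      ρ a y ∈ Prod.fst '' short (sumF B (qF d)) (lam ρ g L x d κ) (0, 1) := by
    rintro a _ ⟨z, ⟨⟨l, hl, j, e⟩, k1, k2⟩, rfl⟩
    obtain ⟨u, hu, hu'⟩ := h.act a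
    obtain ⟨ε, hε, i, hi⟩ : ∃ ε : ℤ, ε * ε = 1 ∧ d ∣ 2 * (u - ε) :=
      (h3 u hu').elim (fun k => ⟨1, rfl, k⟩) fun k => ⟨-1, rfl, by simpa using k⟩
    have hε' : (ε : ℚ) * ε = 1 := by exact_mod_cast hε
    obtain ⟨k, l1, l2⟩ := mem_glue.1 hl
    have h6 : sumF B (qF d) (ρ a z.1, ε * z.2) (ρ a z.1, ε * z.2) = sumF B (qF d) z z := by
      simp only [sumF_apply, h.set.inv, qF_apply]
      linear_combination d * z.2 ^ 2 * hε'
    refine ⟨(ρ a z.1, ε * z.2), ⟨⟨(ρ a l.1, ε * l.2 + k * i / 2), mem_glue.2 ⟨k * u, ?_, ?_⟩, ε * j - k * i, ?_⟩,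
      fun e' => k1 ((h.set.pd.sum (qF_pd h.pos)).eq_zero (by rw [← h6, e']; simp)), h6 ▸ k2⟩, rfl⟩
    · convert add_mem (h.linv a _ l1) (L.smul_mem (k * κ) hu) using 1
      simp only [map_sub, map_zsmul]
      module
    · convert Submodule.smul_mem _ ε l2 using 1
      have : (2 * (u - ε) : ℚ) = d * i := by exact_mod_cast hi
      simp only [zq]
      push_cast
      field_simp
      linear_combination (-k) * this
    · rw [e]
      refine Prod.ext (by simp [two_smul]) ?_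
      simp
      ring
  obtain ⟨y, hy, hy'⟩ := h.set.irr.exists_not_mem inv (x := (2 : ℤ) • y0 ρ g x d) ⟨(_, 2 * m / d - 1),
    ⟨⟨(y0 ρ g x d, m / d), mem_glue.2 ⟨m, by simpa [sub_smul, mul_smul] using h.smul_y0 h4, by simp [div_eq_mul_inv]⟩, -1,
      Prod.ext (by simp) (by simp; ring)⟩, fun e => smul_ne_zero two_ne_zero h.y0_ne (congrArg Prod.fst e), by
      have : (92 + (2 * m - d) ^ 2 : ℚ) ≤ 8 * d := by exact_mod_cast h5
      have h6 : (0 : ℚ) < d := Int.cast_pos.2 h.pos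
      simp only [sumF_apply, map_zsmul, LinearMap.smul_apply, h.y0_val, zq, qF_apply]
      push_cast
      field_simp
      linarith⟩, rfl⟩ (smul_ne_zero two_ne_zero h.y0_ne) (Irr.span_ne_top (y0 ρ g x d))
  refine idx_of_set ρ h.set.pow (k.1.image _) ((Set.ncard_image_le k.1).trans (by omega)) ?_ inv hy fun e => ?_
  · rintro _ ⟨z, ⟨⟨l, hl, j, e⟩, k1, k2⟩, rfl⟩
    exact ⟨-z, ⟨⟨-l, neg_mem hl, -j, by rw [e]; module⟩, neg_ne_zero.2 k1, by
      simpa only [map_neg, LinearMap.neg_apply, neg_neg] using k2⟩, rfl⟩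
  · obtain ⟨c, hc⟩ := h.set.exists_smul h.g_y0 h.y0_ne e
    exact hy' (Submodule.mem_span_singleton.2 ⟨c, hc.symm⟩)

theorem Dat.end_co (h24 : EU24) (hr : ∀ r ∈ L, B r r ≠ 2) (hκ : 2 * d ∣ 23 * 1 ^ 2 + 1)
    (h2 : ∀ A k : ℤ, d ∣ A - k * 1 → 23 * A ^ 2 + k ^ 2 ≠ 2 * d ∧ 23 * A ^ 2 + k ^ 2 ≠ 46 * d)
    (h3 : ∀ u : ℤ, 2 * d ∣ 23 * (u ^ 2 - 1) → d ∣ u - 1 ∨ d ∣ u + 1) (h4 : ¬ d ∣ 2) {u : leechLattice}
    (hu : ∀ v : leechLattice, sqNorm (v : GolayPt → ℤ) = 8 * d → ∃ c : Co0, c • v = u) :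
    ∃ f : G →* Multiplicative (ZMod 2) × (Co0 ⊓ MulAction.stabilizer (Equiv.Perm leechLattice) u : Subgroup _),
      Function.Injective f := by
  obtain ⟨f, hf⟩ := h24 _ _ _ (h.set.pd.sum (qF_pd h.pos)) (h.lam_ev hκ).1 (h.lam_ev hκ).2
    (by rw [finrank_prod, finrank_fin_fun, finrank_self]) (h.lam_root hr hκ h2)
  have k1 : ∀ a, ∃ ε : ℤˣ, ε • ρ a (y0 ρ g x d) - y0 ρ g x d ∈ L := fun a => by
    obtain ⟨u, hu, hu'⟩ := h.act a
    rcases h3 u hu' with k | k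
    · exact ⟨1, by convert add_mem hu (h.smul_y0 k) using 1; rw [one_smul]; module⟩
    · exact ⟨-1, by convert neg_mem (add_mem hu (h.smul_y0 k)) using 1; rw [Units.neg_smul, one_smul]; module⟩
  have k2 : ∀ (z : V) (ε ε' : ℤˣ), ε • z - y0 ρ g x d ∈ L → ε' • z - y0 ρ g x d ∈ L → ε = ε' := fun z ε ε' e e' => by
    by_contra k
    rw [Int.units_ne_iff_eq_neg.1 k, Units.neg_smul] at e
    exact h4 (h.dvd_y0 (by convert neg_mem (add_mem e e') using 1; rw [two_smul]; abel))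
  choose ε hε using k1
  let ε' : G →* ℤˣ := MonoidHom.mk' ε fun a b => k2 _ _ _ (hε _) (by
    convert add_mem (L.smul_of_tower_mem (ε a) (h.linv a _ (hε b))) (hε a) using 1
    simp only [map_mul, End.mul_apply, map_sub, Units.smul_def, map_zsmul, Units.val_mul]
    module)
  let σ : Representation ℚ G (V × ℚ) :=
    { toFun := fun a => ((ε' a : ℤ) • ρ a).prodMap (1 : End ℚ ℚ)
      map_one' := by simp
      map_mul' := fun a b => by
        rw [LinearMap.prodMap_mul, smul_mul_smul_comm, map_mul, map_mul, Units.val_mul, mul_one] }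
  obtain ⟨φ, hφ⟩ := exists_hom hf σ (fun a => glue_inv (fun z hz => L.smul_mem _ (h.linv a z hz)) (by
      rw [one_smul]; exact hε a)) (fun a z => by
      change sumF _ _ ((ε' a : ℤ) • ρ a z.1, z.2) ((ε' a : ℤ) • ρ a z.1, z.2) = _
      simp only [sumF_apply, map_zsmul, LinearMap.smul_apply, h.set.inv, smul_smul, Int.units_coe_mul_self, one_smul])
    (v := ⟨(0, 1), mem_glue.2 ⟨0, by simp, by simp⟩⟩) (fun a => Prod.ext (map_zero ((ε' a : ℤ) • ρ a)) rfl)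
    (hu _ (Int.cast_injective (α := ℚ) ((hf _).trans (by simp))))
  have : Fact (Nat.Prime 2) := ⟨Nat.prime_two⟩
  let e : ℤˣ ≃* Multiplicative (ZMod 2) := mulEquivOfPrimeCardEq (p := 2) (by simp) (by simp)
  refine ⟨(e.toMonoidHom.comp ε').prod φ, (injective_iff_map_eq_one _).2 fun a ha => h.set.inj ?_⟩
  have h5 : ε' a = 1 := e.map_eq_one_iff.1 (congrArg Prod.fst ha)
  by_contra k
  obtain ⟨y, hy, hy'⟩ := h.set.irr.exists_not_mem (X := L) h.linv h.mem (fun e => h.w_ne (by rw [e, map_zero]))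
    (U := LinearMap.ker (ρ a - 1)) fun e => k (by rw [map_one, ← sub_eq_zero, ← LinearMap.ker_eq_top, e])
  have := congrArg Prod.fst (hφ a (congrArg Prod.snd ha) (y, 0) (mem_glue.2 ⟨0, by simpa using hy, by simp⟩))
  exact hy' (sub_eq_zero.2 (by simpa [σ, h5] using this))

omit h in
theorem endStmt (h24 : EU24) : EndStmt.{u} := by
  have key : ∀ (d u : ℤ) (P : ℤ → Prop), 0 < d → (∀ u v, P u → 2 * d ∣ v - u → P v) →
      (∀ u ∈ Finset.Ico 0 (2 * d), 2 * d ∣ 23 * (u ^ 2 - 1) → P u) → 2 * d ∣ 23 * (u ^ 2 - 1) → P u := by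
    intro d u P h0 h1 h2 h3
    have h4 : 2 * d ∣ u - u % (2 * d) := Int.dvd_self_sub_of_emod_eq rfl
    refine h1 _ _ (h2 _ (Finset.mem_Ico.2 ⟨Int.emod_nonneg _ (by omega), Int.emod_lt_of_pos _ (by omega)⟩) ?_) h4
    have := dvd_sub h3 (h4.mul_left (23 * (u + u % (2 * d))))
    generalize u % (2 * d) = r at *
    rwa [show 23 * (u ^ 2 - 1) - 23 * (u + r) * (u - r) = 23 * (r ^ 2 - 1) by ring] at this
  rintro G _ _ ρ B g L x _ h hr (rfl | rfl | rfl | rfl)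
  · exact .inr (.inl (h.end_co h24 hr (by decide) (num_root (by decide) (by decide +kernel) (by decide))
      (fun u => key 4 u (fun u => 4 ∣ u - 1 ∨ 4 ∣ u + 1) (by decide) (fun _ _ k k' => by omega) (by decide))
      (by decide) fun v hv => S0400.result _ _ hv (by decide)))
  · exact .inr (.inr (h.end_co h24 hr (by decide) (num_root (by decide) (by decide +kernel) (by decide))
      (fun u => key 6 u (fun u => 6 ∣ u - 1 ∨ 6 ∣ u + 1) (by decide) (fun _ _ k k' => by omega) (by decide))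
      (by decide) fun v hv => S0401.result _ _ hv (by decide)))
  · exact .inl (h.end_idx hr (κ := 5) (m := 5) (by decide) (num_root (by decide) (by decide +kernel) (by decide))
      (fun u => key 12 u (fun u => 12 ∣ 2 * (u - 1) ∨ 12 ∣ 2 * (u + 1)) (by decide)
        (fun _ _ k k' => by omega) (by decide)) (by decide) (by decide))
  · exact .inl (h.end_idx hr (κ := 3) (m := 9) (by decide) (num_root (by decide) (by decide +kernel) (by decide))
      (fun u => key 26 u (fun u => 26 ∣ 2 * (u - 1) ∨ 26 ∣ 2 * (u + 1)) (by decide)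
        (fun _ _ k k' => by omega) (by decide +kernel)) (by decide) (by decide))

end Cfsg.Agent.H80.F23
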