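import Mathlib
import Cfsg.Agent.H80.F23Kit
import Cfsg.Agent.H47.Poisson
import Cfsg.Agent.H48.Co0
import Cfsg.Agent.S1632
import Cfsg.Agent.S0406
import Cfsg.Agent.S0397
import Cfsg.Agent.S0370

/-!
# Rational groups of degree 23: even unimodular lattices, elements of order 23 of `Co0`
-/

set_option autoImplicit false

namespace Cfsg.Agent.H80.F23

open Module Matrix

theorem gram {W : Type*} [AddCommGroup W] [Module ℚ W] [FiniteDimensional ℚ W] {B : LinearMap.BilinForm ℚ W}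
    {L : Submodule ℤ W} (h : PD B) (E : EvLat B L) (D : dual B L ≤ L) {n : ℕ} (hn : finrank ℚ W = n) :
    ∃ (A : Matrix (Fin n) (Fin n) ℤ) (e : (Fin n → ℤ) ≃+ L), A.IsSymm ∧ (∀ x, x ≠ 0 → 0 < x ⬝ᵥ A *ᵥ x) ∧
      (∀ x, 2 ∣ x ⬝ᵥ A *ᵥ x) ∧ A.det = 1 ∧ ∀ x, B (e x) (e x) = (x ⬝ᵥ A *ᵥ x : ℤ) := by
  subst hn
  obtain ⟨b, rfl⟩ := exists_basis E.fg (full_of_dual h D)
  choose A hA using fun i j => E.int (b i) (Submodule.subset_span ⟨i, rfl⟩) (b j) (Submodule.subset_span ⟨j, rfl⟩)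
  let e := (b.restrictScalars ℤ).equivFun.symm
  have he : ∀ x, (e x : W) = ∑ i, (x i : ℚ) • b i := fun x => by
    simp [e, Basis.equivFun_symm_apply, Int.cast_smul_eq_zsmul]
  have h1 : ∀ x, B (e x) (e x) = (x ⬝ᵥ of A *ᵥ x : ℤ) := fun x => by
    simp only [he, map_sum, map_smul, LinearMap.sum_apply, LinearMap.smul_apply, hA, smul_eq_mul, dotProduct, mulVec,
      of_apply]
    push_cast
    simp only [Finset.mul_sum]
    rw [Finset.sum_comm]
    exact Finset.sum_congr rfl fun i _ => Finset.sum_congr rfl fun j _ => by ring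
  have h2 : (of A).IsSymm := IsSymm.ext fun i j => Int.cast_injective (α := ℚ) (by simp [← hA, h.symm (b i)])
  have h3 : ∀ x, x ≠ 0 → 0 < x ⬝ᵥ of A *ᵥ x := fun x hx => by
    have := h.pos (e x) fun k => hx (e.map_eq_zero_iff.1 (Subtype.ext k))
    rw [h1] at this
    exact_mod_cast this
  refine ⟨of A, e.toAddEquiv, h2, h3, fun x => (E.even _ (e x).2).imp fun k hk => ?_, ?_, h1⟩
  · exact_mod_cast (h1 x).symm.trans hk
  · choose C hC using fun i => e.surjective ⟨B.dualBasis h.nondeg b i, D (mem_dual.2 fun y hy => by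
      obtain ⟨y, rfl⟩ : ∃ x, (e x : W) = y := ⟨e.symm ⟨y, hy⟩, by simp⟩
      exact ⟨y i, by simp [he, B.apply_dualBasis_left]⟩)⟩
    have h4 : of C * of A = 1 := Matrix.ext fun i j => Int.cast_injective (α := ℚ) (by
      have := B.apply_dualBasis_left h.nondeg b i j
      rw [← show (e (C i) : W) = B.dualBasis h.nondeg b i from congrArg Subtype.val (hC i), he] at this
      simpa [mul_apply, LinearMap.sum_apply, hA, one_apply, eq_comm] using this)
    have h5 := congrArg det h4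
    rw [det_mul, det_one] at h5
    have h6 := (PosDef.of_dotProduct_mulVec_pos (M := (of A).map (Int.cast : ℤ → ℝ)) (isHermitian_iff_isSymm.2 (h2.map _))
      (H47.real_pos_of_int _ h2 h3 (right_ne_zero_of_mul (h5 ▸ one_ne_zero)))).det_pos
    rw [← Int.cast_det] at h6
    exact Int.eq_one_of_mul_eq_one_left (Int.cast_pos.1 h6).le h5

theorem eu24 : EU24 := fun W _ _ _ B L h E D hn hr => by
  obtain ⟨A, e, h1, h2, h3, h4, h5⟩ := gram h E D hn
  have h6 : ∀ x, x ⬝ᵥ A *ᵥ x ≠ 2 := fun x k => hr _ (e x).2 (by rw [h5, k]; rfl)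
  obtain ⟨k1, k2, k3⟩ := S1632.result A h1 h2 h3 h4 h6
  obtain ⟨f, hf⟩ := S0406.result A h1 h2 h3 h6 k1 k2 k3
  refine ⟨e.symm.trans f, fun x => ?_⟩
  obtain ⟨x, rfl⟩ := e.surjective x
  simp [hf, h5]

open Complex in
theorem eu8 : EU8 := fun W _ _ _ B L h E D => by
  obtain ⟨A, -, h1, h2, h3, h4, -⟩ := gram h E D rfl
  generalize finrank ℚ W = n at *
  have k1 : ∀ t, H47.thetaT A (t + I) = H47.thetaT A t := fun t => tsum_congr fun x => by
    obtain ⟨k, hk⟩ := h3 x
    rw [hk, exp_eq_exp_iff_exists_int]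
    exact ⟨-k, by push_cast; ring⟩
  have k2 : H47.thetaT A 1 ≠ 0 := by
    have := (H47.summable_theta_real A h1 h2 (h4 ▸ one_ne_zero) Real.pi_pos).tsum_pos
      (fun _ => (Real.exp_pos _).le) 0 (Real.exp_pos _)
    refine fun e => this.ne' (ofReal_eq_zero.1 (.trans ?_ e))
    simp [H47.thetaT, ofReal_tsum]
  have k3 := H47.thetaT_inv A h1 h2 h4 (t := 1 - I) (by simp)
  have k4 := H47.thetaT_inv A h1 h2 h4 (t := (1 - I) * (1 / 2 : ℝ)) (by simp)
  have hI : (1 - I : ℂ) ≠ 0 := fun e => by simpa using congrArg re e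
  rw [← k1 (1 - I), sub_add_cancel, show (1 - I)⁻¹ = (1 - I) * (1 / 2 : ℝ) + I by
    field_simp; push_cast; linear_combination (1 / 2 : ℂ) * I_sq, k1, k4,
    show ((1 - I) * (1 / 2 : ℝ))⁻¹ = 1 + I by push_cast; field_simp; linear_combination I_sq, k1,
    H47.mul_cpow_half (by simp) (by norm_num), ← mul_assoc, ← mul_pow] at k3
  have k5 := (mul_left_eq_self₀.1 k3.symm).resolve_right k2
  generalize hz : 1 / (1 - I) ^ (1 / 2 : ℂ) * (1 / ((1 - I) ^ (1 / 2 : ℂ) * ((1 / 2 : ℝ) : ℂ) ^ (1 / 2 : ℂ))) = z at k5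
  have k6 : z ^ 2 = I := by
    have e1 : ((1 - I) ^ (1 / 2 : ℂ)) ^ 2 = 1 - I := by simp
    have e2 : (((1 / 2 : ℝ) : ℂ) ^ (1 / 2 : ℂ)) ^ 2 = 1 / 2 := by simp
    rw [← hz, mul_pow, div_pow, div_pow, mul_pow, e1, e2]
    field_simp
    linear_combination (2 - I) * I_sq
  have k7 : z ^ 4 = -1 := by rw [show 4 = 2 * 2 from rfl, pow_mul, k6, I_sq]
  have : Fact (Nat.Prime 2) := ⟨Nat.prime_two⟩
  have k8 : orderOf z = 2 ^ (2 + 1) := orderOf_eq_prime_pow (by rw [show 2 ^ 2 = 4 from rfl, k7]; norm_num)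
    (by rw [show 2 ^ (2 + 1) = 4 * 2 from rfl, pow_mul, k7]; norm_num)
  exact (k8 ▸ orderOf_dvd_of_pow_eq_one k5 :)

/-- The translation of the coordinates. -/
noncomputable def tr : Co0 := H48.permEl ⟨_, S0370.result⟩

theorem tr_pow (n : ℕ) (v : leechLattice) : ((tr ^ n • v : leechLattice) : GolayPt → ℤ) =
    fun p => v.1 (p.map (· - (n : ZMod 23))) := by
  induction n with
  | zero => simp
  | succ n ih =>
    funext p
    rw [pow_succ', mul_smul, tr, H48.permEl_apply, ← tr, ih]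
    cases p
    · rfl
    · rename_i a
      exact congrArg (fun a => v.1 (some a)) (show a + -1 - n = a - (n + 1 : ℕ) by push_cast; ring)

theorem co0_map (c : Co0) : ∃ f : leechLattice →+ leechLattice, ∀ v, c • v = f v :=
  ⟨AddMonoidHom.mk' (c • ·) c.2.1, fun _ => rfl⟩

theorem co0_dot (c : Co0) (v w : leechLattice) :
    dotInt ((c • v : leechLattice) : GolayPt → ℤ) (c • w : leechLattice) = dotInt (v : GolayPt → ℤ) w := by
  have h2 : ∀ a b : GolayPt → ℤ, sqNorm (a + b) = sqNorm a + 2 * dotInt a b + sqNorm b := fun a b => by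
    simp only [sqNorm, dotInt, Finset.mul_sum, ← Finset.sum_add_distrib, Pi.add_apply]
    exact Finset.sum_congr rfl fun i _ => by ring
  have h1 := c.2.2 (v + w)
  rw [c.2.1, AddSubgroup.coe_add, AddSubgroup.coe_add, h2, h2, c.2.2, c.2.2] at h1
  exact mul_left_cancel₀ two_ne_zero (add_left_cancel (add_right_cancel h1))

theorem le_num : Spor.vecU (some 0) ≠ Spor.vecU (Option.map (· - ((1 : ℕ) : ZMod 23)) (some 0)) ∧ ∀ a : ZMod 23, a ≠ 0 →
    sqNorm (Spor.vecU - fun p => Spor.vecU (p.map (· - a))) = 32 ∧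
    (∑ i ∈ Finset.range 23, fun p : GolayPt => (Spor.vecU - fun p : GolayPt => Spor.vecU (p.map (· - a)))
      (p.map (· - a * i))) = 0 ∧
    ∑ i ∈ Finset.range 23, dotInt Spor.vecU (fun p => Spor.vecU (p.map (· - a * i))) = 384 := by
  decide +kernel

open Pointwise in
theorem le : LE := fun γ hγ => by
  have : Fact (Nat.Prime 23) := ⟨by norm_num⟩
  have : Finite Co0 := Nat.finite_of_card_ne_zero (by rw [S0397.result]; norm_num)
  have ht : orderOf tr = 23 := orderOf_eq_prime (Subtype.ext (Equiv.ext fun v => Subtype.ext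
    ((tr_pow 23 v).trans (funext fun p => by cases p <;> simp [show (23 : ZMod 23) = 0 from rfl])))) fun e => by
    have := congrFun (tr_pow 1 Spor.leechU) (some 0)
    rw [e, one_pow, one_smul] at this
    exact le_num.1 this
  have hc : (Nat.card Co0).factorization 23 = 1 := by
    rw [S0397.result, show 8315553613086720000 = 23 * 361545809264640000 from rfl,
      Nat.factorization_mul (by norm_num) (by norm_num), Finsupp.add_apply, Nat.Prime.factorization_self (by norm_num),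
      Nat.factorization_eq_zero_of_not_dvd (by norm_num)]
  obtain ⟨c, e⟩ := MulAction.exists_smul_eq Co0
    (Sylow.ofCard (p := 23) (Subgroup.zpowers tr) (by rw [Nat.card_zpowers, ht, hc, pow_one]))
    (Sylow.ofCard (p := 23) (Subgroup.zpowers γ) (by rw [Nat.card_zpowers, hγ, hc, pow_one]))
  have h1 : γ ∈ MulAut.conj c • Subgroup.zpowers tr := by
    have := congrArg (fun P : Sylow 23 Co0 => (P : Subgroup Co0)) e
    simp only [Sylow.coe_subgroup_smul, Sylow.coe_ofCard] at this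
    exact this ▸ Subgroup.mem_zpowers γ
  obtain ⟨δ, h2, rfl⟩ := (Subgroup.mem_smul_pointwise_iff_exists _ _ _).1 h1
  obtain ⟨k, rfl⟩ := mem_powers_iff_mem_zpowers.2 h2
  have hk : (k : ZMod 23) ≠ 0 := fun e => by
    rw [ZMod.natCast_eq_zero_iff, ← ht, orderOf_dvd_iff_pow_eq_one] at e
    simp [e] at hγ
  have h3 : ∀ (i : ℕ) (v : leechLattice), (MulAut.conj c • tr ^ k) ^ i • c • v = c • tr ^ (k * i) • v := fun i v => by
    rw [← smul_pow', ← pow_mul]
    simp [mul_smul]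
  obtain ⟨f, hf⟩ := co0_map c
  refine ⟨⟨c • (Spor.leechU - tr ^ k • Spor.leechU), (c.2.2 _).trans ?_, ?_⟩, c • Spor.leechU, (c.2.2 _).trans (by decide), ?_⟩
  · rw [AddSubgroup.coe_sub, tr_pow]
    exact (le_num.2 k hk).1
  · simp only [h3]
    simp only [hf, ← map_sum]
    refine (congrArg f (Subtype.ext ?_)).trans (map_zero f)
    simp only [AddSubmonoidClass.coe_finsetSum, tr_pow, AddSubgroup.coe_sub, Nat.cast_mul]
    exact (le_num.2 k hk).2.1
  · simp only [h3, co0_dot, tr_pow, Nat.cast_mul]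
    exact (le_num.2 k hk).2.2

end Cfsg.Agent.H80.F23
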