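import Mathlib

/-!
# Positive semidefinite circulant matrices `2 + A` of order 23
-/

set_option autoImplicit false

namespace Cfsg.Agent.H80.F23

/-- A test vector. -/
def xz (i : ZMod 23) : ℤ := [2,2,2,1,1,0,0,-1,-1,-2,-2,-2,-2,-2,-2,-1,-1,0,0,1,1,2,2].getD i.val 0

/-- Its autocorrelation. -/
def acz (i : ZMod 23) : ℤ :=
  [52,48,44,34,24,10,-3,-17,-29,-39,-46,-50,-50,-46,-39,-29,-17,-3,10,24,34,44,48].getD i.val 0

theorem ac_eq : ∀ t m : ZMod 23, t ≠ 0 → ∑ i, xz (t * i) * xz (t * (i + m)) = acz (t * m) := by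
  decide +kernel

/-- A symmetric function with values `0, 1` away from zero. -/
def cB (l : List Bool) (m : ZMod 23) : ℤ :=
  if m = 0 then 2 else if l.getD (min m.val (23 - m.val) - 1) false then 1 else 0

theorem psd_aux : ∀ b1 b2 b3 b4 b5 b6 b7 b8 b9 b10 b11 : Bool,
    (∀ t : ZMod 23, t ≠ 0 → 0 ≤ ∑ m, acz (t * m) * cB [b1, b2, b3, b4, b5, b6, b7, b8, b9, b10, b11] m) →
    (∀ m ≠ 0, cB [b1, b2, b3, b4, b5, b6, b7, b8, b9, b10, b11] m = 0) ∨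
    (∀ m ≠ 0, cB [b1, b2, b3, b4, b5, b6, b7, b8, b9, b10, b11] m = 1) ∨
    ∃ j ≠ 0, ∀ m ≠ 0, cB [b1, b2, b3, b4, b5, b6, b7, b8, b9, b10, b11] (j * m) =
      if m = 1 ∨ m = -1 then 1 else 0 := by decide +kernel

theorem psd (c : ZMod 23 → ℤ) (h0 : c 0 = 2) (h1 : ∀ m ≠ 0, c m = 0 ∨ c m = 1) (h2 : ∀ m, c (-m) = c m)
    (h3 : ∀ x : ZMod 23 → ℤ, 0 ≤ ∑ m, (∑ i, x i * x (i + m)) * c m) :
    (∀ m ≠ 0, c m = 0) ∨ (∀ m ≠ 0, c m = 1) ∨
      ∃ j ≠ 0, ∀ m ≠ 0, c (j * m) = if m = 1 ∨ m = -1 then 1 else 0 := by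
  let b : ℕ → Bool := fun n => decide (c n = 1)
  have key : ∀ m : ZMod 23, m ≠ 0 → ∃ n : ℕ, (m = n ∨ m = -n) ∧ (n : ZMod 23) ≠ 0 ∧ n ∈ List.range' 1 11 ∧
      min m.val (23 - m.val) = n := by
    intro m hm
    refine ⟨_, ?_, ?_, ?_, rfl⟩ <;> revert m <;> decide
  have e : c = cB [b 1, b 2, b 3, b 4, b 5, b 6, b 7, b 8, b 9, b 10, b 11] := funext fun m => by
    rcases eq_or_ne m 0 with rfl | hm
    · exact h0
    obtain ⟨n, k1, k2, k3, k4⟩ := key m hm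
    have k5 : [b 1, b 2, b 3, b 4, b 5, b 6, b 7, b 8, b 9, b 10, b 11].getD (n - 1) false = b n := by
      simp only [List.mem_range'_1] at k3
      obtain ⟨k3, k6⟩ := k3
      interval_cases n <;> rfl
    have k6 : c m = c n := by rcases k1 with k | k <;> simp only [k, h2]
    rw [cB, if_neg hm, k4, k5, k6]
    rcases h1 n k2 with k | k <;> simp [b, k]
  rw [e]
  refine psd_aux _ _ _ _ _ _ _ _ _ _ _ fun t ht => ?_
  rw [← e]
  simpa only [ac_eq t _ ht] using h3 fun i => xz (t * i)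

end Cfsg.Agent.H80.F23
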