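import Mathlib
import Cfsg.Agent.H80.F23Kit
import Cfsg.Agent.H80.F23Psd

/-!
# Rational groups of degree 23: lattices with roots
-/

set_option autoImplicit false

namespace Cfsg.Agent.H80.F23

open Module

universe u

attribute [local irreducible] nm

section pw

variable {W : Type*} [AddCommGroup W] [Module ℚ W] {B : LinearMap.BilinForm ℚ W} {γ : End ℚ W}

/-- Powers indexed by residues. -/
def pw (γ : End ℚ W) (i : ZMod 23) : End ℚ W := γ ^ i.val

theorem pw_zero (x : W) : pw γ 0 x = x := rfl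

theorem pw_cast (h : γ ^ 23 = 1) (n : ℕ) : pw γ n = γ ^ n := by
  rw [pw, ZMod.val_natCast, ← pow_eq_pow_mod _ h]

theorem pw_add (h : γ ^ 23 = 1) (i j : ZMod 23) (x : W) : pw γ (i + j) x = pw γ i (pw γ j x) := by
  rw [pw, ZMod.val_add, ← pow_eq_pow_mod _ h, pow_add]; rfl

theorem nm_eq_sum (x : W) : nm γ x = ∑ i : ZMod 23, pw γ i x := by
  rw [nm_apply]
  exact (Fin.sum_univ_eq_sum_range (fun i => (γ ^ i) x) 23).symm

theorem Iso23.pw_pw (h : Iso23 B γ) (i j : ZMod 23) (x y : W) :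
    B (pw γ i x) (pw γ j y) = B x (pw γ (j - i) y) := by
  rw [← h.iso_pow i.val x, ← pw, ← pw_add h.pow, add_sub_cancel]

theorem Iso23.pow_iso (h : Iso23 B γ) (n : ℕ) : Iso23 B (γ ^ n) :=
  ⟨h.iso_pow n, by rw [← pow_mul, mul_comm, pow_mul, h.pow, one_pow]⟩

theorem pw_pow (h : γ ^ 23 = 1) (j m : ZMod 23) : pw (γ ^ j.val) m = pw γ (j * m) := by
  rw [pw, pw, ← pow_mul, ZMod.val_mul, ← pow_eq_pow_mod _ h]

theorem PD.eq_of (h : PD B) {x y : W} (k : B x x + B y y ≤ 2 * B x y) : x = y :=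
  sub_eq_zero.1 (h.eq_zero (by rw [h.sub_self]; linarith))

theorem PD.eq_neg_of (h : PD B) {x y : W} (k : B x x + B y y ≤ -2 * B x y) : x = -y :=
  h.eq_of (by simpa using k)

end pw

variable {B : LinearMap.BilinForm ℚ V}

/-- Expansion along a biorthogonal system. -/
theorem expand (h : PD B) {u v : ZMod 23 → V} (k : ∀ i j, B (u i) (v j) = if i = j then 1 else 0) (x : V) :
    x = ∑ i, B x (v i) • u i := by
  have h1 : LinearIndependent ℚ v := Fintype.linearIndependent_iff.2 fun c hc i => by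
    simpa [k] using congrArg (B (u i)) hc
  have h2 := h1.span_eq_top_of_card_eq_finrank (by simp)
  have h3 : Submodule.span ℚ (Set.range v) ≤ LinearMap.ker (B (x - ∑ i, B x (v i) • u i)) :=
    Submodule.span_le.2 (by rintro _ ⟨j, rfl⟩; simp [LinearMap.sum_apply, k])
  exact sub_eq_zero.1 (h.eq_zero (h3 (h2 ▸ Submodule.mem_top)).le)

theorem norm_expand (h : PD B) {u v : ZMod 23 → V} (k : ∀ i j, B (u i) (v j) = if i = j then 1 else 0)
    (x : V) : B x x = ∑ i, B x (v i) * B x (u i) := by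
  conv_lhs => arg 2; rw [expand h k x]
  simp

theorem ncard_pm (u : ZMod 23 → V) (z : V) {X : Set V}
    (h : ∀ x ∈ X, (∃ i, x = u i ∨ x = -u i) ∨ x = z ∨ x = -z) : X.Finite ∧ X.ncard ≤ 49 := by
  classical
  have h1 : X ⊆ ↑(Finset.univ.image u ∪ Finset.univ.image (fun i => -u i) ∪ {z, -z}) := fun x hx => by
    rcases h x hx with ⟨i, rfl | rfl⟩ | rfl | rfl <;> simp
  refine ⟨(Finset.finite_toSet _).subset h1, (Set.ncard_le_ncard h1).trans ?_⟩
  rw [Set.ncard_coe_finset]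
  refine (Finset.card_union_le _ _).trans ?_
  have h2 := Finset.card_union_le (Finset.univ.image u) (Finset.univ.image fun i => -u i)
  have h3 := Finset.card_image_le (s := Finset.univ) (f := u)
  have h4 := Finset.card_image_le (s := Finset.univ) (f := fun i => -u i)
  have h5 := Finset.card_le_two (a := z) (b := -z)
  rw [Finset.card_univ, ZMod.card] at h3 h4
  omega

theorem sum_le_sum_sq (a : ZMod 23 → ℤ) : ∑ i, a i ≤ ∑ i, a i ^ 2 ∧ -∑ i, a i ≤ ∑ i, a i ^ 2 :=
  ⟨Finset.sum_le_sum fun i _ => Int.le_self_sq _, by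
    rw [← Finset.sum_neg_distrib]
    exact Finset.sum_le_sum fun i _ => by simpa using Int.le_self_sq (-a i)⟩

variable {G : Type u} [Group G] {ρ : Representation ℚ G V} {g : G} {L : Submodule ℤ V}

/-- The vectors of norm `c` in the dual of the root lattice. -/
def dR (B : LinearMap.BilinForm ℚ V) (L : Submodule ℤ V) (c : ℚ) : Set V :=
  {x | (∀ s ∈ L, B s s = 2 → ∃ k : ℤ, B x s = k) ∧ B x x = c}

theorem idx_of_dR (hi : ∀ h x y, B (ρ h x) (ρ h y) = B x y) (hL : LInv ρ L) (hg : g ^ 23 = 1) {c : ℚ}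
    (h : (dR B L c).Finite ∧ (dR B L c).ncard ≤ 49) {x : V} (hx : x ∈ dR B L c) (h0 : ρ g x ≠ x) : Idx G :=
  idx_of_set ρ hg h.1 h.2 (fun x hx => ⟨fun s hs e => (hx.1 s hs e).elim fun k hk => ⟨-k, by simp [hk]⟩,
    by simpa using hx.2⟩) (fun a x hx => ⟨fun s hs e => by
      rw [← ρ.self_inv_apply a s, hi]
      exact hx.1 _ (hL _ s hs) ((hi _ _ _).trans e), (hi _ _ _).trans hx.2⟩) hx h0

section cases

variable (hB : PD B) (hi : ∀ h x y, B (ρ h x) (ρ h y) = B x y) (hL : LInv ρ L) (hI : IntLat B L)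
  (hg : g ^ 23 = 1) {r : V} (hr : r ∈ L) (h2 : B r r = 2)
include hB hi hL hI hg hr h2

omit hB hL hI hr h2 in
theorem iso_of : Iso23 B (ρ g) := ⟨hi g, by rw [← map_pow, hg, map_one]⟩

omit hB hi hI hg h2 in
theorem pw_mem (i : ZMod 23) : pw (ρ g) i r ∈ L := pow_mem_of (hL g) _ hr

theorem case_zero (h0 : ∀ m ≠ 0, B r (pw (ρ g) m r) = 0)
    (hm : ∀ s ∈ L, B s s = 2 → B s (nm (ρ g) s) ≤ B r (nm (ρ g) r)) : Idx G := by
  have I := iso_of hi hg
  have k : ∀ i j, B (pw (ρ g) i r) (pw (ρ g) j r) = if i = j then 2 else 0 := fun i j => by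
    rw [I.pw_pw]
    split_ifs with e
    · rw [e, sub_self, pw_zero, h2]
    · exact h0 _ (sub_ne_zero.2 (Ne.symm e))
  have k' : ∀ i j, B ((1 / 2 : ℚ) • pw (ρ g) i r) (pw (ρ g) j r) = if i = j then 1 else 0 := fun i j => by
    rw [map_smul, LinearMap.smul_apply, k]
    split_ifs <;> simp
  have k0 : B r (nm (ρ g) r) = 2 := by
    simpa [nm_eq_sum, eq_comm, pw_zero] using Finset.sum_congr rfl fun j (_ : j ∈ Finset.univ) => k 0 j
  have key : ¬ ∃ S : ℤ, ∃ s ∈ L, B s s = 2 ∧ (∀ i, B s (pw (ρ g) i r) ^ 2 ≤ 1) ∧ B s (nm (ρ g) r) = S := by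
    intro hS
    have hb : ∀ s ∈ L, B s s = 2 → B s (nm (ρ g) r) ≤ 2 := fun s hs e => by
      have h3 := hm s hs e
      have h4 : nm (ρ g) s = (B s (nm (ρ g) r) / 2) • nm (ρ g) r := by
        conv_lhs => rw [expand hB k' s]
        simp only [map_sum, map_smul, pw, nm_pow I.pow, smul_smul, ← Finset.sum_smul]
        simp only [nm_eq_sum r, map_sum, pw, Finset.sum_div, mul_one_div]
      rw [h4, map_smul, k0, smul_eq_mul] at h3
      nlinarith
    obtain ⟨S, ⟨s, hs, e, h3, h4⟩, h5⟩ := Int.exists_greatest_of_bdd ⟨2, fun S ⟨s, hs, e, _, h⟩ => by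
      exact_mod_cast h ▸ hb s hs e⟩ hS
    choose a ha using fun i => hI.int s hs _ (pw_mem hL hr i)
    have h6 : ∀ i, 0 ≤ a i := fun i => by
      by_contra h7
      have h8 : a i = -1 := by
        have : a i ^ 2 ≤ 1 := by exact_mod_cast ha i ▸ h3 i
        nlinarith [not_le.1 h7]
      have := h5 (S + 2) ⟨s + pw (ρ g) i r, add_mem hs (pw_mem hL hr i), by
        rw [hB.add_self, e, k, ha, h8]; norm_num, fun j => by
          rw [map_add, LinearMap.add_apply, k]
          split_ifs with e'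
          · rw [← e', ha, h8]; norm_num
          · simpa using h3 j, by
        rw [map_add, LinearMap.add_apply, h4, ← I.nm_adj, pw, nm_pow I.pow, I.nm_adj, k0]; norm_num⟩
      omega
    have h7 := norm_expand hB k' s
    have h8 := hb s hs e
    rw [nm_eq_sum, map_sum] at h8
    have h9 : ∀ i, B s (pw (ρ g) i r) * B s ((1 / 2 : ℚ) • pw (ρ g) i r) = B s (pw (ρ g) i r) / 2 := fun i => by
      have h10 : a i ^ 2 ≤ 1 := by exact_mod_cast ha i ▸ h3 i
      rw [map_smul, ha]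
      rcases (show a i = 0 ∨ a i = 1 by have := h6 i; have : a i ≤ 1 := by nlinarith
                                        omega) with e' | e' <;> simp [e']
    simp only [h9, ← Finset.sum_div, e] at h7
    linarith
  refine idx_of_set ρ hg (X := {s | s ∈ L ∧ B s s = 2}) ?_ ?_ (fun x hx => ⟨neg_mem hx.1, by simpa using hx.2⟩)
    (fun a x hx => ⟨hL a x hx.1, (hi _ _ _).trans hx.2⟩) ⟨hr, h2⟩ fun e => ?_
  iterate 2
    refine (ncard_pm (fun i => pw (ρ g) i r) 0 fun s hs => .inl ?_).elim (fun a b => by assumption)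
    by_contra! h3
    obtain ⟨S, hS⟩ := hI.int s hs.1 _ (nm_mem (hL g) hr)
    refine key ⟨S, s, hs.1, hs.2, fun i => ?_, hS⟩
    obtain ⟨a, ha⟩ := hI.int s hs.1 _ (pw_mem hL hr i)
    have h4 : a < 2 := by
      by_contra! h5
      have : (2 : ℚ) ≤ a := by exact_mod_cast h5
      exact (h3 i).1 (hB.eq_of (by rw [hs.2, k, ha]; simp; linarith))
    have h5 : -2 < a := by
      by_contra! h5
      have : (a : ℚ) ≤ -2 := by exact_mod_cast h5
      exact (h3 i).2 (hB.eq_neg_of (by rw [hs.2, k, ha]; simp; linarith))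
    rw [ha]
    interval_cases a <;> norm_num
  · have := h0 1 (by decide)
    rw [show pw (ρ g) 1 r = ρ g r from rfl, e, h2] at this
    norm_num at this

theorem case_all (h0 : ∀ m ≠ 0, B r (pw (ρ g) m r) = 1) : Idx G := by
  have I := iso_of hi hg
  set σ := nm (ρ g) r with hσ
  have k : ∀ i j, B (pw (ρ g) i r) (pw (ρ g) j r) = 1 + if i = j then 1 else 0 := fun i j => by
    rw [I.pw_pw]
    split_ifs with e
    · rw [e, sub_self, pw_zero, h2]; norm_num
    · rw [add_zero]; exact h0 _ (sub_ne_zero.2 (Ne.symm e))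
  have k0 : ∀ i, B σ (pw (ρ g) i r) = 24 := fun i => by
    rw [hσ, nm_eq_sum, map_sum, LinearMap.sum_apply]
    simp only [k, Finset.sum_add_distrib]
    norm_num [ZMod.card]
  have k0' : ∀ i, B (pw (ρ g) i r) σ = 24 := fun i => (hB.symm _ _).trans (k0 i)
  have k1 : B σ σ = 23 * 24 := by rw [hσ, I.nm_nm, ← hσ]; exact congrArg _ (k0' 0)
  let u := fun i => pw (ρ g) i r - (1 / 24 : ℚ) • σ
  have k' : ∀ i j, B (u i) (pw (ρ g) j r) = if i = j then 1 else 0 := fun i j => by simp [u, k, k0]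
  have k2 : ∀ i, B (u i) (u i) = 23 / 24 := fun i => by
    simp only [u, hB.sub_self, k, map_smul, LinearMap.smul_apply, k0', k1, smul_eq_mul]
    norm_num
  have key : ∀ x (a : ZMod 23 → ℤ), (∀ i, B x (pw (ρ g) i r) = a i) → B x σ = (∑ i, a i : ℤ) ∧
      24 * B x x = (24 * ∑ i, a i ^ 2 - (∑ i, a i) ^ 2 : ℤ) := fun x a ha => by
    have h3 : B x σ = (∑ i, a i : ℤ) := by simp [hσ, nm_eq_sum, ha]
    refine ⟨h3, ?_⟩
    rw [norm_expand hB k' x]
    simp only [u, map_sub, map_smul, ha, h3, smul_eq_mul, mul_sub, Finset.sum_sub_distrib, ← Finset.sum_mul]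
    push_cast
    simp only [sq]
    ring
  have h3 : ∀ x ∈ dR B L (23 / 24), ∀ i, 0 < B x (pw (ρ g) i r) → x = u i ∨ x = (1 / 24 : ℚ) • σ := by
    intro x hx i h4
    choose a ha using fun i => hx.1 _ (pw_mem hL hr i) (by rw [k]; norm_num)
    obtain ⟨h5, h6⟩ := key x a ha
    have h7 : 24 * ∑ i, a i ^ 2 - (∑ i, a i) ^ 2 = 23 := by
      rw [hx.2] at h6
      exact_mod_cast h6.symm.trans (by norm_num : (24 : ℚ) * (23 / 24) = 23)
    have h8 := (sum_le_sum_sq a).1
    have h9 : (1 : ℚ) ≤ a i := by exact_mod_cast Int.cast_pos.1 (ha i ▸ h4)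
    rcases (show ∑ i, a i ≤ 1 ∨ 23 ≤ ∑ i, a i by by_contra! h; nlinarith [h.1, h.2]) with h | h
    · have : ((∑ i, a i : ℤ) : ℚ) ≤ 1 := by exact_mod_cast h
      exact .inl (hB.eq_of (by
        rw [k2, hx.2]; simp only [u, map_sub, map_smul, ha, h5, smul_eq_mul]; linarith))
    · have : (23 : ℚ) ≤ (∑ i, a i : ℤ) := by exact_mod_cast h
      exact .inr (hB.eq_of (by
        simp only [hx.2, map_smul, LinearMap.smul_apply, h5, k1, smul_eq_mul]; linarith))
  refine idx_of_dR hi hL hg (c := 23 / 24) (ncard_pm u ((1 / 24 : ℚ) • σ) fun x hx => ?_) (x := u 0)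
    ⟨fun s hs e => ?_, k2 0⟩ fun e => ?_
  · obtain ⟨i, h4⟩ : ∃ i, B x (pw (ρ g) i r) ≠ 0 := by
      by_contra! h
      have := norm_expand hB k' x
      norm_num [h, hx.2] at this
    rcases lt_or_gt_of_ne h4 with h | h
    · rcases h3 (-x) ⟨fun s hs e => (hx.1 s hs e).elim fun k hk => ⟨-k, by simp [hk]⟩, by simpa using hx.2⟩ i
        (by simpa using h) with h | h
      exacts [.inl ⟨i, .inr (neg_eq_iff_eq_neg.1 h)⟩, .inr (.inr (neg_eq_iff_eq_neg.1 h))]
    · exact (h3 x hx i h).imp (fun h => ⟨i, .inl h⟩) .inl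
  · choose a ha using fun i => hI.int s hs _ (pw_mem hL hr i)
    obtain ⟨h5, h6⟩ := key s a ha
    have h7 : 24 * ∑ i, a i ^ 2 - (∑ i, a i) ^ 2 = 48 := by
      rw [e] at h6
      exact_mod_cast h6.symm.trans (by norm_num : (24 : ℚ) * 2 = 48)
    have h8 := sum_le_sum_sq a
    have h9 := hB.sq_le s σ
    rw [h5, e, k1] at h9
    have h10 : (∑ i, a i) ^ 2 ≤ 1104 := by exact_mod_cast h9.trans_eq (by norm_num : (2 : ℚ) * (23 * 24) = 1104)
    obtain ⟨c, hc⟩ : 24 ∣ ∑ i, a i := by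
      generalize ∑ i, a i = S at *
      have h11 : -34 < S ∧ S < 34 := by constructor <;> nlinarith
      obtain ⟨h11, h12⟩ := h11
      interval_cases S <;> omega
    refine ⟨a 0 - c, ?_⟩
    rw [hB.symm]
    simp only [u, map_sub, map_smul, ha, h5, hc, smul_eq_mul]
    push_cast
    ring
  · have := k' 1 0
    rw [show u 1 = ρ g (u 0) by simp only [u, map_sub, map_smul, hσ, g_nm I.pow]; rfl, e, k'] at this
    simp at this
    exact absurd this (by decide)

/-- Signs. -/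
def sg (i : ZMod 23) : ℤ := (-1) ^ i.val

/-- The Gram matrix of a cycle. -/
def cyc (m : ZMod 23) : ℤ := if m = 0 then 2 else if m = 1 ∨ m = -1 then 1 else 0

omit hB hi hL hI hg hr h2 in
theorem sg_cyc : (∀ m : ZMod 23, ∑ i, sg i * cyc (m - i) = if m = 0 ∨ m = -1 then 2 else 0) ∧
    ∀ m : ZMod 23, ∑ i, sg i * (if m + i = 0 ∨ m + i = -1 then 1 else 0) = if m = 0 then 2 else 0 := by
  decide +kernel

theorem case_cyc (h0 : ∀ m ≠ 0, B r (pw (ρ g) m r) = if m = 1 ∨ m = -1 then 1 else 0) : Idx G := by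
  have I := iso_of hi hg
  have k : ∀ m, B r (pw (ρ g) m r) = cyc m := fun m => by
    rcases eq_or_ne m 0 with rfl | e
    · exact h2
    · simp [h0 m e, cyc, e]
  set e := (1 / 2 : ℚ) • ∑ i, (sg i : ℚ) • pw (ρ g) i r with he
  have k1 : ∀ m, B e (pw (ρ g) m r) = if m = 0 ∨ m = -1 then 1 else 0 := fun m => by
    have := congrArg (Int.cast : ℤ → ℚ) (sg_cyc.1 m)
    simp only [he, map_smul, map_sum, LinearMap.smul_apply, LinearMap.sum_apply, I.pw_pw, k, smul_eq_mul]
    push_cast at this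
    rw [this]
    split_ifs <;> norm_num
  have k2 : ∀ i j, B (pw (ρ g) i e) (pw (ρ g) j e) = if i = j then 1 else 0 := fun i j => by
    have := congrArg (Int.cast : ℤ → ℚ) (sg_cyc.2 (j - i))
    rw [I.pw_pw]
    conv_lhs => arg 2; rw [he]
    simp only [map_smul, map_sum, ← pw_add I.pow, k1, smul_eq_mul]
    push_cast at this
    rw [this]
    simp only [sub_eq_zero, eq_comm (a := j)]
    split_ifs <;> norm_num
  have k3 : ∀ i, pw (ρ g) i r = pw (ρ g) i e + pw (ρ g) (i + 1) e := fun i => by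
    rw [expand hB k2 (pw (ρ g) i r)]
    have : ∀ j, B (pw (ρ g) i r) (pw (ρ g) j e) = (if i = j then 1 else 0) + if i + 1 = j then 1 else 0 := fun j => by
      rw [hB.symm, I.pw_pw, k1]
      revert i j
      have : ∀ i j : ZMod 23, (if i - j = 0 ∨ i - j = -1 then 1 else 0 : ℤ) =
        (if i = j then 1 else 0) + if i + 1 = j then 1 else 0 := by decide +kernel
      exact fun i j => by exact_mod_cast this i j
    simp [this, add_smul, Finset.sum_add_distrib]
  have key : ∀ x, (∀ i, ∃ a : ℤ, B x (pw (ρ g) i r) = a) → B x x ≤ 2 → ∀ i, ∃ a : ℤ, B x (pw (ρ g) i e) = a := by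
    intro x hx h3
    choose a ha using hx
    have h4 : 2 * B x e = (∑ i, sg i * a i : ℤ) := by simp [he, ha]
    have h5 : ∀ n : ℕ, ∃ c : ℤ, B x (pw (ρ g) n e) = B x e + c := fun n => by
      induction n with
      | zero => exact ⟨0, by simp [pw_zero]⟩
      | succ n ih =>
        obtain ⟨c, hc⟩ := ih
        have := ha n
        rw [k3, map_add, hc] at this
        exact ⟨a n - c - ∑ i, sg i * a i, by push_cast at h4 ⊢; linarith⟩
    choose c hc using fun i : ZMod 23 => ZMod.natCast_zmod_val i ▸ h5 i.val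
    obtain ⟨b, hb | hb⟩ := Int.even_or_odd' (∑ i, sg i * a i)
    · exact fun i => ⟨b + c i, by rw [hb] at h4; rw [hc]; push_cast at h4 ⊢; linarith⟩
    have h6 : ∀ i ∈ Finset.univ, (1 / 4 : ℚ) ≤ B x (pw (ρ g) i e) * B x (pw (ρ g) i e) := fun i _ => by
      have h7 : (0 : ℚ) ≤ ((b + c i) ^ 2 + (b + c i) : ℤ) := by
        exact_mod_cast (by nlinarith [Int.le_self_sq (-(b + c i))] : 0 ≤ (b + c i) ^ 2 + (b + c i))
      rw [hb] at h4
      rw [hc, show B x e = b + 1 / 2 by push_cast at h4; linarith]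
      push_cast at h7
      nlinarith
    have h7 := Finset.card_nsmul_le_sum _ _ _ h6
    rw [← norm_expand hB k2, Finset.card_univ, ZMod.card] at h7
    norm_num at h7
    linarith
  have h3 : ∀ i, B (pw (ρ g) i r) (pw (ρ g) i r) = 2 := fun i => (I.iso_pow _ _ _).trans h2
  refine idx_of_dR hi hL hg (c := 1) (ncard_pm (fun i => pw (ρ g) i e) 0 fun x hx => .inl ?_) (x := e)
    ⟨fun s hs h => ?_, by simpa [pw_zero] using k2 0 0⟩ fun h => ?_
  · obtain ⟨i, h4⟩ : ∃ i, B x (pw (ρ g) i e) ≠ 0 := by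
      by_contra! h
      have := norm_expand hB k2 x
      norm_num [h, hx.2] at this
    obtain ⟨a, ha⟩ := key x (fun i => hx.1 _ (pw_mem hL hr i) (h3 i)) (by rw [hx.2]; norm_num) i
    rcases (show 1 ≤ a ∨ a ≤ -1 by have : a ≠ 0 := by simpa [ha] using h4
                                   omega) with h | h
    · have : (1 : ℚ) ≤ a := by exact_mod_cast h
      exact ⟨i, .inl (hB.eq_of (by rw [hx.2, k2, ha]; simp; linarith))⟩
    · have : (a : ℚ) ≤ -1 := by exact_mod_cast h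
      exact ⟨i, .inr (hB.eq_neg_of (by rw [hx.2, k2, ha]; simp; linarith))⟩
  · rw [hB.symm]
    exact key s (fun i => hI.int s hs _ (pw_mem hL hr i)) h.le 0
  · have := k2 1 0
    rw [show pw (ρ g) 1 e = ρ g e from rfl, h, ← pw_zero (γ := ρ g) e, ← pw_add I.pow, add_zero, k2] at this
    simp at this
    exact absurd this (by decide)

end cases

theorem rootStmt : RootStmt.{u} := by
  rintro G _ _ ρ B g L h hI hL ⟨r₀, hr₀, e₀⟩
  have hB := h.pd
  have I := h.iso
  have hX : ∀ a, ∀ x ∈ {s | s ∈ L ∧ B s s = 2}, ρ a x ∈ {s | s ∈ L ∧ B s s = 2} :=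
    fun a x hx => ⟨hL a x hx.1, (h.inv _ _ _).trans hx.2⟩
  have hc : ∀ s ∈ L, B s s = 2 → ∀ s' ∈ L, B s' s' = 2 → s ≠ s' → s ≠ -s' →
      B s s' = 0 ∨ B s s' = 1 ∨ B s s' = -1 := fun s hs e s' hs' e' k k' => by
    obtain ⟨a, ha⟩ := hI.int s hs s' hs'
    have h4 : a < 2 := by
      by_contra! h5
      have : (2 : ℚ) ≤ a := by exact_mod_cast h5
      exact k (hB.eq_of (by rw [e, e', ha]; linarith))
    have h5 : -2 < a := by
      by_contra! h5
      have : (a : ℚ) ≤ -2 := by exact_mod_cast h5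
      exact k' (hB.eq_neg_of (by rw [e, e', ha]; linarith))
    rw [ha]
    interval_cases a <;> norm_num
  have hp : ∀ s, ρ g s ≠ s → ∀ m ≠ 0, s ≠ pw (ρ g) m s ∧ s ≠ -pw (ρ g) m s := fun s k m hm => by
    have h1 : ¬ 23 ∣ m.val := fun e => hm ((ZMod.val_eq_zero m).1 (Nat.eq_zero_of_dvd_of_lt e (ZMod.val_lt m)))
    refine ⟨fun e => k (fix_of_pow I.pow h1 e.symm), fun e => k (fix_of_pow I.pow (i := m.val * 2) (by omega) ?_)⟩
    rw [pow_mul, sq, End.mul_apply, ← pw, ← neg_eq_iff_eq_neg.2 e, map_neg, ← neg_eq_iff_eq_neg.2 e, neg_neg]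
  -- no root is fixed
  have hf : ∀ s ∈ L, B s s = 2 → ρ g s ≠ s := fun s hs e k => by
    have h0 : s ≠ 0 := by rintro rfl; simp at e
    have h1 : ∀ t ∈ L, B t t = 2 → B t (nm (ρ g) t) = 23 * B t s ^ 2 / 2 := fun t _ _ => by
      obtain ⟨c, hc⟩ := h.exists_smul k h0 (g_nm I.pow t)
      have := I.nm_fix t k
      rw [hc, map_smul, LinearMap.smul_apply, e, smul_eq_mul] at this
      rw [hc, map_smul, smul_eq_mul, show c = 23 * B t s / 2 by linarith]
      ring
    have h2 : ∀ t ∈ L, B t t = 2 → t ≠ s → t ≠ -s → B t s = 0 := fun t ht e' k1 k2 => by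
      obtain ⟨a, ha⟩ := hI.int t ht _ (nm_mem (hL g) ht)
      refine (hc t ht e' s hs e k1 k2).resolve_right fun k3 => ?_
      have h3 := h1 t ht e'
      rw [ha, show B t s ^ 2 = 1 by rcases k3 with k | k <;> norm_num [k]] at h3
      have : 2 * a = 23 := by exact_mod_cast (by linarith : (2 * a : ℚ) = 23)
      omega
    obtain ⟨_, ⟨a, rfl⟩, ha⟩ := h.irr.exists_not_mem (X := Set.range fun a => ρ a s)
      (by rintro a _ ⟨b, rfl⟩; exact ⟨a * b, by simp⟩) ⟨1, by simp⟩ h0 (Irr.span_ne_top s)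
    have h3 : ρ g (ρ a s) ≠ ρ a s := fun k' => by
      obtain ⟨c, hc⟩ := h.exists_smul k h0 k'
      exact ha (Submodule.mem_span_singleton.2 ⟨c, hc.symm⟩)
    have h4 : ∀ m ≠ 0, B (ρ a s) (pw (ρ g) m (ρ a s)) = 0 := fun m hm => by
      have e1 : pw (ρ g) m (ρ a s) = ρ a (ρ (a⁻¹ * g ^ m.val * a) s) := by simp [pw]
      have e2 := hp _ h3 m hm
      rw [e1] at e2 ⊢
      rw [h.inv, hB.symm]
      exact h2 _ (hL _ s hs) ((h.inv _ _ _).trans e) (fun k => e2.1 (by rw [k])) fun k => e2.2 (by rw [k, map_neg, neg_neg])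
    have h5 := h1 _ (hL a s hs) ((h.inv _ _ _).trans e)
    rw [h2 _ (hL a s hs) ((h.inv _ _ _).trans e) (fun k' => h3 (by rw [k', k])) (fun k' => h3 (by
      rw [k', map_neg, k])), nm_eq_sum, map_sum, Finset.sum_eq_single 0 (fun m _ => h4 m) (by simp), pw_zero,
      h.inv, e] at h5
    norm_num at h5
  obtain ⟨S, ⟨r, hr, e, hS⟩, hm⟩ := Int.exists_greatest_of_bdd
    (P := fun S => ∃ s ∈ L, B s s = 2 ∧ B s (nm (ρ g) s) = S) ⟨46, fun S ⟨s, hs, e, k⟩ => by
      have h1 := hB.sq_le s (nm (ρ g) s)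
      rw [I.nm_nm, e, k] at h1
      have : S ^ 2 ≤ 2 * (23 * S) := by exact_mod_cast h1
      nlinarith⟩ ((hI.int r₀ hr₀ _ (nm_mem (hL g) hr₀)).imp fun S k => ⟨r₀, hr₀, e₀, k⟩)
  have hm' : ∀ s ∈ L, B s s = 2 → B s (nm (ρ g) s) ≤ B r (nm (ρ g) r) := fun s hs k => by
    obtain ⟨a, ha⟩ := hI.int s hs _ (nm_mem (hL g) hs)
    rw [ha, hS]
    exact_mod_cast hm a ⟨s, hs, k, ha⟩
  have h0 : 0 < B r (nm (ρ g) r) := by
    obtain ⟨s, hs, k⟩ := h.irr.exists_not_mem hX ⟨hr, e⟩ (by rintro rfl; simp at e) h.ker_ne_top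
    have := hB.pos _ k
    rw [I.nm_nm] at this
    linarith [hm' s hs.1 hs.2]
  choose c hc' using fun m => hI.int r hr _ (pw_mem hL hr (g := g) m)
  have h1 : ∀ m ≠ 0, c m = 0 ∨ c m = 1 := fun m k => by
    have h2 := hp r (hf r hr e) m k
    rcases hc r hr e _ (pw_mem hL hr m) ((I.iso_pow _ _ _).trans e) h2.1 h2.2 with k' | k' | k'
    · exact .inl (by exact_mod_cast (hc' m).symm.trans k')
    · exact .inr (by exact_mod_cast (hc' m).symm.trans k')
    have := hm' _ (add_mem hr (pw_mem hL hr (g := g) m)) (by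
      rw [hB.add_self, k', pw, I.iso_pow, e]; norm_num)
    simp only [map_add, LinearMap.add_apply, pw, nm_pow I.pow] at this
    rw [← I.nm_adj ((ρ g ^ _) r), nm_pow I.pow, I.nm_adj] at this
    linarith
  rcases psd c (by exact_mod_cast (hc' 0).symm.trans e) h1 (fun m => by
      have := I.pw_pw m 0 r r
      rw [zero_sub, pw_zero, hB.symm, hc', hc'] at this
      exact_mod_cast this.symm) (fun x => by
      have := hB.nonneg (∑ i, (x i : ℚ) • pw (ρ g) i r)
      simp only [map_sum, map_smul, LinearMap.sum_apply, LinearMap.smul_apply, I.pw_pw, hc', smul_eq_mul] at this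
      have h2 : (0 : ℤ) ≤ ∑ j, x j * ∑ i, x i * c (j - i) := by exact_mod_cast this
      simp only [Finset.sum_mul, Finset.mul_sum] at h2 ⊢
      rw [Finset.sum_comm] at h2 ⊢
      refine h2.trans_eq (Finset.sum_congr rfl fun i _ => ?_)
      rw [← Equiv.sum_comp (Equiv.addLeft i)]
      exact Finset.sum_congr rfl fun m _ => by simp; ring) with k | k | ⟨j, -, k⟩
  · exact case_zero hB h.inv hL hI h.pow hr e (fun m hm => by rw [hc', k m hm]; rfl) hm'
  · exact case_all hB h.inv hL hI h.pow hr e fun m hm => by rw [hc', k m hm]; rfl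
  · refine case_cyc hB h.inv hL hI (g := g ^ j.val) (by rw [← pow_mul, mul_comm, pow_mul, h.pow, one_pow]) hr e
      fun m hm => ?_
    rw [map_pow, pw_pow I.pow, hc', k m hm]
    split_ifs <;> rfl

end Cfsg.Agent.H80.F23
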