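import Cfsg.Agent.H97.JnDefs
import Cfsg.Agent.H17.PGLPres
import Cfsg.Agent.H29.PSL2Sub

/-!
# Project JN, piece BP: the presentation of `PGL(2, 23)`
-/

set_option autoImplicit false

namespace Cfsg.Agent.H97.JM

open Subgroup Cfsg.Agent.H17 Cfsg.Agent.H29 Multiplicative
open scoped MatrixGroups

universe u

namespace BP

/-- The relations over a prime field. -/
theorem bru' {p : ℕ} [Fact p.Prime] {r : ℕ} {ρ : (ZMod p)ˣ} (hr : (ρ : ZMod p) = r)
    (hρ : orderOf ρ = p - 1) {G : Type*} [Group G] {X H W : G} (h1 : X ^ p = 1)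
    (h2 : H ^ (p - 1) = 1) (h3 : H * X = X ^ r * H) (h4 : W * W = 1) (h5 : W * H * (W * H) = 1)
    (h6 : (W * X) ^ 3 = 1) :
    ∃ (x : ZMod p → G) (h : (ZMod p)ˣ → G), Bru x h W ∧ (∀ u, x u ∈ zpowers X) ∧
      (∀ a, h a ∈ zpowers H) ∧ x 1 = X ∧ h ρ = H := by
  have g1 : ∀ u : Multiplicative (ZMod p), u ∈ Subgroup.zpowers (ofAdd (1 : ZMod p)) := by
    intro u
    refine ⟨((toAdd u).val : ℕ), ?_⟩
    show ofAdd (1 : ZMod p) ^ (((toAdd u).val : ℕ) : ℤ) = u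
    rw [zpow_natCast, ← ofAdd_nsmul, nsmul_one, ZMod.natCast_zmod_val, ofAdd_toAdd]
  have o1 : orderOf X ∣ orderOf (ofAdd (1 : ZMod p)) := by
    rw [orderOf_ofAdd_eq_addOrderOf, ZMod.addOrderOf_one]
    exact orderOf_dvd_of_pow_eq_one h1
  have g2 : ∀ a : (ZMod p)ˣ, a ∈ Subgroup.zpowers ρ := by
    have : Subgroup.zpowers ρ = ⊤ := by
      apply Subgroup.eq_top_of_card_eq
      rw [Nat.card_zpowers, hρ, Nat.card_eq_fintype_card, ZMod.card_units]
    intro a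
    rw [this]
    trivial
  have o2 : orderOf H ∣ orderOf ρ := hρ ▸ orderOf_dvd_of_pow_eq_one h2
  obtain ⟨x, ex⟩ : ∃ x : Multiplicative (ZMod p) →* G, x (ofAdd 1) = X :=
    ⟨_, monoidHomOfForallMemZpowers_apply_gen g1 o1⟩
  obtain ⟨h, eh⟩ : ∃ h : (ZMod p)ˣ →* G, h ρ = H :=
    ⟨_, monoidHomOfForallMemZpowers_apply_gen g2 o2⟩
  have xn : ∀ n : ℕ, x (ofAdd (n : ZMod p)) = X ^ n := fun n => by
    rw [← ex, ← map_pow, ← ofAdd_nsmul, nsmul_one]
  have g3 : ∀ a : (ZMod p)ˣ, ∃ n : ℕ, ρ ^ n = a := fun a =>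
    (mem_powers_iff_mem_zpowers.mpr (g2 a))
  have c1 : ∀ u : ZMod p, H * x (ofAdd u) = x (ofAdd (ρ * u)) * H := by
    intro u
    rw [← ZMod.natCast_zmod_val u, hr, ← Nat.cast_mul, xn, xn, pow_mul]
    exact SemiconjBy.pow_right h3 _
  have c2 : W * H = H⁻¹ * W := by
    calc W * H = H⁻¹ * W * (W * W)⁻¹ * (W * H * (W * H)) * (W * H)⁻¹ * (W * H) := by group
      _ = _ := by rw [h4, h5]; group
  refine ⟨fun u => x (ofAdd u), h, ⟨fun u v => by rw [ofAdd_add, map_mul], map_mul h,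
    fun a u => ?_, h4, fun a => ?_, ?_⟩, fun u => ?_, fun a => ?_, ex, eh⟩
  · obtain ⟨n, rfl⟩ := g3 a
    induction n generalizing u with
    | zero => simp
    | succ n ih =>
      rw [pow_succ, map_mul, eh, mul_assoc, c1, ← mul_assoc, ih, Units.val_mul, mul_assoc,
        mul_assoc]
  · obtain ⟨n, rfl⟩ := g3 a
    rw [map_inv, map_pow, eh, ← inv_pow]
    exact SemiconjBy.pow_right c2 n
  · show W * x (ofAdd 1) * W = x (ofAdd (-1)) * W * x (ofAdd (-1))
    rw [ofAdd_neg, map_inv, ex]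
    calc W * X * W = (W * X) ^ 3 * X⁻¹ * W * (W * W)⁻¹ * X⁻¹ := by
          simp only [pow_succ, pow_zero, one_mul]; group
      _ = _ := by rw [h4, h6]; group
  · show x (ofAdd u) ∈ _
    rw [← ZMod.natCast_zmod_val u, xn]
    exact npow_mem_zpowers X _
  · obtain ⟨n, rfl⟩ := g3 a
    rw [map_pow, eh]
    exact npow_mem_zpowers H _

end BP

theorem qBP : BP.{u} := by
  intro G _ X H W h1 h0 h2 h3 h4 h5 h6
  have : Fact (Nat.Prime 23) := ⟨by norm_num⟩
  have hρ : orderOf (ZMod.unitOfCoprime 5 (by norm_num) : (ZMod 23)ˣ) = 23 - 1 := by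
    rw [← orderOf_units, ZMod.coe_unitOfCoprime]
    exact (orderOf_eq_iff (by norm_num)).mpr ⟨by decide, by decide⟩
  obtain ⟨x, h, B, mx, mh, ex, eh⟩ := BP.bru' (p := 23) (r := 5) (X := X) (H := H) (W := W)
    (ZMod.coe_unitOfCoprime 5 _) hρ h1 h2 h3 h4 h5 h6
  obtain ⟨φ, hφ, e1, e2, e3⟩ := B.exists_injective (c := ZMod.unitOfCoprime 5 (by norm_num))
    (ex ▸ h0) (fun e1 => by
      have := orderOf_dvd_of_pow_eq_one ((pow_two _).trans e1)
      rw [hρ] at this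
      norm_num at this)
  have mX : X ∈ closure ({X, H, W} : Set G) := subset_closure (by simp)
  have mH : H ∈ closure ({X, H, W} : Set G) := subset_closure (by simp)
  have mW : W ∈ closure ({X, H, W} : Set G) := subset_closure (by simp)
  have ma : ∀ a u, φ (aff a u) ∈ closure ({X, H, W} : Set G) := fun a u => by
    rw [aff_eq_mul, map_mul, e1, e2]
    exact mul_mem (zpowers_le.2 mX (mx u)) (zpowers_le.2 mH (mh a))
  have r : φ.range = closure ({X, H, W} : Set G) := by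
    refine le_antisymm ?_ ((closure_le _).2 ?_)
    · rintro _ ⟨g, rfl⟩
      rcases pgl_cases g with ⟨a, u, rfl⟩ | ⟨a, u, v, rfl⟩
      · exact ma a u
      · rw [map_mul, map_mul, e3]
        exact mul_mem (mul_mem (ma 1 v) mW) (ma a u)
    · rintro _ (rfl | rfl | rfl)
      · exact ⟨_, (e1 1).trans ex⟩
      · exact ⟨_, (e2 _).trans eh⟩
      · exact ⟨_, e3⟩
  have i : ↥(closure ({X, H, W} : Set G)) ≃* PGL(2, ZMod 23) :=
    (MulEquiv.subgroupCongr r.symm).trans (MonoidHom.ofInjective hφ).symm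
  refine ⟨⟨i⟩, ?_⟩
  rw [Nat.card_congr i.toEquiv, card_PGL2, Nat.card_zmod]

end Cfsg.Agent.H97.JM
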