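import Cfsg.Agent.H35.RfQ
import Cfsg.Agent.H83.Cores

/-! Project RF, piece XQB: the group data in the quotient `C(z) / Q`. -/

set_option autoImplicit false
set_option linter.unusedVariables false
set_option linter.unusedSectionVars false

namespace Cfsg.Agent.H80.RfXqb

open Cfsg Subgroup Cfsg.Agent.H18.Rf Cfsg.Agent.H35.RF
open scoped commutatorElement

universe u

variable {G X : Type u} [Group G] [Group X] {z : G} {Q : Subgroup G} {π : C1 z →* X}

theorem im_mono {S U : Subgroup G} (h : S ≤ U) : im π S ≤ im π U :=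
  map_mono (comap_mono h)

theorem im_nn {S U : Subgroup G} (h : S ≤ NN U) : im π S ≤ NN (im π U) :=
  (map_mono ((comap_mono h).trans (le_normalizer_comap _))).trans (le_normalizer_map _)

theorem im_card (hk : ∀ c, π c = 1 ↔ (c : G) ∈ Q) {S : Subgroup G} (h1 : Q ≤ S) (h2 : S ≤ C1 z) :
    Nat.card Q * Nat.card (im π S) = Nat.card S := by
  have hker : π.ker = Q.subgroupOf (C1 z) := by ext c; exact hk c
  have h3 := (π.ker.subgroupOf (S.subgroupOf (C1 z))).card_mul_index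
  have h4 : π.ker ≤ S.subgroupOf (C1 z) := by rw [hker]; exact comap_mono h1
  rw [Nat.card_congr (subgroupOfEquivOfLe h4).toEquiv,
    Nat.card_congr (subgroupOfEquivOfLe h2).toEquiv] at h3
  rw [← h3, ← relIndex_ker, hker, Nat.card_congr (subgroupOfEquivOfLe (h1.trans h2)).toEquiv]
  rfl

theorem comm_of (hk : ∀ c, π c = 1 ↔ (c : G) ∈ Q) (a b : C1 z) :
    π a ∈ C1 (π b) ↔ ⁅(a : G), (b : G)⁆ ∈ Q := by
  rw [mem_centralizer_singleton_iff, ← commutatorElement_eq_one_iff_mul_comm,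
    ← map_commutatorElement, hk]
  rfl

theorem xqb (hL : LtaStmt.{u}) : XqbStmt.{u} := by
  intro G X A _ _ _ _ _ _ V z W R Q π α φ s ω co cq qt xf
  have va := co.vc.toVa
  obtain ⟨-, -, l3, l4⟩ := hL G V z W R Q ω va co.a co.ql
  obtain ⟨T, hRT, hTM, hcT, e, heV, heW, hTe, hTv⟩ := co.d.zT
  have hk := qt.πk
  have hQR : Q ≤ R := co.ql.sup ▸ le_sup_left
  have hMC : MM V z ≤ C1 z := inf_le_right
  have hRC : R ≤ C1 z := va.RM.trans hMC
  have hVC : V ≤ C1 z := va.VR.trans hRC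
  have hWQ : W ≤ Q := co.ql.inf ▸ inf_le_left
  have hQV : ∀ x, x ∈ Q → x ∈ V → x ∈ W := fun x h1 h2 => co.ql.inf ▸ (mem_inf.2 ⟨h1, h2⟩)
  have hRV : im π R = im π V := by
    refine le_antisymm ?_ (im_mono va.VR)
    rw [← co.ql.sup]
    unfold im
    rw [subgroupOf_sup (hQR.trans hRC) hVC, Subgroup.map_sup]
    refine sup_le ?_ le_rfl
    rintro _ ⟨c, hc, rfl⟩
    rw [(hk c).2 hc]; exact one_mem _
  have cT : Nat.card (im π T) = 256 := by
    have := im_card hk (hQR.trans hRT) (hTM.trans hMC)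
    rw [co.cQ, hcT] at this
    omega
  haveI : Fact (Nat.Prime 2) := ⟨Nat.prime_two⟩
  haveI : Fact (Nat.Prime 3) := ⟨Nat.prime_three⟩
  refine ⟨im π T, ?_, im_mono hTM, hRV ▸ im_mono hRT, cT, ?_, ?_, ?_, im_nn inf_le_left,
    ⟨ω, co.a.om, rfl⟩, ?_, ?_, ?_, ?_, ?_, ?_⟩
  · obtain ⟨m, hm, hc⟩ := cq.two
    have h1 := im_card hk (hQR.trans hRC) le_rfl
    have h2 : im π (C1 z) = ⊤ := by
      unfold im
      rw [subgroupOf_self, ← MonoidHom.range_eq_map, MonoidHom.range_eq_top]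
      exact qt.πs
    rw [h2, co.cQ, hc, card_top] at h1
    have h3 := (im π T).card_mul_index
    rw [cT] at h3
    have h4 : (im π T).index = m := by omega
    have hp : IsPGroup 2 (im π T) := IsPGroup.of_card (n := 8) cT
    refine ⟨hp.toSylow ?_, rfl⟩
    rw [h4]
    exact fun h => (Nat.not_even_iff_odd.2 hm) (even_iff_two_dvd.2 h)
  · have := im_card hk (hQR.trans va.RM) hMC
    rw [co.cQ, co.a.cM] at this
    omega
  · have := im_card hk hQR hRC
    rw [co.cQ, co.a.cR, hRV] at this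
    omega
  · rintro _ ⟨c, hc, rfl⟩
    rw [← map_mul, show c * c = 1 from Subtype.ext (va.el c hc), map_one]
  · have h3 : ω ^ 3 = 1 := Subtype.ext (by
      have := pow_orderOf_eq_one (ω : G)
      rwa [co.a.o3] at this)
    refine orderOf_eq_prime (by rw [← map_pow, h3, map_one]) fun h => ?_
    have h1 := orderOf_dvd_natCard (⟨ω, (hk ω).1 h⟩ : Q)
    rw [← orderOf_coe, co.cQ] at h1
    have h2 : orderOf (ω : G) ∣ 2 ^ 13 := h1
    rw [co.a.o3] at h2
    revert h2; norm_num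
  · have key : ∀ x ∈ im π (MM V z), ∀ y ∈ zpowers (π ω), x * y * x⁻¹ ∈ zpowers (π ω) := by
      rintro _ ⟨m, hm, rfl⟩ _ ⟨k, rfl⟩
      show π m * π ω ^ k * (π m)⁻¹ ∈ _
      rw [← conj_zpow]
      apply zpow_mem
      rcases co.a.sl m hm with h | h
      · have h1 := mem_centralizer_singleton_iff.1 ((comm_of hk m ω).2 (l3 m hm h))
        rw [h1, mul_inv_cancel_right]; exact mem_zpowers _
      · have h1 : π (m * ω * m⁻¹ * ω) = 1 := (hk _).2 (l4 m hm h)
        rw [map_mul, map_mul, map_mul, map_inv] at h1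
        rw [eq_inv_of_mul_eq_one_left h1]; exact inv_mem (mem_zpowers _)
    intro x hx
    rw [mem_normalizer_iff]
    refine fun y => ⟨key x hx y, fun h => ?_⟩
    have := key x⁻¹ (inv_mem hx) _ h
    rwa [show x⁻¹ * (x * y * x⁻¹) * x⁻¹⁻¹ = y by group] at this
  · rintro _ ⟨c, hc, rfl⟩
    exact (comm_of hk c ω).2 (hWQ (co.a.ωV c hc))
  · intro h
    obtain ⟨m, hm, hn⟩ := co.a.inv
    exact hn (hQR ((comm_of hk ⟨m, hMC hm⟩ ω).1 (h ⟨⟨m, hMC hm⟩, hm, rfl⟩)))
  · refine ⟨π ⟨e, hVC heV⟩, ⟨_, heV, rfl⟩, fun h => heW (hQV _ ((hk _).1 h) heV), ?_, ?_⟩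
    · rintro _ ⟨c, hc, rfl⟩
      exact (comm_of hk c _).2 (hWQ (hTe c hc))
    · rintro _ ⟨v, hv, rfl⟩ h
      have hv' : (v : G) ∈ V := hv
      have h1 := hTv v hv' (fun t ht htω => by
        have htM := hTM ht
        have h2 : π ⟨t, hMC htM⟩ ∈ C1 (π v) :=
          h ⟨⟨_, ht, rfl⟩, (comm_of hk ⟨t, hMC htM⟩ ω).2 (l3 t htM htω)⟩
        refine hQV _ ((comm_of hk _ v).1 h2) ?_
        rw [commutatorElement_def]
        exact mul_mem ((mem_normalizer_iff.1 htM.1 _).1 hv') (inv_mem hv'))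
      rcases h1 with h1 | h1
      · exact Or.inl ((hk v).2 (hWQ h1))
      · right
        have h2 : π (v * ⟨e, hVC heV⟩) = 1 := (hk _).2 (hWQ h1)
        have h3 : π (⟨e, hVC heV⟩ * ⟨e, hVC heV⟩) = 1 := by
          rw [show (⟨e, hVC heV⟩ * ⟨e, hVC heV⟩ : C1 z) = 1 from Subtype.ext (va.el e heV), map_one]
        rw [map_mul] at h2 h3
        exact mul_right_cancel (h2.trans h3.symm)
  · have hn : (pCore 2 X).Normal := inferInstance
    have hQ2 : IsPGroup 2 Q := IsPGroup.of_card co.cQ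
    have hker : π.ker = Q.subgroupOf (C1 z) := by ext c; exact hk c
    have h1 : IsPGroup 2 ((pCore 2 X).comap π) :=
      H83.pCore_isPGroup.comap_of_ker_isPGroup π (hker ▸ hQ2.comap_subtype)
    have h2 := co.o2 (((pCore 2 X).comap π).map (C1 z).subtype) (h1.map _) (map_subtype_le _) (by
      have h3 := le_normalizer_map (H := (pCore 2 X).comap π) (C1 z).subtype
      rwa [normalizer_eq_top, ← MonoidHom.range_eq_map, range_subtype] at h3)
    rw [eq_bot_iff]
    intro x hx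
    obtain ⟨c, rfl⟩ := qt.πs x
    exact (hk c).2 (h2 ⟨c, hx, rfl⟩)

end Cfsg.Agent.H80.RfXqb
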