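import Cfsg.Agent.H80.SchurMeta

set_option autoImplicit false

namespace Cfsg.Agent.H80

open Subgroup DihedralGroup
open scoped commutatorElement

theorem dihedral_gen (n : ℕ) [NeZero n] :
    closure ({r 1, sr 0} : Set (DihedralGroup n)) = ⊤ := by
  rw [eq_top_iff]
  have h1 : ∀ i : ZMod n, r i ∈ closure ({r 1, sr 0} : Set (DihedralGroup n)) := by
    intro i
    rw [← ZMod.natCast_zmod_val i, ← r_one_pow]
    exact pow_mem (subset_closure (by simp)) _
  rintro (i | i) _
  · exact h1 i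
  · have : sr i = sr 0 * r i := by simp
    rw [this]
    exact mul_mem (subset_closure (by simp)) (h1 i)

theorem dihedral_stem (n : ℕ) [NeZero n] {Γ : Type*} [Group Γ] [Finite Γ]
    {σ : Γ →* DihedralGroup n} (hσ : Cfsg.IsStemExtension σ) :
    ∃ c : Γ, c ^ n = 1 ∧ (∀ k : ℤ, (n : ℤ) ∣ 2 * k → σ (c ^ k) = 1) ∧
      ∀ z, σ z = 1 → ∃ k : ℤ, z = c ^ k ∧ (n : ℤ) ∣ 2 * k := by
  obtain ⟨x, hx⟩ := hσ.1 (r 1)
  obtain ⟨y, hy⟩ := hσ.1 (sr 0)
  have hr : σ y * σ x * (σ y)⁻¹ = σ x ^ (-1 : ℤ) := by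
    rw [hx, hy]; simp
  refine ⟨⁅y, x⁆, ?_, ?_, ?_⟩
  · rw [← zpow_natCast, meta_zpow hσ.2.1 hr]
    refine commutatorElement_eq_one_of_map hσ.2.1 (y' := 1) ?_ (Commute.one_right _)
    rw [zpow_natCast, map_pow, hx, r_one_pow_n, map_one]
  · intro k hk
    have h1 : σ ⁅y, x⁆ = σ x ^ (-1 - 1 : ℤ) := by
      rw [map_commutatorElement, commutatorElement_def, hr, zpow_sub_one]
    rw [map_zpow, h1, ← zpow_mul, hx, ← orderOf_dvd_iff_zpow_eq_one, orderOf_r_one]
    obtain ⟨j, hj⟩ := hk
    exact ⟨-j, by linarith⟩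
  · intro z hz
    obtain ⟨k, hk, hk'⟩ := meta_ker hσ hr (by rw [hx, hy]; exact dihedral_gen n) hz
    rw [hx, ← orderOf_dvd_iff_zpow_eq_one, orderOf_r_one] at hk'
    obtain ⟨j, hj⟩ := hk'
    exact ⟨k, hk, ⟨-j, by linarith⟩⟩

/-- The projection from the dicyclic group to the dihedral group. -/
def quatToDihedral (n : ℕ) : QuaternionGroup n →* DihedralGroup n :=
  MonoidHom.mk' (fun g => match g with
    | QuaternionGroup.a i => r (ZMod.castHom (dvd_mul_left n 2) (ZMod n) i)
    | QuaternionGroup.xa i => sr (ZMod.castHom (dvd_mul_left n 2) (ZMod n) i)) (by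
    rintro (i | i) (j | j)
    · simp only [QuaternionGroup.a_mul_a, r_mul_r, map_add]
    · simp only [QuaternionGroup.a_mul_xa, r_mul_sr, map_sub]
    · simp only [QuaternionGroup.xa_mul_a, sr_mul_r, map_add]
    · simp only [QuaternionGroup.xa_mul_xa, sr_mul_sr, map_sub, map_add, map_natCast,
        ZMod.natCast_self, zero_add])

theorem quatToDihedral_a (n : ℕ) (i : ZMod (2 * n)) :
    quatToDihedral n (QuaternionGroup.a i) = r (ZMod.castHom (dvd_mul_left n 2) (ZMod n) i) := rfl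

theorem quatToDihedral_xa (n : ℕ) (i : ZMod (2 * n)) :
    quatToDihedral n (QuaternionGroup.xa i) = sr (ZMod.castHom (dvd_mul_left n 2) (ZMod n) i) := rfl

theorem quatToDihedral_surjective (n : ℕ) : Function.Surjective (quatToDihedral n) := by
  rintro (i | i)
  · obtain ⟨j, rfl⟩ := ZMod.castHom_surjective (dvd_mul_left n 2) i
    exact ⟨QuaternionGroup.a j, rfl⟩
  · obtain ⟨j, rfl⟩ := ZMod.castHom_surjective (dvd_mul_left n 2) i
    exact ⟨QuaternionGroup.xa j, rfl⟩

theorem card_ker_quatToDihedral (n : ℕ) [NeZero n] : Nat.card (quatToDihedral n).ker = 2 := by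
  have h1 := Subgroup.card_mul_index (quatToDihedral n).ker
  rw [Subgroup.index_ker, MonoidHom.range_eq_top_of_surjective _ (quatToDihedral_surjective n),
    Subgroup.card_top, DihedralGroup.nat_card, Nat.card_eq_fintype_card (α := QuaternionGroup n),
    QuaternionGroup.card] at h1
  have := NeZero.ne n
  have h2 : Nat.card (quatToDihedral n).ker * (2 * n) = 2 * (2 * n) := by omega
  exact Nat.eq_of_mul_eq_mul_right (by omega) h2

theorem quat_a_n_ne_one (n : ℕ) [NeZero n] :
    (QuaternionGroup.a (n : ZMod (2 * n)) : QuaternionGroup n) ≠ 1 := by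
  rw [← QuaternionGroup.a_one_pow, Ne, ← orderOf_dvd_iff_pow_eq_one, QuaternionGroup.orderOf_a_one]
  intro h
  have := Nat.le_of_dvd (Nat.pos_of_ne_zero (NeZero.ne n)) h
  have := NeZero.ne n
  omega

theorem mem_ker_quatToDihedral (n : ℕ) [NeZero n] {z : QuaternionGroup n}
    (hz : z ∈ (quatToDihedral n).ker) : z = 1 ∨ z = QuaternionGroup.a (n : ZMod (2 * n)) := by
  have h1 : QuaternionGroup.a (n : ZMod (2 * n)) ∈ (quatToDihedral n).ker := by
    rw [MonoidHom.mem_ker, quatToDihedral_a, map_natCast, ZMod.natCast_self, r_zero]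
  obtain ⟨y, -, hy⟩ := (Nat.card_eq_two_iff' (1 : (quatToDihedral n).ker)).1
    (card_ker_quatToDihedral n)
  by_cases h : z = 1
  · exact Or.inl h
  · right
    have h2 := hy ⟨z, hz⟩ (fun h' => h (congrArg Subtype.val h'))
    have h3 := hy ⟨_, h1⟩ (fun h' => quat_a_n_ne_one n (congrArg Subtype.val h'))
    exact congrArg Subtype.val (h2.trans h3.symm)

theorem isStemExtension_quatToDihedral (n : ℕ) [NeZero n] (hn : Even n) :
    Cfsg.IsStemExtension (quatToDihedral n) := by
  have h2n : ((n : ZMod (2 * n)) + n) = 0 := by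
    rw [← two_mul]
    exact_mod_cast ZMod.natCast_self (2 * n)
  refine ⟨quatToDihedral_surjective n, ?_, ?_⟩
  · intro z hz
    rcases mem_ker_quatToDihedral n hz with rfl | rfl
    · exact one_mem _
    · rw [mem_center_iff]
      rintro (i | i)
      · simp [add_comm]
      · simp only [QuaternionGroup.xa_mul_a, QuaternionGroup.a_mul_xa]
        congr 1
        linear_combination h2n
  · intro z hz
    rcases mem_ker_quatToDihedral n hz with rfl | rfl
    · exact one_mem _
    · obtain ⟨k, hk⟩ := hn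
      have : (QuaternionGroup.a (n : ZMod (2 * n)) : QuaternionGroup n) =
          ⁅QuaternionGroup.a (k : ZMod (2 * n)), QuaternionGroup.xa 0⁆ := by
        rw [commutatorElement_def, eq_mul_inv_iff_mul_eq, eq_mul_inv_iff_mul_eq]
        simp only [QuaternionGroup.xa_mul_a, QuaternionGroup.a_mul_xa]
        congr 1
        have : (n : ZMod (2 * n)) = k + k := by exact_mod_cast congrArg (Nat.cast : ℕ → ZMod (2 * n)) hk
        linear_combination -this
      rw [this]
      exact Subgroup.commutator_mem_commutator (mem_top _) (mem_top _)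

theorem hasCyclicSchurMultiplier_dihedral_odd (n : ℕ) (hn : Odd n) :
    Cfsg.HasCyclicSchurMultiplier (DihedralGroup n) 1 := by
  have : NeZero n := ⟨hn.pos.ne'⟩
  rw [hasCyclicSchurMultiplier_one_iff]
  intro Γ _ _ σ hσ
  obtain ⟨c, hc1, -, hc3⟩ := dihedral_stem n hσ
  rw [eq_bot_iff]
  intro z hz
  obtain ⟨k, rfl, hk⟩ := hc3 z hz
  have h1 : IsCoprime (n : ℤ) 2 := by
    have : Nat.Coprime n 2 := (Nat.coprime_two_right).2 hn
    exact_mod_cast Nat.isCoprime_iff_coprime.2 this
  obtain ⟨j, rfl⟩ := h1.dvd_of_dvd_mul_left hk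
  rw [mem_bot, zpow_mul, zpow_natCast, hc1, one_zpow]

theorem hasCyclicSchurMultiplier_dihedral_even (n : ℕ) [NeZero n] (hn : Even n) :
    Cfsg.HasCyclicSchurMultiplier (DihedralGroup n) 2 := by
  have hst := isStemExtension_quatToDihedral n hn
  refine hasCyclicSchurMultiplier_of_bounds two_pos ?_ (IsCentralExt.of_stem hst)
    (QuaternionGroup.a (n : ZMod (2 * n))) ?_ ?_
  · intro Γ _ _ σ hσ
    obtain ⟨c, hc1, hc2, hc3⟩ := dihedral_stem n hσ
    obtain ⟨m, hm⟩ := hn
    refine ⟨c ^ m, by rw [← pow_mul, ← hc1, hm]; congr 1; ring, ?_, ?_⟩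
    · rw [← zpow_natCast]
      exact hc2 m ⟨1, by rw [hm]; push_cast; ring⟩
    · intro z hz
      obtain ⟨k, rfl, j, hj⟩ := hc3 z hz
      refine ⟨j, ?_⟩
      simp only
      rw [← zpow_natCast, ← zpow_mul]
      congr 1
      rw [hm] at hj
      push_cast at hj
      linarith
  · rw [stemKer_eq_ker_of_stem hst, MonoidHom.mem_ker, quatToDihedral_a, map_natCast,
      ZMod.natCast_self, r_zero]
  · intro k hk
    rw [← QuaternionGroup.a_one_pow, ← pow_mul, ← orderOf_dvd_iff_pow_eq_one,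
      QuaternionGroup.orderOf_a_one, mul_comm 2 n] at hk
    exact Nat.dvd_of_mul_dvd_mul_left (Nat.pos_of_ne_zero (NeZero.ne n)) hk

end Cfsg.Agent.H80
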