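import Cfsg.Agent.H80.SchurProd

/-!
Stem extensions of metacyclic groups.
-/

set_option autoImplicit false

namespace Cfsg.Agent.H80

open Subgroup
open scoped commutatorElement

universe u v w

variable {E Q : Type*} [Group E] [Group Q]

/-- If the generators commute modulo a normal subgroup, it contains the commutator subgroup. -/
theorem commutator_le_of_closure_eq_top {S : Set E} (hS : closure S = ⊤) (N : Subgroup E)
    [N.Normal] (h : ∀ s ∈ S, ∀ t ∈ S, ⁅s, t⁆ ∈ N) : commutator E ≤ N := by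
  let q := QuotientGroup.mk' N
  have h1 : ∀ s ∈ S, ∀ g : E, q g * q s = q s * q g := by
    intro s hs g
    have : closure S ≤ (centralizer {q s}).comap q := by
      rw [closure_le]
      intro t ht
      rw [SetLike.mem_coe, mem_comap, mem_centralizer_singleton_iff,
        ← commutatorElement_eq_one_iff_mul_comm, ← map_commutatorElement, QuotientGroup.mk'_apply,
        QuotientGroup.eq_one_iff]
      exact h t ht s hs
    rw [hS] at this
    exact mem_centralizer_singleton_iff.1 (this (mem_top g))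
  have h2 : ∀ g g' : E, q g * q g' = q g' * q g := by
    intro g g'
    have : closure S ≤ (centralizer {q g}).comap q := by
      rw [closure_le]
      intro t ht
      rw [SetLike.mem_coe, mem_comap, mem_centralizer_singleton_iff]
      exact (h1 t ht g).symm
    rw [hS] at this
    exact (mem_centralizer_singleton_iff.1 (this (mem_top g'))).symm
  rw [commutator_def, Subgroup.commutator_le]
  intro a _ b _
  rw [← QuotientGroup.eq_one_iff, ← QuotientGroup.mk'_apply, map_commutatorElement,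
    commutatorElement_eq_one_iff_mul_comm]
  exact h2 a b

/-- Lifts of generators generate a stem extension. -/
theorem closure_eq_top_of_stem {σ : E →* Q} (hσ : Cfsg.IsStemExtension σ) {S : Set E}
    (hS : closure (σ '' S) = ⊤) : closure S = ⊤ := by
  apply eq_top_of_stem hσ
  intro x
  have : σ x ∈ (closure S).map σ := by rw [MonoidHom.map_closure, hS]; trivial
  exact this

section Meta

variable {σ : E →* Q} {a b : E} {r : ℤ}

theorem meta_comm (hc : σ.ker ≤ center E) (hr : σ b * σ a * (σ b)⁻¹ = σ a ^ r) :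
    ∃ w ∈ center E, ⁅b, a⁆ = a ^ (r - 1) * w := by
  refine ⟨(a ^ (r - 1))⁻¹ * ⁅b, a⁆, hc ?_, by simp⟩
  rw [MonoidHom.mem_ker, map_mul, map_inv, map_zpow, map_commutatorElement,
    commutatorElement_def, hr]
  group

theorem meta_commute (hc : σ.ker ≤ center E) (hr : σ b * σ a * (σ b)⁻¹ = σ a ^ r) :
    Commute ⁅b, a⁆ a := by
  obtain ⟨w, hw, h⟩ := meta_comm hc hr
  rw [h]
  exact ((Commute.refl a).zpow_left _).mul_left (mem_center_iff.1 hw a).symm

theorem meta_zpow (hc : σ.ker ≤ center E) (hr : σ b * σ a * (σ b)⁻¹ = σ a ^ r) (k : ℤ) :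
    ⁅b, a⁆ ^ k = ⁅b, a ^ k⁆ := by
  have h1 : b * a * b⁻¹ = ⁅b, a⁆ * a := by simp [commutatorElement_def]
  have h2 : b * a ^ k * b⁻¹ = ⁅b, a⁆ ^ k * a ^ k := by
    rw [← conj_zpow, h1, (meta_commute hc hr).mul_zpow]
  rw [commutatorElement_def b (a ^ k), h2, mul_inv_cancel_right]

theorem meta_conj (hc : σ.ker ≤ center E) (hr : σ b * σ a * (σ b)⁻¹ = σ a ^ r) :
    b * ⁅b, a⁆ * b⁻¹ = ⁅b, a⁆ ^ r := by
  obtain ⟨w, hw, h⟩ := meta_comm hc hr
  have h2 : b * a ^ (r - 1) * b⁻¹ = ⁅b, a⁆ ^ (r - 1) * a ^ (r - 1) := by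
    rw [meta_zpow hc hr, commutatorElement_def b (a ^ (r - 1)), inv_mul_cancel_right]
  calc b * ⁅b, a⁆ * b⁻¹ = b * (a ^ (r - 1) * w) * b⁻¹ := by rw [← h]
    _ = b * a ^ (r - 1) * b⁻¹ * w := by
      rw [mul_assoc, mul_assoc, ← mem_center_iff.1 hw]; simp only [mul_assoc]
    _ = ⁅b, a⁆ ^ (r - 1) * (a ^ (r - 1) * w) := by rw [h2, mul_assoc]
    _ = ⁅b, a⁆ ^ r := by rw [← h, zpow_sub_one, inv_mul_cancel_right]

theorem meta_pow_conj (hc : σ.ker ≤ center E) (hr : σ b * σ a * (σ b)⁻¹ = σ a ^ r) (j : ℕ) :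
    b ^ j * a * (b ^ j)⁻¹ = ⁅b, a⁆ ^ (∑ i ∈ Finset.range j, r ^ i) * a := by
  induction j with
  | zero => simp
  | succ j ih =>
    have h1 : b * a * b⁻¹ = ⁅b, a⁆ * a := by simp [commutatorElement_def]
    calc b ^ (j + 1) * a * (b ^ (j + 1))⁻¹ = b * (b ^ j * a * (b ^ j)⁻¹) * b⁻¹ := by
          rw [pow_succ']; group
      _ = (b * ⁅b, a⁆ * b⁻¹) ^ (∑ i ∈ Finset.range j, r ^ i) * (b * a * b⁻¹) := by
          rw [ih, conj_zpow]; group
      _ = _ := by
          rw [meta_conj hc hr, h1, ← zpow_mul, ← mul_assoc, ← zpow_add_one, Finset.sum_range_succ',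
            Finset.mul_sum]
          simp [pow_succ']

theorem meta_commutator_le [Finite E] (hσ : Cfsg.IsStemExtension σ)
    (hr : σ b * σ a * (σ b)⁻¹ = σ a ^ r) (hgen : closure {σ a, σ b} = ⊤) :
    commutator E ≤ zpowers ⁅b, a⁆ := by
  have hc := hσ.2.1
  have hgen' : closure {a, b} = ⊤ := closure_eq_top_of_stem hσ (by
    rw [Set.image_pair]; exact hgen)
  have hN : (zpowers ⁅b, a⁆).Normal := by
    rw [← normalizer_eq_top_iff, eq_top_iff, ← hgen', closure_le]
    rintro x (rfl | rfl)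
    · apply Subgroup.mem_normalizer_fintype
      rintro _ ⟨k, rfl⟩
      refine ⟨k, ?_⟩
      simp only
      rw [← ((meta_commute hc hr).zpow_left k).eq, mul_inv_cancel_right]
    · apply Subgroup.mem_normalizer_fintype
      rintro _ ⟨k, rfl⟩
      refine ⟨r * k, ?_⟩
      simp only
      rw [← conj_zpow, meta_conj hc hr, zpow_mul]
  apply commutator_le_of_closure_eq_top hgen'
  rintro s hs t ht
  rcases hs with hs | hs <;> rcases ht with ht | ht <;> rw [hs, ht]
  · simp
  · rw [← commutatorElement_inv b a]; exact inv_mem (mem_zpowers _)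
  · exact mem_zpowers _
  · simp

/-- The kernel of a stem extension of a metacyclic group `⟨x, y⟩`, `y x y⁻¹ = x ^ r`. -/
theorem meta_ker [Finite E] (hσ : Cfsg.IsStemExtension σ)
    (hr : σ b * σ a * (σ b)⁻¹ = σ a ^ r) (hgen : closure {σ a, σ b} = ⊤) {z : E} (hz : σ z = 1) :
    ∃ k : ℤ, z = ⁅b, a⁆ ^ k ∧ σ a ^ ((r - 1) * k) = 1 := by
  obtain ⟨k, hk⟩ := meta_commutator_le hσ hr hgen (hσ.2.2 hz)
  refine ⟨k, hk.symm, ?_⟩
  have h1 : σ ⁅b, a⁆ = σ a ^ (r - 1) := by
    rw [map_commutatorElement, commutatorElement_def, hr, zpow_sub_one]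
  rw [zpow_mul, ← h1, ← map_zpow]
  exact (congrArg σ hk).trans hz

theorem commutatorElement_eq_one_of_map {σ : E →* Q} (hc : σ.ker ≤ center E) {x y y' : E}
    (h : σ y = σ y') (hxy : Commute x y') : ⁅x, y⁆ = 1 := by
  rw [commutatorElement_eq_of_map_eq hc rfl h]
  exact hxy.commutator_eq

end Meta

end Cfsg.Agent.H80
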