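import Cfsg.Agent.H80.SchurPerfect

/-!
Corestriction and transfer between the Schur multipliers of a group and of a subgroup.
-/

set_option autoImplicit false

namespace Cfsg.Agent.H80

open Subgroup
open scoped commutatorElement

universe u v w

section

variable {F Q : Type*} [Group F] [Group Q] (π : F →* Q) (U : Subgroup Q)

/-- The map `F_U / [R, F_U] → F / [R, F]`. -/
def coverIncl : Cover (restrictExt π U) →* Cover π :=
  QuotientGroup.map _ _ (U.comap π).subtype (by
    rw [relComm, Subgroup.commutator_le]
    intro a ha b _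
    rw [mem_comap, map_commutatorElement]
    exact Subgroup.commutator_mem_commutator (show π a = 1 from congrArg Subtype.val ha)
      (mem_top _))

theorem coverIncl_mk (x : U.comap π) :
    coverIncl π U (x : Cover (restrictExt π U)) = ((x : F) : Cover π) := rfl

/-- Corestriction `M(U) → M(Q)`. -/
def hopfCores : Hopf (restrictExt π U) →* Hopf π :=
  ((coverIncl π U).comp (stemKer _).subtype).codRestrict (stemKer (coverMap π)) (by
    rintro ⟨x, hx1, hx2⟩
    refine ⟨?_, ?_⟩
    · induction x using QuotientGroup.induction_on with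
      | H x => exact congrArg Subtype.val hx1
    · have : (commutator _).map (coverIncl π U) ≤ commutator (Cover π) := by
        rw [map_commutator_eq]; exact Subgroup.commutator_mono le_top le_top
      exact this ⟨x, hx2, rfl⟩)

theorem conj_mem_comap {r : F} (hr : r ∈ π.ker) (x : F) : x⁻¹ * r * x ∈ U.comap π := by
  rw [mem_comap, map_mul, map_mul, show π r = 1 from hr]
  simp

/-- The class of `x⁻¹ r x` in `R / [R, F_U]`. -/
def conjClass (r : π.ker) (x : F) : (coverMap (restrictExt π U)).ker :=
  ⟨((⟨x⁻¹ * r * x, conj_mem_comap π U r.2 x⟩ : U.comap π) : Cover (restrictExt π U)),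
    Subtype.ext (by
      show π (x⁻¹ * r * x) = 1
      rw [map_mul, map_mul, show π r = 1 from r.2]; simp)⟩

theorem conjClass_mul (r s : π.ker) (x : F) :
    conjClass π U (r * s) x = conjClass π U r x * conjClass π U s x := by
  apply Subtype.ext
  show _ = ((_ : U.comap π) : Cover (restrictExt π U)) * ((_ : U.comap π) : Cover (restrictExt π U))
  rw [← QuotientGroup.mk_mul]
  show ((_ : U.comap π) : Cover (restrictExt π U)) = _
  congr 1
  apply Subtype.ext
  simp [mul_assoc]

theorem conjClass_mul_right (r : π.ker) (x : F) (h : U.comap π) :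
    conjClass π U r (x * h) = conjClass π U r x := by
  apply Subtype.ext
  have h1 := mem_center_iff.1 (coverMap_central _ (conjClass π U r x).2)
    (h : Cover (restrictExt π U))⁻¹
  have h2 : (conjClass π U r (x * h) : Cover (restrictExt π U)) =
      (h : Cover (restrictExt π U))⁻¹ * conjClass π U r x * h := by
    show ((_ : U.comap π) : Cover (restrictExt π U)) =
      _ * ((_ : U.comap π) : Cover (restrictExt π U)) * _
    rw [← QuotientGroup.mk_inv, ← QuotientGroup.mk_mul, ← QuotientGroup.mk_mul]
    congr 1
    apply Subtype.ext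
    simp [mul_assoc]
  rw [h2, h1, inv_mul_cancel_right]

theorem conjClass_smul_out (r : π.ker) (f : F) (q : F ⧸ U.comap π) :
    conjClass π U r (f * q.out) = conjClass π U r (f • q).out := by
  obtain ⟨h, hh⟩ := QuotientGroup.mk_out_eq_mul (U.comap π) (f * q.out)
  have : f • q = ((f * q.out : F) : F ⧸ U.comap π) := by
    rw [← smul_eq_mul, MulAction.Quotient.coe_smul_out]
  rw [this, hh, conjClass_mul_right]

theorem exists_hopf_transfer [U.FiniteIndex] (hπ : Function.Surjective π) :
    ∃ t : Hopf π →* Hopf (restrictExt π U), ∀ a, hopfCores π U (t a) = a ^ U.index := by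
  have hi : (U.comap π).index = U.index := Subgroup.index_comap_of_surjective U hπ
  have : (U.comap π).FiniteIndex := ⟨by rw [hi]; exact Subgroup.FiniteIndex.index_ne_zero⟩
  have : Fintype (F ⧸ U.comap π) := Subgroup.fintypeQuotientOfFiniteIndex
  let _ : CommGroup (coverMap (restrictExt π U)).ker :=
    commGroupOfLeCenter _ (coverMap_central _)
  let _ : CommGroup (coverMap π).ker := commGroupOfLeCenter _ (coverMap_central _)
  let T : π.ker →* (coverMap (restrictExt π U)).ker :=
    MonoidHom.mk' (fun r => ∏ q : F ⧸ U.comap π, conjClass π U r q.out) (fun r s => by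
      simp only [conjClass_mul, Finset.prod_mul_distrib])
  have hT : ∀ r, T r = ∏ q : F ⧸ U.comap π, conjClass π U r q.out := fun _ => rfl
  have hTconj : ∀ (r : π.ker) (f : F),
      T ⟨f⁻¹ * r * f, (MonoidHom.normal_ker π).conj_mem' _ r.2 f⟩ = T r := by
    intro r f
    rw [hT, hT]
    have h1 : ∀ q : F ⧸ U.comap π,
        conjClass π U ⟨f⁻¹ * r * f, (MonoidHom.normal_ker π).conj_mem' _ r.2 f⟩ q.out =
          conjClass π U r (f • q).out := by
      intro q
      rw [← conjClass_smul_out]
      apply Subtype.ext
      show ((_ : U.comap π) : Cover (restrictExt π U)) = ((_ : U.comap π) : Cover (restrictExt π U))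
      congr 1
      apply Subtype.ext
      simp [mul_assoc]
    simp only [h1]
    exact Equiv.prod_comp (MulAction.toPerm f) (fun q : F ⧸ U.comap π => conjClass π U r q.out)
  have hTrel : ∀ r : π.ker, (r : F) ∈ relComm π → T r = 1 := by
    intro r hr
    have h1 : relComm π ≤ T.ker.map π.ker.subtype := by
      rw [relComm, Subgroup.commutator_le]
      intro a ha b _
      refine ⟨⟨a, ha⟩ * ⟨b⁻¹⁻¹ * (⟨a, ha⟩⁻¹ : π.ker) * b⁻¹,
        (MonoidHom.normal_ker π).conj_mem' _ (inv_mem ha) _⟩, ?_, ?_⟩
      · rw [SetLike.mem_coe, MonoidHom.mem_ker, map_mul, hTconj, map_inv, mul_inv_cancel]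
      · simp [commutatorElement_def, mul_assoc]
    obtain ⟨s, hs, hs'⟩ := h1 hr
    have : s = r := Subtype.ext hs'
    rw [← this]; exact hs
  -- the ordinary transfer
  have hmem : ∀ (x : F) (q : F ⧸ U.comap π), (x • q).out⁻¹ * x * q.out ∈ U.comap π := by
    intro x q
    rw [mul_assoc, ← QuotientGroup.eq, QuotientGroup.out_eq', ← smul_eq_mul,
      MulAction.Quotient.coe_smul_out]
  let V : F →* Abelianization (U.comap π) :=
    MonoidHom.mk' (fun x => ∏ q : F ⧸ U.comap π, Abelianization.of ⟨_, hmem x q⟩) (fun x y => by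
      rw [← Equiv.prod_comp (MulAction.toPerm y)
        (fun q : F ⧸ U.comap π => Abelianization.of (⟨_, hmem x q⟩ : U.comap π)),
        ← Finset.prod_mul_distrib]
      refine Finset.prod_congr rfl (fun q _ => ?_)
      rw [← map_mul]
      congr 1
      apply Subtype.ext
      simp [mul_smul, mul_assoc])
  have hVT : ∀ r : π.ker, coverAb _ (T r : Cover (restrictExt π U)) = V r := by
    intro r
    have h1 : ∀ q : F ⧸ U.comap π, (r : F) • q = q := by
      intro q
      induction q using QuotientGroup.induction_on with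
      | H x =>
        rw [MulAction.Quotient.smul_mk, QuotientGroup.eq]
        have := conj_mem_comap π U (inv_mem r.2) x
        simpa [mul_assoc] using this
    rw [hT]
    show ((coverAb _).comp (coverMap (restrictExt π U)).ker.subtype) _ = _
    rw [map_prod]
    refine Finset.prod_congr rfl (fun q _ => ?_)
    show Abelianization.of _ = Abelianization.of _
    congr 1
    apply Subtype.ext
    simp [h1]
  -- descend to Hopf's group
  have hrep : ∀ a : Hopf π, ∃ r : π.ker, (r : F) ∈ commutator F ∧ ((r : F) : Cover π) = a.1 := by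
    rintro ⟨a, ha1, ha2⟩
    have : commutator (Cover π) = (commutator F).map (QuotientGroup.mk' (relComm π)) := by
      rw [map_commutator_eq, MonoidHom.range_eq_top_of_surjective _
        (QuotientGroup.mk'_surjective _)]; rfl
    rw [this] at ha2
    obtain ⟨x, hx, rfl⟩ := ha2
    exact ⟨⟨x, ha1⟩, hx, rfl⟩
  choose s hs1 hs2 using hrep
  have hTeq : ∀ r r' : π.ker, ((r : F) : Cover π) = ((r' : F) : Cover π) → T r = T r' := by
    intro r r' h
    rw [QuotientGroup.eq] at h
    have := hTrel (r⁻¹ * r') h
    rw [map_mul, map_inv, inv_mul_eq_one] at this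
    exact this
  let t : Hopf π →* Hopf (restrictExt π U) := MonoidHom.mk'
    (fun a => (⟨T (s a), (T (s a)).2, by
      show _ ∈ commutator _
      rw [← ker_coverAb, MonoidHom.mem_ker, hVT]
      exact Abelianization.commutator_subset_ker V (hs1 a)⟩ : stemKer (coverMap (restrictExt π U))))
    (fun a b => by
      apply Subtype.ext
      show ((T (s (a * b)) : Cover (restrictExt π U))) = ((T (s a) * T (s b) : (coverMap _).ker))
      rw [← map_mul, hTeq (s (a * b)) (s a * s b)]
      rw [hs2, Subgroup.coe_mul, QuotientGroup.mk_mul, hs2, hs2]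
      rfl)
  refine ⟨t, fun a => ?_⟩
  apply Subtype.ext
  let j : (coverMap (restrictExt π U)).ker →* (coverMap π).ker :=
    ((coverIncl π U).comp (Subgroup.subtype _)).codRestrict _ (by
      rintro ⟨x, hx⟩
      induction x using QuotientGroup.induction_on with
      | H x => exact congrArg Subtype.val hx)
  show ((j (T (s a)) : (coverMap π).ker) : Cover π) = a.1 ^ U.index
  have h1 : ∀ x : F, j (conjClass π U (s a) x) = ⟨a.1, a.2.1⟩ := by
    intro x
    apply Subtype.ext
    show ((x⁻¹ * s a * x : F) : Cover π) = a.1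
    rw [QuotientGroup.mk_mul, QuotientGroup.mk_mul, hs2, QuotientGroup.mk_inv,
      mem_center_iff.1 (coverMap_central π a.2.1), inv_mul_cancel_right]
  rw [hT, map_prod]
  simp only [h1, Finset.prod_const, Finset.card_univ]
  rw [← hi, Subgroup.index, Nat.card_eq_fintype_card]
  rfl

end

/-- Corestriction and transfer: maps `i : M(U) → M(G)` and `t : M(G) → M(U)` whose composite is the
power by the index. -/
theorem exists_cores_transfer {G : Type u} [Group G] (U : Subgroup G) {A B : Type*} [CommGroup A]
    [CommGroup B] (hA : Cfsg.HasSchurMultiplier G A) (hB : Cfsg.HasSchurMultiplier U B) :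
    ∃ (i : B →* A) (t : A →* B), ∀ a, i (t a) = a ^ U.index := by
  have := finite_base_of_hasSchurMultiplier hA
  have hπ := canonPres_surjective G
  have hπU : Function.Surjective (restrictExt (canonPres G) U) := fun u => by
    obtain ⟨x, hx⟩ := hπ u
    exact ⟨⟨x, by rw [mem_comap, hx]; exact u.2⟩, Subtype.ext hx⟩
  obtain ⟨e⟩ := nonempty_equiv_hopf hA hπ
  obtain ⟨e'⟩ := nonempty_equiv_hopf hB hπU
  obtain ⟨t, ht⟩ := exists_hopf_transfer (canonPres G) U hπ
  refine ⟨(e.symm.toMonoidHom.comp (hopfCores _ U)).comp e'.toMonoidHom,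
    (e'.symm.toMonoidHom.comp t).comp e.toMonoidHom, fun a => ?_⟩
  simp [ht]

/-- A quotient of a finite abelian group embeds in it. -/
theorem exists_injective_of_surjective {H K : Type*} [CommGroup H] [CommGroup K] [Finite H]
    (f : H →* K) (hf : Function.Surjective f) : ∃ g : K →* H, Function.Injective g := by
  have : Finite K := Finite.of_surjective f hf
  have : NeZero (Monoid.exponent H : ℂ) := ⟨by exact_mod_cast Monoid.exponent_ne_zero_of_finite⟩
  have : NeZero (Monoid.exponent K : ℂ) := ⟨by exact_mod_cast Monoid.exponent_ne_zero_of_finite⟩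
  obtain ⟨e₁⟩ := CommGroup.monoidHom_mulEquiv_of_hasEnoughRootsOfUnity H ℂ
  obtain ⟨e₂⟩ := CommGroup.monoidHom_mulEquiv_of_hasEnoughRootsOfUnity K ℂ
  let c : (K →* ℂˣ) →* (H →* ℂˣ) := MonoidHom.mk' (fun φ => φ.comp f) (fun _ _ => rfl)
  have hc : Function.Injective c := fun φ ψ h => by
    ext k
    obtain ⟨x, rfl⟩ := hf k
    exact congrArg Units.val (DFunLike.congr_fun h x)
  exact ⟨(e₁.toMonoidHom.comp c).comp e₂.symm.toMonoidHom,
    (e₁.injective.comp hc).comp e₂.symm.injective⟩

end Cfsg.Agent.H80
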