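import Cfsg.Agent.H25.S4Defs2
import Cfsg.Agent.H29.Subfield

/-!
# Case B for maximal subgroups of `Sp₄(q)`: the root set of a frame
-/

set_option autoImplicit false
set_option linter.unusedSectionVars false

namespace Cfsg.Agent.H80.SpB

open H25 H25.S4 Matrix Cfsg.Geo

variable {F : Type*} [Field F]

/-- Commutation up to the scalar `s`. -/
def SC (s : F) (x y : M4 F) : Prop := x * y = s • (y * x)

lemma SC.mul {s t : F} {x y z : M4 F} (h : SC s x y) (h' : SC t x z) : SC (s * t) x (y * z) := by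
  unfold SC at *
  rw [← Matrix.mul_assoc, h, smul_mul_assoc, Matrix.mul_assoc, h', mul_smul_comm, smul_smul,
    Matrix.mul_assoc]

lemma SC.mul_left {s t : F} {x y z : M4 F} (h : SC s x z) (h' : SC t y z) :
    SC (s * t) (x * y) z := by
  unfold SC at *
  rw [Matrix.mul_assoc, h', mul_smul_comm, ← Matrix.mul_assoc, h, smul_mul_assoc, smul_smul,
    mul_comm t, Matrix.mul_assoc]

lemma SC.self (x : M4 F) : SC (1 : F) x x := (one_smul _ _).symm

lemma SC.of_eq {s t : F} {x y : M4 F} (h : SC s x y) (e : s = t) : SC t x y := e ▸ h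

lemma SC.bil (h2 : (2 : F) ≠ 0) {x y : M4 F} (h : SC (-1 : F) x y) : bil x y = 0 := by
  have h1 := congrArg Matrix.trace h
  rw [trace_smul, trace_mul_comm y, smul_eq_mul] at h1
  rw [S4.bil, mul_left_cancel₀ h2 (show 2 * (x * y).trace = 2 * 0 by linear_combination h1),
    zero_div]

lemma sc_of_bil (h2 : (2 : F) ≠ 0) {x y : M4 F} (hx : x ∈ Wsp F) (hy : y ∈ Wsp F)
    (h : bil x y = 0) : SC (-1 : F) x y := by
  have h1 := W_anti h2 hx hy
  rw [h, mul_zero, zero_smul] at h1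
  rw [SC, neg_one_smul, eq_neg_iff_add_eq_zero, h1]

lemma trace_eq_zero_of_sc (h2 : (2 : F) ≠ 0) {x y : M4 F} (h : SC (-1 : F) x y) (hy : y * y = 1) :
    x.trace = 0 := by
  have h1 : x = -(y * x * y) := by
    rw [Matrix.mul_assoc, h, neg_one_smul, Matrix.mul_neg, neg_neg, ← Matrix.mul_assoc, hy,
      Matrix.one_mul]
  have h3 := congrArg Matrix.trace h1
  rw [trace_neg, trace_mul_cycle, hy, Matrix.one_mul] at h3
  exact mul_left_cancel₀ h2 (by linear_combination h3)

variable {Q : Subgroup (GL I4 F)}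

lemma inv_sq {g : GL I4 F} (hg : Inv Q g) : (g : M4 F) * g = 1 := by
  rw [← Units.val_mul, hg.2.1, Units.val_one]

lemma inv_inv_eq {g : GL I4 F} (hg : Inv Q g) : g⁻¹ = g := inv_eq_of_mul_eq_one_right hg.2.1

lemma inv_conj (hQ : Q ≤ spGL 2 F) {g x : GL I4 F} (hg : Inv Q g) (hx : x ∈ Q) :
    Inv Q (x * g * x⁻¹) :=
  ⟨Q.mul_mem (Q.mul_mem hx hg.1) (Q.inv_mem hx), by
    rw [show x * g * x⁻¹ * (x * g * x⁻¹) = x * (g * g) * x⁻¹ by group, hg.2.1]; group,
    conj_mem_W (hQ hx) hg.2.2⟩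

lemma inv_not_scalar (h2 : (2 : F) ≠ 0) (hQ : Q ≤ spGL 2 F) {g : GL I4 F} (hg : Inv Q g) :
    g ∉ scalars I4 F := fun h => by
  have h1 := hg.2.2.2
  rcases eq_or_of_scalar (hQ hg.1) h with rfl | rfl
  · exact four_ne h2 (by rwa [Units.val_one, trace_one4] at h1)
  · exact four_ne h2 (by rwa [Units.val_neg, Units.val_one, trace_neg, trace_one4, neg_eq_zero] at h1)

lemma closure_le : Subgroup.closure {g | Inv Q g} ≤ Q := (Subgroup.closure_le _).2 fun _ hg => hg.1

lemma nb_closure (hQ : Q ≤ spGL 2 F) : NB Q (Subgroup.closure {g | Inv Q g}) := fun x hx g hg => by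
  induction hg using Subgroup.closure_induction with
  | mem g hg => exact Subgroup.subset_closure (inv_conj hQ hg hx)
  | one => simp
  | mul a b _ _ ha hb =>
    rw [show x * (a * b) * x⁻¹ = x * a * x⁻¹ * (x * b * x⁻¹) by group]
    exact Subgroup.mul_mem _ ha hb
  | inv a _ ha =>
    rw [show x * a⁻¹ * x⁻¹ = (x * a * x⁻¹)⁻¹ by group]
    exact Subgroup.inv_mem _ ha

/-- An orthonormal frame of involutions. -/
structure Fr (P : Subgroup (GL I4 F)) (f : Fin 5 → GL I4 F) : Prop where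
  two : (2 : F) ≠ 0
  inv : ∀ i, Inv P (f i)
  orth : ∀ i j, i ≠ j → bil (f i : M4 F) (f j) = 0
  prod : f 4 = f 0 * f 1 * f 2 * f 3

lemma exists_fr (h2 : (2 : F) ≠ 0) (hQ : Q ≤ spGL 2 F) (e : Fin 4 → GL I4 F) (he : ∀ i, Inv Q (e i))
    (ho : ∀ i j, i ≠ j → bil (e i : M4 F) (e j) = 0) : ∃ f, Fr Q f := by
  have sc : ∀ i j, i ≠ j → SC (-1 : F) (e i : M4 F) (e j) := fun i j hij =>
    sc_of_bil h2 (he i).2.2 (he j).2.2 (ho i j hij)
  have h1 : ∀ i, SC (-1 : F) (e i : M4 F) (e 0 * e 1 * e 2 * e 3 : GL I4 F) := fun i => by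
    simp only [Units.val_mul]
    fin_cases i
    · exact ((((SC.self _).mul (sc 0 1 (by decide))).mul (sc 0 2 (by decide))).mul
        (sc 0 3 (by decide))).of_eq (by ring)
    · exact ((((sc 1 0 (by decide)).mul (SC.self _)).mul (sc 1 2 (by decide))).mul
        (sc 1 3 (by decide))).of_eq (by ring)
    · exact ((((sc 2 0 (by decide)).mul (sc 2 1 (by decide))).mul (SC.self _)).mul
        (sc 2 3 (by decide))).of_eq (by ring)
    · exact ((((sc 3 0 (by decide)).mul (sc 3 1 (by decide))).mul (sc 3 2 (by decide))).mul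
        (SC.self _)).of_eq (by ring)
  have h3 : e 0 * e 1 * e 2 * e 3 * (e 0 * e 1 * e 2 * e 3) = 1 := by
    have a1 : SC (1 : F) (e 0 * e 1 : M4 F) (e 2 * e 3) :=
      (((sc 0 2 (by decide)).mul (sc 0 3 (by decide))).mul_left
        ((sc 1 2 (by decide)).mul (sc 1 3 (by decide)))).of_eq (by ring)
    have a2 : ∀ i j, i ≠ j → (e i * e j : M4 F) * (e i * e j) = -1 := fun i j hij => by
      rw [Matrix.mul_assoc, ← Matrix.mul_assoc (e j : M4 F), sc j i hij.symm, neg_one_smul,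
        Matrix.neg_mul, Matrix.mul_assoc, inv_sq (he j), Matrix.mul_one, Matrix.mul_neg,
        inv_sq (he i)]
    refine Units.ext ?_
    rw [SC, one_smul] at a1
    simp only [Units.val_mul, Units.val_one]
    rw [Matrix.mul_assoc (e 0 * e 1 : M4 F) (e 2 : M4 F), Matrix.mul_assoc (e 0 * e 1 : M4 F),
      ← Matrix.mul_assoc (e 2 * e 3 : M4 F), ← a1, Matrix.mul_assoc (e 0 * e 1 : M4 F),
      a2 2 3 (by decide), Matrix.mul_neg, Matrix.mul_one, Matrix.mul_neg, a2 0 1 (by decide),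
      neg_neg]
  have h4 : e 0 * e 1 * e 2 * e 3 ∈ Q :=
    Q.mul_mem (Q.mul_mem (Q.mul_mem (he 0).1 (he 1).1) (he 2).1) (he 3).1
  have h5 : Inv Q (e 0 * e 1 * e 2 * e 3) := ⟨h4, h3, by
    rw [ad_coe (hQ h4), inv_eq_of_mul_eq_one_right h3], trace_eq_zero_of_sc h2 (y := e 0) (by
      rw [SC, h1 0, smul_smul, neg_mul_neg, one_mul, one_smul]) (inv_sq (he 0))⟩
  refine ⟨Fin.snoc e (e 0 * e 1 * e 2 * e 3), h2, fun i => ?_, fun i j hij => ?_, rfl⟩
  · induction i using Fin.lastCases with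
    | last => simpa only [Fin.snoc_last] using h5
    | cast i => simpa only [Fin.snoc_castSucc] using he i
  · induction i using Fin.lastCases with
    | last =>
      induction j using Fin.lastCases with
      | last => exact absurd rfl hij
      | cast j => simpa only [Fin.snoc_last, Fin.snoc_castSucc, bil_comm] using (h1 j).bil h2
    | cast i =>
      induction j using Fin.lastCases with
      | last => simpa only [Fin.snoc_last, Fin.snoc_castSucc] using (h1 i).bil h2
      | cast j => simpa only [Fin.snoc_castSucc] using ho i j fun e => hij (by rw [e])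

/-- The matrix with given coordinates in the frame. -/
def ph (f : Fin 5 → GL I4 F) (v : V5 F) : M4 F := ∑ i, v i • (f i : M4 F)

/-- The root set. -/
def rts (P : Subgroup (GL I4 F)) (f : Fin 5 → GL I4 F) : Set (V5 F) :=
  {v | ∃ g, Inv P g ∧ (g : M4 F) = ph f v}

lemma ph_single (f : Fin 5 → GL I4 F) (i : Fin 5) : ph f (Pi.single i 1) = f i := by
  simp [ph, Pi.single_apply]

lemma ph_sub (f : Fin 5 → GL I4 F) (v w : V5 F) : ph f (v - w) = ph f v - ph f w := by
  simp [ph, sub_smul]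

lemma ph_smul (f : Fin 5 → GL I4 F) (c : F) (v : V5 F) : ph f (c • v) = c • ph f v := by
  simp [ph, mul_smul, Finset.smul_sum]

lemma bil_ph_left (f : Fin 5 → GL I4 F) (v : V5 F) (y : M4 F) :
    bil (ph f v) y = ∑ i, v i * bil (f i : M4 F) y := by
  simp only [ph, bil, Finset.sum_mul, smul_mul_assoc, trace_sum, trace_smul, smul_eq_mul,
    Finset.sum_div, mul_div_assoc]

namespace Fr

variable {P : Subgroup (GL I4 F)} {f : Fin 5 → GL I4 F} (h : Fr P f)
include h

lemma sc {i j : Fin 5} (hij : i ≠ j) : SC (-1 : F) (f i : M4 F) (f j) :=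
  sc_of_bil h.two (h.inv i).2.2 (h.inv j).2.2 (h.orth i j hij)

lemma neg_one_mem : -1 ∈ Subgroup.closure {g | Inv P g} := by
  have h0 : f 0 ∈ Subgroup.closure {g | Inv P g} := Subgroup.subset_closure (h.inv 0)
  have h1 : f 1 ∈ Subgroup.closure {g | Inv P g} := Subgroup.subset_closure (h.inv 1)
  convert Subgroup.mul_mem _ (Subgroup.mul_mem _ h0 h1) (Subgroup.mul_mem _ h0 h1) using 1
  refine Units.ext ?_
  simp only [Units.val_mul, Units.val_one, Units.val_neg]
  rw [Matrix.mul_assoc, ← Matrix.mul_assoc (f 1 : M4 F), h.sc (i := 1) (j := 0) (by decide),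
    neg_one_smul, Matrix.neg_mul, Matrix.mul_assoc, inv_sq (h.inv 1), Matrix.mul_one,
    Matrix.mul_neg, inv_sq (h.inv 0)]

lemma ph_mem (v : V5 F) : ph f v ∈ Wsp F :=
  Submodule.sum_mem _ fun i _ => Submodule.smul_mem _ _ (h.inv i).2.2

lemma bil_ph_f (v : V5 F) (j : Fin 5) : bil (ph f v) (f j) = v j := by
  rw [bil_ph_left, Finset.sum_eq_single j (fun i _ hi => by rw [h.orth i j hi, mul_zero]) (by simp),
    bil_of_eq h.two ((inv_sq (h.inv j)).trans (one_smul _ _).symm), mul_one]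

lemma bil_ph (v w : V5 F) : bil (ph f v) (ph f w) = v ⬝ᵥ w := by
  rw [bil_ph_left]
  exact Finset.sum_congr rfl fun i _ => by rw [bil_comm, h.bil_ph_f]

lemma ph_inj {v w : V5 F} (e : ph f v = ph f w) : v = w :=
  funext fun j => by rw [← h.bil_ph_f v, e, h.bil_ph_f]

lemma ph_surj {x : M4 F} (hx : x ∈ Wsp F) : ∃ v, ph f v = x := by
  refine ⟨fun i => bil x (f i), (sub_eq_zero.1 ?_).symm⟩
  have h1 : ∀ j, SC (-1 : F) (x - ph f fun i => bil x (f i)) (f j) := fun j =>
    sc_of_bil h.two ((Wsp F).sub_mem hx (h.ph_mem _)) (h.inv j).2.2 (by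
      rw [← sub_eq_zero.2 (h.bil_ph_f (fun i => bil x (f i)) j).symm]
      simp only [bil, Matrix.sub_mul, trace_sub, sub_div])
  generalize (x - ph f fun i => bil x (f i)) = y at h1
  have h2 := (((h1 0).mul (h1 1)).mul (h1 2)).mul (h1 3)
  simp only [← Units.val_mul, ← h.prod] at h2
  rw [SC, h1 4, ← sub_eq_zero, ← sub_smul, smul_eq_zero] at h2
  have h3 := h2.resolve_left fun h0 => h.two (by linear_combination -h0)
  rw [← Matrix.one_mul y, ← inv_sq (h.inv 4), Matrix.mul_assoc, h3, Matrix.mul_zero]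

lemma ph_anti (v w : V5 F) : ph f v * ph f w + ph f w * ph f v = (2 * (v ⬝ᵥ w)) • (1 : M4 F) := by
  rw [W_anti h.two (h.ph_mem v) (h.ph_mem w), h.bil_ph]

lemma norm {v : V5 F} (hv : v ∈ rts P f) : v ⬝ᵥ v = 1 := by
  obtain ⟨g, hg, e⟩ := hv
  rw [← h.bil_ph, ← e, bil_of_eq h.two ((inv_sq hg).trans (one_smul _ _).symm)]

lemma ph_rf {g : GL I4 F} (hg : Inv P g) {a : V5 F} (e : (g : M4 F) = ph f a) (b : V5 F) :
    ph f (rf a b) = -((g : M4 F) * ph f b * g) := by
  rw [rf, ph_sub, ph_smul, Matrix.mul_assoc, e, eq_sub_of_add_eq' (h.ph_anti a b), ← e,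
    Matrix.mul_sub, ← Matrix.mul_assoc, inv_sq hg, Matrix.one_mul, mul_smul_comm, Matrix.mul_one,
    neg_sub]

lemma exists_root {g : GL I4 F} (hg : Inv P g) : ∃ a ∈ rts P f, (g : M4 F) = ph f a := by
  obtain ⟨a, e⟩ := h.ph_surj hg.2.2
  exact ⟨a, ⟨g, hg, e.symm⟩, e.symm⟩

lemma inv_neg {g : GL I4 F} (hg : Inv P g) : Inv P (-g) :=
  ⟨by rw [← neg_one_mul]; exact P.mul_mem (closure_le h.neg_one_mem) hg.1,
    by rw [neg_mul_neg, hg.2.1], (Wsp F).neg_mem hg.2.2⟩

/-- Sign changes of the frame are realised by conjugation, up to a global sign. -/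
lemma exists_conj (δ : Fin 5 → F) (hδ : ∀ i, δ i = 1 ∨ δ i = -1) :
    ∃ (g : GL I4 F) (η : F), (η = 1 ∨ η = -1) ∧
      ∀ i, (g : M4 F) * f i * ((g⁻¹ : GL I4 F) : M4 F) = (η * δ i) • (f i : M4 F) := by
  have key : ∀ s : Finset (Fin 5), ∃ (g : GL I4 F) (η : F), (η = 1 ∨ η = -1) ∧
      ∀ i, (g : M4 F) * f i * ((g⁻¹ : GL I4 F) : M4 F) =
        (η * if i ∈ s then δ i else 1) • (f i : M4 F) := fun s => by
    induction s using Finset.induction_on with
    | empty => exact ⟨1, 1, Or.inl rfl, by simp⟩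
    | insert j s hj ih =>
      obtain ⟨g, η, hη, hg⟩ := ih
      rcases hδ j with e | e
      · refine ⟨g, η, hη, fun i => (hg i).trans ?_⟩
        by_cases hi : i = j
        · subst hi; simp [hj, e]
        · simp [hi]
      · refine ⟨f j * g, -η, hη.symm.imp (by simp +contextual) (by simp +contextual), fun i => ?_⟩
        rw [_root_.mul_inv_rev, inv_inv_eq (h.inv j), Units.val_mul, Units.val_mul,
          Matrix.mul_assoc, Matrix.mul_assoc, ← Matrix.mul_assoc (f i : M4 F),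
          ← Matrix.mul_assoc (g : M4 F), ← Matrix.mul_assoc (g : M4 F), hg, smul_mul_assoc,
          mul_smul_comm]
        by_cases hi : i = j
        · subst hi; simp [hj, e, inv_sq (h.inv i)]
        · rw [h.sc hi, mul_smul_comm, ← Matrix.mul_assoc, inv_sq (h.inv j)]
          by_cases hs : i ∈ s <;> simp [hi, hs]
  simpa using key Finset.univ

end Fr

end Cfsg.Agent.H80.SpB
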