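import Cfsg.Agent.H80.SpT3
import Cfsg.Agent.H25.S4Defs

/-!
# Root sets without degenerate pairs: roots of support at least four
-/

set_option autoImplicit false
set_option linter.unusedSectionVars false

namespace Cfsg.Agent.H80.ND

open H25.S4 H30 Matrix

variable {F : Type*} [Field F]

/-- A root set without degenerate pairs. -/
structure RN (R : Set (V5 F)) : Prop where
  rs : RS R
  nd : ∀ a ∈ R, ∀ b ∈ R, a ⬝ᵥ b = 1 → a = b

/-- Membership in coordinates. -/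
def Pt (R : Set (V5 F)) (a b c d e : F) : Prop := ![a, b, c, d, e] ∈ R

/-- The root set with permuted coordinates. -/
def pm (R : Set (V5 F)) (σ : Equiv.Perm (Fin 5)) : Set (V5 F) := {x | x ∘ σ ∈ R}

variable {R : Set (V5 F)} {a b c d e a' b' c' d' e' : F}

omit [Field F] in
lemma pt_of_mem {v : V5 F} (hv : v ∈ R) : Pt R (v 0) (v 1) (v 2) (v 3) (v 4) := by
  unfold Pt
  convert hv using 1
  ext i
  fin_cases i <;> rfl

omit [Field F] in
lemma comp_mem {v : V5 F} (hv : v ∈ R) (σ : Equiv.Perm (Fin 5)) : v ∘ σ ∈ pm R σ.symm := by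
  show (v ∘ σ) ∘ σ.symm ∈ R
  rwa [Function.comp_assoc, Equiv.self_comp_symm, Function.comp_id]

lemma pt_perm {v : V5 F} (hv : v ∈ R) (σ : Equiv.Perm (Fin 5)) :
    Pt (pm R σ.symm) (v (σ 0)) (v (σ 1)) (v (σ 2)) (v (σ 3)) (v (σ 4)) := pt_of_mem (comp_mem hv σ)

lemma Pt.s02 (h : Pt R a b c d e) : Pt (pm R (Equiv.swap 0 2)) c b a d e := pt_perm h (.swap 0 2)
lemma Pt.s03 (h : Pt R a b c d e) : Pt (pm R (Equiv.swap 0 3)) d b c a e := pt_perm h (.swap 0 3)
lemma Pt.s12 (h : Pt R a b c d e) : Pt (pm R (Equiv.swap 1 2)) a c b d e := pt_perm h (.swap 1 2)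
lemma Pt.s13 (h : Pt R a b c d e) : Pt (pm R (Equiv.swap 1 3)) a d c b e := pt_perm h (.swap 1 3)
lemma Pt.s23 (h : Pt R a b c d e) : Pt (pm R (Equiv.swap 2 3)) a b d c e := pt_perm h (.swap 2 3)
lemma Pt.s34 (h : Pt R a b c d e) : Pt (pm R (Equiv.swap 3 4)) a b c e d := pt_perm h (.swap 3 4)

lemma dot5 : (![a, b, c, d, e] : V5 F) ⬝ᵥ ![a', b', c', d', e'] =
    a * a' + b * b' + c * c' + d * d' + e * e' := by
  simp [dotProduct, Fin.sum_univ_five]

namespace RN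

variable (h : RN R)
include h

lemma two : (2 : F) ≠ 0 := h.rs.two

lemma perm (σ : Equiv.Perm (Fin 5)) : RN (pm R σ) :=
  ⟨h.rs.perm σ, fun a ha b hb hab => σ.surjective.injective_comp_right
    (h.nd _ ha _ hb ((comp_equiv_dotProduct_comp_equiv a b σ).trans hab))⟩

lemma norm (hv : Pt R a b c d e) : a * a + b * b + c * c + d * d + e * e = 1 :=
  dot5.symm.trans (h.rs.norm _ hv)

lemma refl {κ : F} (hv : Pt R a b c d e) (hw : Pt R a' b' c' d' e')
    (hκ : κ = 2 * (a * a' + b * b' + c * c' + d * d' + e * e')) :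
    Pt R (a' - κ * a) (b' - κ * b) (c' - κ * c) (d' - κ * d) (e' - κ * e) := by
  have := pt_of_mem (h.rs.refl _ hv _ hw)
  simp only [rf_apply, dot5, ← hκ] at this
  exact this

lemma eq (hv : Pt R a b c d e) (hw : Pt R a' b' c' d' e')
    (h1 : a * a' + b * b' + c * c' + d * d' + e * e' = 1) :
    a = a' ∧ b = b' ∧ c = c' ∧ d = d' ∧ e = e' := by
  have := h.nd _ hv _ hw (dot5.trans h1)
  exact ⟨congrFun this 0, congrFun this 1, congrFun this 2, congrFun this 3, congrFun this 4⟩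

lemma neg (hv : Pt R a b c d e) : Pt R (-a) (-b) (-c) (-d) (-e) := pt_of_mem (h.rs.neg_mem hv)

lemma f0 (hv : Pt R a b c d e) : Pt R (-a) b c d e := pt_of_mem (h.rs.flip hv 0)
lemma f1 (hv : Pt R a b c d e) : Pt R a (-b) c d e := pt_of_mem (h.rs.flip hv 1)
lemma f2 (hv : Pt R a b c d e) : Pt R a b (-c) d e := pt_of_mem (h.rs.flip hv 2)
lemma f3 (hv : Pt R a b c d e) : Pt R a b c (-d) e := pt_of_mem (h.rs.flip hv 3)
lemma e0 : Pt R 1 0 0 0 0 := pt_of_mem (h.rs.frame 0)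
lemma e1 : Pt R 0 1 0 0 0 := pt_of_mem (h.rs.frame 1)

lemma eq_zero {x : F} (hx : x = -x) : x = 0 := mul_left_cancel₀ h.two (by linear_combination hx)

lemma four_ne : (4 : F) ≠ 0 := by
  rw [show (4 : F) = 2 * 2 by norm_num]; exact mul_ne_zero h.two h.two

lemma delta_ne (hv : Pt R a b c d e) (hc : c ≠ 0) : c * c + d * d + e * e ≠ 0 := fun h0 =>
  hc (h.eq_zero (h.eq hv (h.neg (h.f0 (h.f1 hv))) (by
    linear_combination h.norm hv - 2 * h0)).2.2.1)

lemma sq0_ne (hv : Pt R a b c d e) (hc : c ≠ 0) : 4 * (a * a) ≠ 4 := fun h0 => by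
  rcases mul_self_eq_one_iff.1 (mul_left_cancel₀ h.four_ne (h0.trans (mul_one _).symm)) with rfl | rfl
  · exact hc (h.eq hv h.e0 (by ring)).2.2.1
  · exact hc (h.eq (h.f0 hv) h.e0 (by ring)).2.2.1

lemma sq1_ne (hv : Pt R a b c d e) (hc : c ≠ 0) : 4 * (b * b) ≠ 4 := fun h0 => by
  rcases mul_self_eq_one_iff.1 (mul_left_cancel₀ h.four_ne (h0.trans (mul_one _).symm)) with rfl | rfl
  · exact hc (h.eq hv h.e1 (by ring)).2.2.1
  · exact hc (h.eq (h.f1 hv) h.e1 (by ring)).2.2.1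

theorem t3R [Finite F] (hv : Pt R a b c d e) (ha : a ≠ 0) (hb : b ≠ 0) (hc : c ≠ 0) :
    (∀ x y t, Pt R x y (t * c) (t * d) (t * e) → TyS (4 * (x * x)) ∧ TyS (4 * (y * y))) ∨
    (∀ x y t, Pt R x y (t * c) (t * d) (t * e) → TyA (4 * (x * x)) ∧ TyA (4 * (y * y))) ∨
    ∃ k : Subfield F, 3 < Nat.card k ∧ a ∈ k ∧ b ∈ k ∧ c * c + d * d + e * e ∈ k ∧
      ∀ X ∈ k, ∀ Y ∈ k, ∀ t ∈ k, X * X + Y * Y + (c * c + d * d + e * e) * (t * t) = 1 →
        Pt R X Y (t * c) (t * d) (t * e) :=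
  t3 h.two (h.delta_ne hv hc) (fun x y t => Pt R x y (t * c) (t * d) (t * e))
    (fun x y t hw => by linear_combination h.norm hw)
    (fun x y t x' y' t' κ hw hw' hκ => by
      convert h.refl (κ := κ) hw hw' (by rw [hκ]; ring) using 1 <;> ring)
    (fun x y t hw => by convert h.neg hw using 1 <;> ring)
    (fun x y t x' y' t' hw hw' h1 => by
      obtain ⟨e1, e2, e3, -⟩ := h.eq hw hw' (by linear_combination h1)
      exact ⟨e1, e2, mul_right_cancel₀ hc e3⟩)
    (by simpa using h.e0) (by simpa using h.e1) (by simpa using hv) ha hb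

end RN

lemma exists_gen [Finite F] (k : Subfield F) (hk : 3 < Nat.card k) :
    ∃ X ∈ k, (∀ k' : Subfield F, X ∈ k' → k ≤ k') ∧ X ≠ 0 ∧ X * X ≠ 1 ∧
      (4 * (X * X) ≠ 1 ∨ (5 : F) = 0) := by
  obtain ⟨g, hg⟩ := IsCyclic.exists_monoid_generator (α := kˣ)
  have h0 : ((g : k) : F) ≠ 0 := by simp
  have h1 : ∀ k' : Subfield F, ((g : k) : F) ∈ k' → k ≤ k' := fun k' hk' x hx => by
    by_cases hx0 : x = 0
    · exact hx0 ▸ k'.zero_mem
    obtain ⟨n, hn⟩ := hg (Units.mk0 ⟨x, hx⟩ fun h => hx0 (congrArg Subtype.val h))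
    have : ((g : k) : F) ^ n = x := by simpa using congrArg (fun u : kˣ => ((u : k) : F)) hn
    exact this ▸ k'.pow_mem hk' n
  have h2 : ((g : k) : F) * (g : k) ≠ 1 := fun h => by
    have h3 : g ^ 2 = 1 := Units.ext (Subtype.ext (by simpa [sq] using h))
    have h4 := orderOf_le_of_pow_eq_one two_pos h3
    rw [orderOf_eq_card_of_forall_mem_powers hg, Nat.card_units] at h4
    omega
  by_cases h3 : 4 * (((g : k) : F) * (g : k)) = 1
  · refine ⟨((g : k) : F)⁻¹, k.inv_mem (g : k).2, fun k' hk' => h1 k' (by simpa using k'.inv_mem hk'),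
      inv_ne_zero h0, fun h => h2 (by field_simp at h; linear_combination -h), ?_⟩
    by_contra h4
    push Not at h4
    obtain ⟨h4, h5⟩ := h4
    field_simp at h4
    have h6 : (3 : F) = 0 := mul_left_cancel₀ h5 (by linear_combination h3 + 4 * h4)
    exact h2 (by linear_combination h3 - ((g : k) : F) * (g : k) * h6)
  · exact ⟨_, (g : k).2, h1, h0, h2, Or.inl h3⟩

lemma exists_line {K : Type*} [Field K] [Finite K] (h2 : (2 : K) ≠ 0) {δ u w : K}
    (hA : δ * (u * u) + w * w ≠ 0) :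
    ∃ X Y t : K, X * X + Y * Y + δ * (t * t) = 1 ∧ u * Y + w * t = 1 := by
  obtain ⟨X, τ, h⟩ := exists_binary h2 one_ne_zero hA (1 - δ / (δ * (u * u) + w * w))
  generalize hi : (δ * (u * u) + w * w)⁻¹ = i
  have h1 : (δ * (u * u) + w * w) * i = 1 := hi ▸ mul_inv_cancel₀ hA
  rw [div_eq_mul_inv, hi] at h
  exact ⟨X, u * δ * i + τ * w, w * i - τ * u, by linear_combination h + δ * i * h1,
    by linear_combination h1⟩

lemma exists_both {K : Type*} [Field K] [Finite K] (h2 : (2 : K) ≠ 0) {δ X c : K} (hδ : δ ≠ 0)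
    (hX : X ≠ 0) (hX1 : X * X ≠ 1) (hn : ∀ s, 1 + δ * (s * s) ≠ 0) (hc : c ≠ 0) :
    ∃ Y t : K, Y ≠ 0 ∧ t ≠ 0 ∧ Y * Y + δ * (t * t) = c := by
  obtain ⟨s, hs, hs1⟩ : ∃ s, s ≠ 0 ∧ 1 - δ * (s * s) ≠ 0 := by
    by_cases h : 1 - δ * (1 * 1) = 0
    · exact ⟨X, hX, fun h' => hX1 (by linear_combination X * X * h - h')⟩
    · exact ⟨1, one_ne_zero, h⟩
  have h3 := hn s
  have hu := div_ne_zero hs1 h3
  have hw := div_ne_zero (mul_ne_zero h2 hs) h3
  have h4 : (1 - δ * (s * s)) / (1 + δ * (s * s)) * ((1 - δ * (s * s)) / (1 + δ * (s * s))) +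
      δ * (2 * s / (1 + δ * (s * s)) * (2 * s / (1 + δ * (s * s)))) = 1 := by
    rw [div_mul_div_comm, div_mul_div_comm, ← mul_div_assoc, ← add_div,
      div_eq_one_iff_eq (mul_ne_zero h3 h3)]
    ring
  generalize (1 - δ * (s * s)) / (1 + δ * (s * s)) = u at hu h4
  generalize 2 * s / (1 + δ * (s * s)) = w at hw h4
  obtain ⟨Y, t, h⟩ := exists_binary h2 one_ne_zero hδ c
  by_cases hY : Y = 0
  · have ht : t ≠ 0 := fun ht => hc (by rw [← h, hY, ht]; ring)
    exact ⟨δ * t * w, t * u, mul_ne_zero (mul_ne_zero hδ ht) hw, mul_ne_zero ht hu, by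
      rw [hY] at h; linear_combination h + δ * t * t * h4⟩
  by_cases ht : t = 0
  · exact ⟨Y * u, Y * w, mul_ne_zero hY hu, mul_ne_zero hY hw, by
      rw [ht] at h; linear_combination h + Y * Y * h4⟩
  · exact ⟨Y, t, hY, ht, by linear_combination h⟩

/-- The subfield case does not occur for roots of support at least four. -/
theorem no_sub [Finite F] (k : Subfield F) : ∀ {R : Set (V5 F)} (_ : RN R) {a b c d e : F},
    Pt R a b c d e → c ≠ 0 → d ≠ 0 → 3 < Nat.card k → c * c + d * d + e * e ∈ k →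
    (∀ X ∈ k, ∀ Y ∈ k, ∀ t ∈ k, X * X + Y * Y + (c * c + d * d + e * e) * (t * t) = 1 →
      Pt R X Y (t * c) (t * d) (t * e)) → False := by
  induction k using WellFoundedGT.induction with
  | ind k ih =>
  intro R h a b c d e hv hc hd hk hδ H
  have h2 : (2 : k) ≠ 0 := fun h0 => h.two (by exact_mod_cast congrArg k.subtype h0)
  have hδ0 := h.delta_ne hv hc
  obtain ⟨δ, hδ⟩ : ∃ δ : k, (δ : F) = c * c + d * d + e * e := ⟨⟨_, hδ⟩, rfl⟩
  rw [← hδ] at hδ0 H
  have H' : ∀ X Y t : k, X * X + Y * Y + δ * (t * t) = 1 → Pt R X Y (t * c) (t * d) (t * e) :=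
    fun X Y t h1 => H X X.2 Y Y.2 t t.2 (by exact_mod_cast h1)
  have hδ1 : δ ≠ 0 := by simpa using hδ0
  have hn : ∀ s : k, 1 + δ * (s * s) ≠ 0 := fun s hs => by
    simpa using (h.eq (H' 1 1 s (by linear_combination hs)) h.e0 (by simp)).2.1
  obtain ⟨X, hX, hgen, hX0, hX1, hX4⟩ := exists_gen k hk
  lift X to k using hX
  have hX0' : X ≠ 0 := by simpa using hX0
  have hX1' : X * X ≠ 1 := fun h1 => hX1 (by exact_mod_cast h1)
  obtain ⟨Y, t, hY, ht, h3⟩ := exists_both h2 hδ1 hX0' hX1' hn (sub_ne_zero.2 hX1'.symm)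
  have hY' : (Y : F) ≠ 0 := by simpa using hY
  have ht' : (t : F) ≠ 0 := by simpa using ht
  have hw := (H' X Y t (by linear_combination h3)).s12
  have h4 := h.four_ne
  have n4 : (4 : F) ∈ k := ofNat_mem k 4
  have h5 : 4 * (t * c * (t * c)) ∈ k := by
    rcases (h.perm _).t3R hw hX0 (mul_ne_zero ht' hc) hY' with H1 | H1 | ⟨k', hk', h5, h6, h7, h8⟩
    · rcases (H1 _ _ 1 (by simpa using hw)).2 with e | e | e | e <;> rw [e]
      exacts [k.zero_mem, k.one_mem, ofNat_mem k 2, n4]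
    · obtain ⟨h5, e | e | e | e⟩ := H1 _ _ 1 (by simpa using hw)
      · exact e ▸ k.zero_mem
      · exact e ▸ k.one_mem
      · exact (congrArg (· ∈ k) e).mpr n4
      have h6 := k.mul_mem n4 (k.mul_mem X.2 X.2)
      rcases h5 with e' | e' | e' | e'
      · exact absurd e' (mul_ne_zero h4 (mul_ne_zero hX0 hX0))
      · have h7 : 4 * (t * c * (t * c)) = 4 := sub_eq_zero.1 (mul_self_eq_zero.1 (by
          linear_combination e + (3 - 4 * (t * c * (t * c))) * (hX4.resolve_left fun h => h e')))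
        exact (congrArg (· ∈ k) h7).mpr n4
      · exact absurd (mul_left_cancel₀ h4 (e'.trans (mul_one _).symm)) hX1
      · rcases mul_eq_zero.1 (show (4 * (t * c * (t * c)) - 4 * (X * X)) *
          (4 * (t * c * (t * c)) - (3 - 4 * (X * X))) = 0 by linear_combination e - e') with h7 | h7
        · exact sub_eq_zero.1 h7 ▸ h6
        · exact sub_eq_zero.1 h7 ▸ k.sub_mem (ofNat_mem k 3) h6
    · rcases (hgen k' h5).eq_or_lt with rfl | h9
      · exact k.mul_mem n4 (k.mul_mem h6 h6)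
      · exact (ih k' h9 (h.perm _) hw hY' (mul_ne_zero ht' hd) hk' h7 h8).elim
  obtain ⟨γ, hγ⟩ : ∃ γ : k, (γ : F) = c * c := ⟨⟨c * c, by
    convert k.div_mem h5 (k.mul_mem n4 (k.mul_mem t.2 t.2)) using 1
    field_simp⟩, rfl⟩
  obtain ⟨u, w, hu, hw0, h6⟩ := exists_both h2 hδ1 hX0' hX1' hn one_ne_zero
  obtain ⟨X', Y', t', h7, h8⟩ := exists_line h2 (δ := δ) (u := u) (w := (δ - γ - γ) * w) fun h0 =>
    hn ((δ - γ - γ) * w / (δ * u)) (by field_simp; linear_combination h0)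
  have h9 : (u : F) * Y' + (δ - γ - γ) * w * t' = 1 := by exact_mod_cast h8
  obtain ⟨-, -, e1, e2, -⟩ := h.eq (H' 0 u w (by linear_combination h6)) (h.f2 (H' X' Y' t' h7)) (by
    rw [hδ, hγ] at h9
    simp only [ZeroMemClass.coe_zero]
    linear_combination h9)
  rw [← mul_right_cancel₀ hd e2] at e1
  exact mul_ne_zero (show (w : F) ≠ 0 by simpa using hw0) hc (h.eq_zero e1)

end Cfsg.Agent.H80.ND
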