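import Cfsg.Agent.H30.FrDickson
import Cfsg.Agent.H29.Subfield

/-!
# Reflection-closed sets of unit vectors in a ternary space over a finite field
-/

set_option autoImplicit false

namespace Cfsg.Agent.H80.ND

open H29 H30
open scoped MatrixGroups

variable {F : Type*} [Field F]

/-- A subgroup of `PGL₂(q)` containing three suitable involutions. -/
theorem pgl_cases [Finite F] (h2 : (2 : F) ≠ 0)
    (L : Subgroup PGL(2, F)) {a b v : PGL(2, F)} (ha : a ∈ L) (hb : b ∈ L)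
    (hv : v ∈ L) (ha1 : a ≠ 1) (hb1 : b ≠ 1) (haa : a * a = 1) (hbb : b * b = 1) (hvv : v * v = 1)
    (hab1 : a * b ≠ 1) (hab : a * b * (a * b) = 1) (hav : a * v * (a * v) ≠ 1)
    (hbv : b * v * (b * v) ≠ 1) (habv : a * b * v * (a * b * v) ≠ 1) :
    (∀ g ∈ L, g ^ 3 = 1 ∨ g ^ 4 = 1) ∨ (∀ g ∈ L, g ^ 2 = 1 ∨ g ^ 3 = 1 ∨ g ^ 5 = 1) ∨
      ∃ (c : PGL(2, F)) (k : Subfield F), 3 ≤ Nat.card k ∧
        PSLsub k.subtype ≤ L.map (MulAut.conj c).toMonoidHom ∧
        L.map (MulAut.conj c).toMonoidHom ≤ PGLsub k.subtype := by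
  have := Fintype.ofFinite F
  obtain ⟨p, hchar, n, hpp, -⟩ := FiniteField.card' F
  have := Fact.mk hpp
  have h4 : ∀ {G : Type} [Group G] (_ : L ≃* G), (∀ g : G, g ^ 2 = 1 ∨ g ^ 3 = 1 ∨ g ^ 5 = 1) →
      ∀ g ∈ L, g ^ 2 = 1 ∨ g ^ 3 = 1 ∨ g ^ 5 = 1 := fun e h g hg => by
    simpa only [← map_pow, EmbeddingLike.map_eq_one_iff, Subtype.ext_iff, Subgroup.coe_pow,
      Subgroup.coe_one] using h (e ⟨g, hg⟩)
  have h5 : ∀ {G : Type} [Group G] (_ : L ≃* G), (∀ g : G, g ^ 3 = 1 ∨ g ^ 4 = 1) →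
      ∀ g ∈ L, g ^ 3 = 1 ∨ g ^ 4 = 1 := fun e h g hg => by
    simpa only [← map_pow, EmbeddingLike.map_eq_one_iff, Subtype.ext_iff, Subgroup.coe_pow,
      Subgroup.coe_one] using h (e ⟨g, hg⟩)
  rcases H29.dickson p L with ⟨x, hx⟩ | ⟨T, D, hT, -, hD⟩ | ⟨-, ⟨⟨e⟩⟩ | ⟨⟨e⟩⟩ | ⟨⟨e⟩⟩⟩ | ⟨-, ⟨e⟩⟩ |
    ⟨c, k, hk, h⟩
  · obtain ⟨c, hc⟩ := exists_smul_eq_inf x
    have key : ∀ g ∈ L, g ≠ 1 → g * g = 1 → ∃ β, c * g * c⁻¹ = aff (-1) β := fun g hg h1 hgg => by
      obtain ⟨α, β, h⟩ := (smul_inf_eq_inf_iff (c * g * c⁻¹)).1 (by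
        rw [← hc, conj_smul_eq_iff]; exact hx hg)
      have h6 : aff α β * aff α β = 1 := by
        rw [← h, show c * g * c⁻¹ * (c * g * c⁻¹) = c * (g * g) * c⁻¹ by group, hgg]; group
      rw [aff_mul, aff_eq_one] at h6
      rcases mul_self_eq_one_iff.1 (congrArg Units.val h6.1) with h7 | h7
      · refine absurd ?_ h1
        rw [Units.val_eq_one.1 h7] at h h6
        rw [(mul_eq_zero.1 (show 2 * β = 0 by simpa [two_mul] using h6.2)).resolve_left h2,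
          aff_one_zero] at h
        simpa using h
      · exact ⟨β, by rw [h, Units.ext (h7.trans (by simp) : (α : F) = (-1 : Fˣ))]⟩
    obtain ⟨β, h6⟩ := key a ha ha1 haa
    obtain ⟨β', h7⟩ := key b hb hb1 hbb
    obtain ⟨β'', h8⟩ := key _ (L.mul_mem ha hb) hab1 hab
    rw [show c * (a * b) * c⁻¹ = c * a * c⁻¹ * (c * b * c⁻¹) by group, h6, h7, aff_mul,
      aff_inj] at h8
    exact absurd (by have := congrArg Units.val h8.1; simp at this; linear_combination this) h2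
  · have h6 := hT.mem_T_of_mul_self_ne (hD (L.mul_mem ha hv)) hav
    have h7 := hT.mem_T_of_mul_self_ne (hD (L.mul_mem hb hv)) hbv
    have h8 : a * b ∈ T := by
      have := T.mul_mem h6 (T.inv_mem h7)
      rwa [show a * v * (b * v)⁻¹ = a * b⁻¹ by group, inv_eq_of_mul_eq_one_right hbb] at this
    have h9 := hT.comm h8 h6
    have h10 : b * a = a * b := by
      rw [← inv_eq_of_mul_eq_one_right hab, mul_inv_rev, inv_eq_of_mul_eq_one_right haa,
        inv_eq_of_mul_eq_one_right hbb]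
    refine absurd ?_ habv
    have h11 : a * b * v = v * (a * b) := mul_left_cancel (a := a) (by
      rw [← mul_assoc a v, ← h9, ← mul_assoc, ← mul_assoc, ← mul_assoc, mul_assoc a b a, h10,
        ← mul_assoc])
    rw [h11, mul_assoc, ← mul_assoc (a * b), h11, mul_assoc, hab, mul_one, hvv]
  · exact Or.inr (Or.inl (h4 e fun g => (A4_pow g).imp_right Or.inl))
  · exact Or.inl (h5 e S4_pow)
  · exact Or.inr (Or.inl (h4 e A5_pow))
  · exact Or.inr (Or.inl (h4 e A5_pow))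
  · exact Or.inr (Or.inr ⟨c, k, hk, h.elim (fun h => (PSLsub_le_PGLsub _).trans h.ge) fun h => h.ge,
      h.elim (fun h => h.le) fun h => h.le.trans (PSLsub_le_PGLsub _)⟩)

open Classical in
/-- The involution of `PGL₂` given by a matrix of trace zero. -/
noncomputable def sl (p q s : F) : PGL(2, F) :=
  if h : p * p + q * s ≠ 0 then pmk (mat p q s (-p) fun h' => h (by linear_combination -h')) else 1

theorem sl_eq {p q s : F} (h : p * p + q * s ≠ 0) :
    sl p q s = pmk (mat p q s (-p) fun h' => h (by linear_combination -h')) := dif_pos h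

theorem exists_of_sl_eq {p q s p' q' s' : F} (h : p * p + q * s ≠ 0) (h' : p' * p' + q' * s' ≠ 0)
    (he : sl p q s = sl p' q' s') : ∃ μ, p = μ * p' ∧ q = μ * q' ∧ s = μ * s' := by
  rw [sl_eq h, sl_eq h', pmk_eq_pmk_iff] at he
  obtain ⟨μ, h1, h2, h3, -⟩ := he
  exact ⟨μ, h1, h2, h3⟩

theorem sl_smul {p q s l : F} (h : l * p * (l * p) + l * q * (l * s) ≠ 0) :
    sl (l * p) (l * q) (l * s) = sl p q s := by
  rw [sl_eq h, sl_eq (p := p) fun h' => h (by linear_combination l * l * h'), pmk_eq_pmk_iff]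
  exact ⟨l, rfl, rfl, rfl, by simp⟩

theorem sl_rat {k : Subfield F} {p q s : F} (h : p * p + q * s ≠ 0)
    (hm : sl p q s ∈ PGLsub k.subtype) :
    ∃ (l : F) (p0 q0 s0 : k), p = l * p0 ∧ q = l * q0 ∧ s = l * s0 := by
  obtain ⟨A, hA, hk⟩ := (mem_PGLsub_iff _).1 hm
  rw [sl_eq h, eq_comm, pmk_eq_pmk_iff] at hA
  obtain ⟨l, h1, h2, h3, -⟩ := hA
  obtain ⟨p0, hp⟩ := hk 0 0
  obtain ⟨q0, hq⟩ := hk 0 1
  obtain ⟨s0, hs⟩ := hk 1 0
  exact ⟨l, p0, q0, s0, h1.trans (by rw [← hp]; rfl), h2.trans (by rw [← hq]; rfl),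
    h3.trans (by rw [← hs]; rfl)⟩

theorem sl_isConj [Finite F] (h2 : (2 : F) ≠ 0) {p q s p' q' s' : F} (h : p * p + q * s ≠ 0)
    (he : p' * p' + q' * s' = p * p + q * s) : ∃ g ∈ Lsub F, g * sl p q s * g⁻¹ = sl p' q' s' := by
  have key : ∀ {p q s : F} (h : p * p + q * s ≠ 0), sl p q s ≠ 1 := fun {p q s} h h1 => by
    rw [sl_eq h, pmk_eq_one_iff] at h1
    simp only [mat_00, mat_01, mat_10, mat_11] at h1
    have h3 : p = 0 := mul_left_cancel₀ h2 (by linear_combination h1.2.2)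
    exact h (by rw [h3, h1.1]; ring)
  have h' := he.trans_ne h
  obtain ⟨T, D, hT, h5⟩ := exists_torus_of_pow_ne (key h) (n := 2) (by
    rw [pow_two, sl_eq h, ← map_mul, pmk_eq_one_iff]
    simp only [GL2_mul_apply, mat_00, mat_01, mat_10, mat_11]
    refine ⟨?_, ?_, ?_⟩ <;> ring) (by exact_mod_cast h2)
  refine hT.isConj_L h5 ?_
  have h7 := key h
  have h8 := key h'
  rw [sl_eq h] at h7 ⊢
  rw [sl_eq h'] at h8 ⊢
  refine pmk.map_isConj (GL2_isConj_of_trace_det h7 h8 (by simp) ?_)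
  simp only [mat_00, mat_01, mat_10, mat_11]
  linear_combination he

theorem pmap_sl {K : Type*} [Field K] (f : F →+* K) {p q s : F} (h : p * p + q * s ≠ 0) :
    pmap f (sl p q s) = sl (f p) (f q) (f s) := by
  rw [sl_eq h, sl_eq (p := f p) (by simpa only [← map_mul, ← map_add] using (map_ne_zero f).2 h),
    pmap_pmk]
  exact congrArg pmk (GL2_ext rfl rfl rfl (map_neg f p))

theorem conj_ivl (c : PGL(2, F)) {α β δ : F} (hδ : δ ≠ 0) (h0 : α * α + β * β = -1 / δ) :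
    ∃ p1 p2 p3 q1 q2 q3 s1 s2 s3 D : F, D ≠ 0 ∧
      (∀ x y z x' y' z', 2 * ((x * p1 + y * p2 + z * p3) * (x' * p1 + y' * p2 + z' * p3)) +
        (x * q1 + y * q2 + z * q3) * (x' * s1 + y' * s2 + z' * s3) +
        (x' * q1 + y' * q2 + z' * q3) * (x * s1 + y * s2 + z * s3) =
          2 * (D * (x * x' + y * y' + δ * (z * z')))) ∧
      ∀ x y z, x * x + y * y + δ * (z * z) = 1 → c * ivl α β x y z * c⁻¹ =
        sl (x * p1 + y * p2 + z * p3) (x * q1 + y * q2 + z * q3) (x * s1 + y * s2 + z * s3) := by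
  obtain ⟨C, rfl⟩ := pmk_surj c
  have hC := GL2_det_ne_zero C
  generalize hd : δ⁻¹ = d
  have h3 : δ * d = 1 := hd ▸ mul_inv_cancel₀ hδ
  have h4 : α * α + β * β = -d := by rw [h0, ← hd]; field_simp
  have hd0 : d ≠ 0 := hd ▸ inv_ne_zero hδ
  refine ⟨(C 0 0 * C 1 1 + C 0 1 * C 1 0) * α - C 0 0 * C 1 0 * β + C 0 1 * C 1 1 * β,
    -(C 0 0 * C 1 1 + C 0 1 * C 1 0) * β - C 0 0 * C 1 0 * α + C 0 1 * C 1 1 * α,
    -(C 0 0 * C 1 0) - C 0 1 * C 1 1,
    -2 * C 0 0 * C 0 1 * α + C 0 0 * C 0 0 * β - C 0 1 * C 0 1 * β,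
    2 * C 0 0 * C 0 1 * β + C 0 0 * C 0 0 * α - C 0 1 * C 0 1 * α,
    C 0 0 * C 0 0 + C 0 1 * C 0 1,
    2 * C 1 0 * C 1 1 * α - C 1 0 * C 1 0 * β + C 1 1 * C 1 1 * β,
    -2 * C 1 0 * C 1 1 * β - C 1 0 * C 1 0 * α + C 1 1 * C 1 1 * α,
    -(C 1 0 * C 1 0) - C 1 1 * C 1 1,
    -(d * (C 0 0 * C 1 1 - C 0 1 * C 1 0) ^ 2),
    neg_ne_zero.2 (mul_ne_zero hd0 (pow_ne_zero _ hC)), fun x y z x' y' z' => ?_,
    fun x y z h => ?_⟩
  · linear_combination 2 * (C 0 0 * C 1 1 - C 0 1 * C 1 0) ^ 2 * ((x * x' + y * y') * h4 +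
      z * z' * h3)
  · have h5 : z * z - (α * α + β * β) * (x * x + y * y) = d := by
      linear_combination -(x * x + y * y) * h4 + d * h - z * z * h3
    rw [ivl_eq (h5.trans_ne hd0), sl_eq fun h6 => mul_ne_zero hd0 (pow_ne_zero 2 hC) (by
      linear_combination -h6 - (C 0 0 * C 1 1 - C 0 1 * C 1 0) ^ 2 * h5), mul_inv_eq_iff_eq_mul,
      ← map_mul pmk, ← map_mul pmk, eq_comm, pmk_eq_pmk_iff]
    simp only [GL2_mul_apply, mat_00, mat_01, mat_10, mat_11]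
    refine ⟨C 0 0 * C 1 1 - C 0 1 * C 1 0, ?_, ?_, ?_, ?_⟩ <;> ring

/-- The subfield case, after transport to matrices of trace zero. -/
theorem sub_core [Finite F] (h2 : (2 : F) ≠ 0) (k : Subfield F) {δ D : F} (hD : D ≠ 0)
    (hδ : δ ≠ 0) (P Q S : F → F → F → F)
    (hP : ∀ x y z, P x y z = x * P 1 0 0 + y * P 0 1 0 + z * P 0 0 1)
    (hQ : ∀ x y z, Q x y z = x * Q 1 0 0 + y * Q 0 1 0 + z * Q 0 0 1)
    (hS : ∀ x y z, S x y z = x * S 1 0 0 + y * S 0 1 0 + z * S 0 0 1)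
    (hB : ∀ x y z x' y' z', 2 * (P x y z * P x' y' z') + Q x y z * S x' y' z' +
      Q x' y' z' * S x y z = 2 * (D * (x * x' + y * y' + δ * (z * z'))))
    (T : F → F → F → Prop) (hN : ∀ x y z, T x y z → x * x + y * y + δ * (z * z) = 1)
    (hneg : ∀ x y z, T x y z → T (-x) (-y) (-z))
    (hnd : ∀ x y z x' y' z', T x y z → T x' y' z' → x * x' + y * y' + δ * (z * z') = 1 →
      x = x' ∧ y = y' ∧ z = z')
    (hrat : ∀ x y z, T x y z → sl (P x y z) (Q x y z) (S x y z) ∈ PGLsub k.subtype)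
    (hconj : ∀ x y z, T x y z → ∀ g ∈ PSLsub k.subtype, ∃ x' y' z', T x' y' z' ∧
      g * sl (P x y z) (Q x y z) (S x y z) * g⁻¹ = sl (P x' y' z') (Q x' y' z') (S x' y' z'))
    (ha : T 1 0 0) (hb : T 0 1 0) {x y : F} (hv : T x y 1) :
    x ∈ k ∧ y ∈ k ∧ δ ∈ k ∧ ∀ X ∈ k, ∀ Y ∈ k, ∀ t ∈ k, X * X + Y * Y + δ * (t * t) = 1 → T X Y t := by
  have h2' : (2 : k) ≠ 0 := fun h => h2 (by exact_mod_cast congrArg k.subtype h)
  have hd : ∀ {x y z}, x * x + y * y + δ * (z * z) = 1 →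
      P x y z * P x y z + Q x y z * S x y z = D := fun {x y z} h =>
    mul_left_cancel₀ h2 (by linear_combination hB x y z x y z + 2 * D * h)
  have hd' : ∀ {x y z}, T x y z → P x y z * P x y z + Q x y z * S x y z = D :=
    fun h => hd (hN _ _ _ h)
  have move : ∀ {x y z l : F} {p0 q0 s0 : k}, T x y z → P x y z = l * p0 → Q x y z = l * q0 →
      S x y z = l * s0 → ∀ p1 q1 s1 : k, p1 * p1 + q1 * s1 = p0 * p0 + q0 * s0 →
      ∃ x' y' z', T x' y' z' ∧ P x' y' z' = l * p1 ∧ Q x' y' z' = l * q1 ∧ S x' y' z' = l * s1 := by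
    intro x y z l p0 q0 s0 h hp hq hs p1 q1 s1 he
    have h3 := hd' h
    rw [hp, hq, hs] at h3
    have he' : (p1 : F) * p1 + q1 * s1 = p0 * p0 + q0 * s0 := by exact_mod_cast he
    have h4 : p0 * p0 + q0 * s0 ≠ 0 := fun h0 => hD (by
      have : (p0 : F) * p0 + q0 * s0 = 0 := by exact_mod_cast h0
      linear_combination l * l * this - h3)
    have h5 : l * p1 * (l * p1) + l * q1 * (l * s1) = D := by linear_combination h3 + l * l * he'
    obtain ⟨g, hg, h6⟩ := sl_isConj h2' h4 he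
    obtain ⟨x', y', z', h7, h8⟩ := hconj _ _ _ h _ (Subgroup.mem_map_of_mem (pmap k.subtype) hg)
    rw [hp, hq, hs, sl_smul (h3.trans_ne hD), ← k.coe_subtype, ← pmap_sl _ h4, ← map_inv, ← map_mul,
      ← map_mul, h6, pmap_sl _ (he.trans_ne h4), k.coe_subtype, ← sl_smul (h5.trans_ne hD)] at h8
    obtain ⟨μ, e1, e2, e3⟩ := exists_of_sl_eq ((hd' h7).trans_ne hD) (h5.trans_ne hD) h8.symm
    have h9 := hd' h7
    rw [e1, e2, e3] at h9
    rcases mul_self_eq_one_iff.1 (mul_left_cancel₀ hD (show D * (μ * μ) = D * 1 by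
      linear_combination h9 - μ * μ * h5)) with rfl | rfl
    · exact ⟨_, _, _, h7, by rw [e1, one_mul], by rw [e2, one_mul], by rw [e3, one_mul]⟩
    · exact ⟨_, _, _, hneg _ _ _ h7, by linear_combination hP (-x') (-y') (-z') + hP x' y' z' - e1,
        by linear_combination hQ (-x') (-y') (-z') + hQ x' y' z' - e2,
        by linear_combination hS (-x') (-y') (-z') + hS x' y' z' - e3⟩
  have nonsq : ∀ {x y z l : F} {p0 q0 s0 : k}, T x y z → P x y z = l * p0 → Q x y z = l * q0 →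
      S x y z = l * s0 → ¬ IsSquare (p0 * p0 + q0 * s0) := by
    rintro x y z l p0 q0 s0 h hp hq hs ⟨σ, hσ⟩
    obtain ⟨x1, y1, z1, t1, a1, b1, c1⟩ := move h hp hq hs σ 0 0 (by rw [hσ]; ring)
    obtain ⟨x2, y2, z2, t2, a2, b2, c2⟩ := move h hp hq hs σ 1 0 (by rw [hσ]; ring)
    have h3 := hB x1 y1 z1 x2 y2 z2
    have h4 := hd' t1
    rw [a1, b1, c1] at h3 h4
    rw [a2, b2, c2] at h3
    simp only [ZeroMemClass.coe_zero, OneMemClass.coe_one, mul_zero, add_zero] at h3 h4 b1 b2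
    obtain ⟨rfl, rfl, rfl⟩ := hnd _ _ _ _ _ _ t1 t2 (mul_left_cancel₀ (mul_ne_zero h2 hD)
      (by linear_combination 2 * h4 - h3))
    rw [b1, mul_one] at b2
    exact hD (by rw [← h4, ← b2]; ring)
  obtain ⟨l, p1, q1, s1, a1, b1, c1⟩ := sl_rat ((hd' ha).trans_ne hD) (hrat _ _ _ ha)
  have d1 := hd' ha
  rw [a1, b1, c1] at d1
  have one : ∀ {x y z}, T x y z →
      ∃ p q s : k, P x y z = l * p ∧ Q x y z = l * q ∧ S x y z = l * s := fun {x y z} h => by
    obtain ⟨m, p, q, s, a, b, c⟩ := sl_rat ((hd' h).trans_ne hD) (hrat _ _ _ h)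
    obtain ⟨τ, hτ⟩ := H29.isSquare_mul_of_not (nonsq ha a1 b1 c1) (nonsq h a b c)
    have hτ' : ((p1 : F) * p1 + q1 * s1) * (p * p + q * s) = τ * τ := by exact_mod_cast hτ
    have d := hd' h
    rw [a, b, c] at d
    have hl : l ≠ 0 := by rintro rfl; exact hD (by rw [← d1]; ring)
    have h3 : (τ : F) ≠ 0 := fun h0 => hD (mul_self_eq_zero.1 (by
      rw [h0] at hτ'
      linear_combination l * l * m * m * hτ' - D * d1 - (l * p1 * (l * p1) + l * q1 * (l * s1)) * d))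
    obtain ⟨ν, hν⟩ : ∃ ν : k, m = l * ν := by
      rcases mul_self_eq_mul_self_iff.1 (show m * τ * (m * τ) =
        l * (p1 * p1 + q1 * s1) * (l * (p1 * p1 + q1 * s1)) by
          linear_combination (p1 * p1 + q1 * s1 : F) * (d - d1) - m * m * hτ') with e | e
      · exact ⟨(p1 * p1 + q1 * s1) / τ, by push_cast; field_simp; linear_combination e⟩
      · exact ⟨-(p1 * p1 + q1 * s1) / τ, by push_cast; field_simp; linear_combination e⟩
    exact ⟨ν * p, ν * q, ν * s, by rw [a, hν]; push_cast; ring, by rw [b, hν]; push_cast; ring,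
      by rw [c, hν]; push_cast; ring⟩
  obtain ⟨p2, q2, s2, a2, b2, c2⟩ := one hb
  obtain ⟨p3, q3, s3, a3, b3, c3⟩ := one hv
  have h3 : (p1 * p1 + q1 * s1 : F) + (p1 * p1 + q1 * s1) ≠ 0 := fun h0 =>
    mul_ne_zero h2 hD (by linear_combination l * l * h0 - 2 * d1)
  have hl : l * l ≠ 0 := fun h0 => hD (by linear_combination (p1 * p1 + q1 * s1 : F) * h0 - d1)
  have hx : x ∈ k := by
    have h4 := hB x y 1 1 0 0
    rw [a1, b1, c1, a3, b3, c3] at h4
    convert ((p3 * p1 + p3 * p1 + q3 * s1 + q1 * s3) / (p1 * p1 + q1 * s1 + (p1 * p1 + q1 * s1))).2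
    push_cast
    rw [eq_div_iff h3]
    exact mul_left_cancel₀ hl (by linear_combination 2 * x * d1 - h4)
  have hy : y ∈ k := by
    have h4 := hB x y 1 0 1 0
    rw [a2, b2, c2, a3, b3, c3] at h4
    convert ((p3 * p2 + p3 * p2 + q3 * s2 + q2 * s3) / (p1 * p1 + q1 * s1 + (p1 * p1 + q1 * s1))).2
    push_cast
    rw [eq_div_iff h3]
    exact mul_left_cancel₀ hl (by linear_combination 2 * y * d1 - h4)
  refine ⟨hx, hy, ?_, fun X hX Y hY t ht h => ?_⟩
  · rw [show δ = 1 - x * x - y * y by linear_combination hN _ _ _ hv]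
    exact k.sub_mem (k.sub_mem k.one_mem (k.mul_mem hx hx)) (k.mul_mem hy hy)
  lift x to k using hx
  lift y to k using hy
  lift X to k using hX
  lift Y to k using hY
  lift t to k using ht
  have e1 : P X Y t = l * (X * p1 + Y * p2 + t * (p3 - x * p1 - y * p2) : k) := by
    push_cast
    linear_combination hP X Y t + (X - t * x : F) * a1 + (Y - t * y : F) * a2 + t * a3 -
      t * hP x y 1
  have e2 : Q X Y t = l * (X * q1 + Y * q2 + t * (q3 - x * q1 - y * q2) : k) := by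
    push_cast
    linear_combination hQ X Y t + (X - t * x : F) * b1 + (Y - t * y : F) * b2 + t * b3 -
      t * hQ x y 1
  have e3 : S X Y t = l * (X * s1 + Y * s2 + t * (s3 - x * s1 - y * s2) : k) := by
    push_cast
    linear_combination hS X Y t + (X - t * x : F) * c1 + (Y - t * y : F) * c2 + t * c3 -
      t * hS x y 1
  have e4 := hd h
  rw [e1, e2, e3] at e4
  obtain ⟨x', y', z', h4, f1, f2, f3⟩ := move ha a1 b1 c1
    (X * p1 + Y * p2 + t * (p3 - x * p1 - y * p2)) (X * q1 + Y * q2 + t * (q3 - x * q1 - y * q2))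
    (X * s1 + Y * s2 + t * (s3 - x * s1 - y * s2)) (Subtype.ext (mul_left_cancel₀ hl (by
      push_cast at e4 ⊢
      linear_combination e4 - d1)))
  rw [← e1] at f1
  rw [← e2] at f2
  rw [← e3] at f3
  have h5 : ∀ a b c, 2 * (D * (x' * a + y' * b + δ * (z' * c))) =
      2 * (D * (X * a + Y * b + δ * (t * c))) := fun a b c => by rw [← hB, f1, f2, f3, hB]
  have h6 := mul_ne_zero h2 hD
  rw [← mul_left_cancel₀ h6 (show 2 * D * x' = 2 * D * X by linear_combination h5 1 0 0),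
    ← mul_left_cancel₀ h6 (show 2 * D * y' = 2 * D * Y by linear_combination h5 0 1 0),
    ← mul_left_cancel₀ (mul_ne_zero h6 hδ)
      (show 2 * D * δ * z' = 2 * D * δ * t by linear_combination h5 0 0 1)]
  exact h4

/-- The values of `4 cos²` in `S₄`. -/
def TyS (s : F) : Prop := s = 0 ∨ s = 1 ∨ s = 2 ∨ s = 4

/-- The values of `4 cos²` in `A₅`. -/
def TyA (s : F) : Prop := s = 0 ∨ s = 1 ∨ s = 4 ∨ s * s - 3 * s + 1 = 0

theorem tyS_of_mem [Finite F] {k : Subfield F} (hk : Nat.card k = 3) {s : F} (hs : s ∈ k) :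
    TyS s := by
  have := Fintype.ofFinite k
  rw [Nat.card_eq_fintype_card] at hk
  have h1 := FiniteField.pow_card (⟨s, hs⟩ : k)
  have h2 := FiniteField.cast_card_eq_zero k
  rw [hk] at h1 h2
  have h3 : s ^ 3 = s := congrArg Subtype.val h1
  have h4 : (3 : F) = 0 := by
    have := congrArg k.subtype h2
    rw [map_natCast, map_zero] at this
    exact_mod_cast this
  rcases mul_eq_zero.1 (show s * ((s - 1) * (s - 2)) = 0 by
    linear_combination h3 + (s - s * s) * h4) with h | h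
  · exact Or.inl h
  · exact Or.inr ((mul_eq_zero.1 h).imp sub_eq_zero.1 fun h => Or.inl (sub_eq_zero.1 h))

/-- Dickson's theorem for reflection-closed sets of unit vectors without degenerate pairs. -/
theorem t3 [Finite F] (h2 : (2 : F) ≠ 0) {δ : F} (hδ : δ ≠ 0) (T : F → F → F → Prop)
    (hN : ∀ x y z, T x y z → x * x + y * y + δ * (z * z) = 1)
    (hR : ∀ x y z x' y' z' κ, T x y z → T x' y' z' →
      κ = 2 * (x * x' + y * y' + δ * (z * z')) → T (x' - κ * x) (y' - κ * y) (z' - κ * z))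
    (hneg : ∀ x y z, T x y z → T (-x) (-y) (-z))
    (hnd : ∀ x y z x' y' z', T x y z → T x' y' z' → x * x' + y * y' + δ * (z * z') = 1 →
      x = x' ∧ y = y' ∧ z = z')
    (ha : T 1 0 0) (hb : T 0 1 0) {x y : F} (hv : T x y 1) (hx : x ≠ 0) (hy : y ≠ 0) :
    (∀ x y z, T x y z → TyS (4 * (x * x)) ∧ TyS (4 * (y * y))) ∨
    (∀ x y z, T x y z → TyA (4 * (x * x)) ∧ TyA (4 * (y * y))) ∨
    ∃ k : Subfield F, 3 < Nat.card k ∧ x ∈ k ∧ y ∈ k ∧ δ ∈ k ∧
      ∀ X ∈ k, ∀ Y ∈ k, ∀ t ∈ k, X * X + Y * Y + δ * (t * t) = 1 → T X Y t := by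
  obtain ⟨α, β, h0⟩ := exists_binary h2 one_ne_zero one_ne_zero (-1 / δ)
  rw [one_mul, one_mul] at h0
  have h0' : α * α + β * β ≠ 0 := h0 ▸ div_ne_zero (neg_ne_zero.2 one_ne_zero) hδ
  have hd : 1 / δ ≠ 0 := div_ne_zero one_ne_zero hδ
  have hD : ∀ {x y z}, x * x + y * y + δ * (z * z) = 1 →
      z * z - (α * α + β * β) * (x * x + y * y) = 1 / δ := fun h => by
    rw [h0]; field_simp; linear_combination h
  have hD' : ∀ {x y z}, T x y z → z * z - (α * α + β * β) * (x * x + y * y) ≠ 0 :=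
    fun h => hD (hN _ _ _ h) ▸ hd
  let S : Set PGL(2, F) := {g | ∃ x y z, T x y z ∧ g = ivl α β x y z}
  have hS : ∀ {x y z}, T x y z → ∀ g ∈ S, ivl α β x y z * g * (ivl α β x y z)⁻¹ ∈ S := by
    rintro x y z h _ ⟨x', y', z', h', rfl⟩
    refine ⟨_, _, _, hR _ _ _ _ _ _ _ h h' rfl, ivl_conj hd (hD (hN _ _ _ h)) (hD (hN _ _ _ h')) ?_⟩
    rw [h0]; field_simp; ring
  have hL : ∀ {x y z}, T x y z → ivl α β x y z ∈ Subgroup.normalizer S := fun h g =>
    ⟨hS h g, fun hg => by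
      have := hS h _ hg
      rwa [inv_eq_of_mul_eq_one_right ivl_mul_self, ← mul_assoc, ← mul_assoc, ivl_mul_self,
        one_mul, mul_assoc, ivl_mul_self, mul_one] at this⟩
  have hne : ∀ {x y z x' y' z'}, z * z - (α * α + β * β) * (x * x + y * y) ≠ 0 → T x' y' z' →
      (∀ μ, x = μ * x' → y = μ * y' → z ≠ μ * z') → ivl α β x y z * ivl α β x' y' z' ≠ 1 :=
    fun h h' h1 he => by
      obtain ⟨μ, h4, h5, h6⟩ := exists_of_ivl_eq h2 h0' h (hD' h')
        (by rw [eq_inv_of_mul_eq_one_left he, inv_eq_of_mul_eq_one_right ivl_mul_self])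
      exact h1 μ h4 h5 h6
  have hsq : ∀ {x' y' z'}, z' * z' - (α * α + β * β) * (x' * x' + y' * y') ≠ 0 →
      (∀ μ, x' = μ * x → y' = μ * y → z' ≠ μ * 1) →
      z' * 1 - (α * α + β * β) * (x' * x + y' * y) ≠ 0 →
      ivl α β x' y' z' * ivl α β x y 1 * (ivl α β x' y' z' * ivl α β x y 1) ≠ 1 :=
    fun h h1 h4 => by
      rw [Ne, mul_self_eq_one_iff_tri (hne h hv h1), tri_ivl_mul h (hD' hv)]
      exact div_ne_zero (pow_ne_zero _ (mul_ne_zero h2 h4)) (mul_ne_zero h (hD' hv))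
  have h1 : (1 : F) * 1 - (α * α + β * β) * (0 * 0 + 0 * 0) ≠ 0 := by simp
  have hab : ivl α β 1 0 0 * ivl α β 0 1 0 = ivl α β 0 0 1 := by
    rw [ivl_eq (hD' ha), ivl_eq (hD' hb), ivl_eq h1, ← map_mul, pmk_eq_pmk_iff]
    simp only [GL2_mul_apply, mat_00, mat_01, mat_10, mat_11]
    refine ⟨α * α + β * β, ?_, ?_, ?_, ?_⟩ <;> ring
  have key : ∀ p : F → Prop, (∀ g ∈ Subgroup.normalizer S, p (tri g)) →
      ∀ x y z, T x y z → p (4 * (x * x)) ∧ p (4 * (y * y)) := fun p hp x y z h => by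
    have h3 := hp _ (Subgroup.mul_mem _ (hL h) (hL ha))
    have h4 := hp _ (Subgroup.mul_mem _ (hL h) (hL hb))
    rw [tri_ivl_mul (hD' h) (hD' ha), hD (hN _ _ _ h), hD (hN _ _ _ ha), h0] at h3
    rw [tri_ivl_mul (hD' h) (hD' hb), hD (hN _ _ _ h), hD (hN _ _ _ hb), h0] at h4
    exact ⟨by convert h3 using 1; field_simp; ring, by convert h4 using 1; field_simp; ring⟩
  rcases pgl_cases h2 _ (hL ha) (hL hb) (hL hv) (ivl_ne_one h2 (hD' ha))
    (ivl_ne_one h2 (hD' hb)) ivl_mul_self ivl_mul_self ivl_mul_self (hab ▸ ivl_ne_one h2 h1)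
    (hab ▸ ivl_mul_self) (hsq (hD' ha) (fun μ h h' _ => by
      simp [(mul_eq_zero.1 h'.symm).resolve_right hy] at h) (by simp [hx, h0']))
    (hsq (hD' hb) (fun μ h h' _ => by
      simp [(mul_eq_zero.1 h.symm).resolve_right hx] at h') (by simp [hy, h0']))
    (hab ▸ hsq h1 (fun μ h h' h'' => by
      simp [(mul_eq_zero.1 h.symm).resolve_right hx] at h'') (by simp)) with H | H | ⟨c, k, hk, H, H'⟩
  · refine Or.inl (key _ fun g hg => ?_)
    by_cases h3 : g = 1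
    · exact Or.inr (Or.inr (Or.inr (h3 ▸ tri_one)))
    · have h4 := H g hg
      rw [cube_eq_one_iff_tri h3, pow_four_eq_one_iff_tri h3] at h4
      unfold TyS
      tauto
  · refine Or.inr (Or.inl (key _ fun g hg => ?_))
    by_cases h3 : g = 1
    · exact Or.inr (Or.inr (Or.inl (h3 ▸ tri_one)))
    · have h4 := H g hg
      rw [sq_eq_one_iff_tri h3, cube_eq_one_iff_tri h3, pow_five_eq_one_iff_tri h3, sq] at h4
      unfold TyA
      tauto
  rcases hk.eq_or_lt with hk | hk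
  · exact Or.inl (key _ fun g hg => tyS_of_mem hk.symm (tri_mem_of_map_conj_le H' hg))
  obtain ⟨p1, p2, p3, q1, q2, q3, s1, s2, s3, D, hD0, hB, hc⟩ := conj_ivl c hδ h0
  refine Or.inr (Or.inr ⟨k, hk, sub_core h2 k hD0 hδ (fun x y z => x * p1 + y * p2 + z * p3)
    (fun x y z => x * q1 + y * q2 + z * q3) (fun x y z => x * s1 + y * s2 + z * s3)
    (fun _ _ _ => by ring) (fun _ _ _ => by ring) (fun _ _ _ => by ring) hB T hN hneg hnd
    (fun x y z h => ?_) (fun x y z h g hg => ?_) ha hb hv⟩)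
  · rw [← hc _ _ _ (hN _ _ _ h)]
    exact H' (conj_mem_map_conj_iff.2 (hL h))
  · obtain ⟨x', y', z', h3, h4⟩ := (mem_map_conj_iff.1 (H hg) _).1 ⟨_, _, _, h, rfl⟩
    refine ⟨x', y', z', h3, ?_⟩
    rw [← hc _ _ _ (hN _ _ _ h), ← hc _ _ _ (hN _ _ _ h3), ← h4]
    group

end Cfsg.Agent.H80.ND
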