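import Cfsg.Agent.H6.TBDefs
import Cfsg.Agent.H83.Cores

/-!
# Abelian TI `2`-subgroups: without exceptional configurations there are no edges
-/

set_option autoImplicit false

namespace Cfsg.Agent.H80.TbY

open Cfsg Subgroup Cfsg.Agent.H6.TB
open Cfsg.Agent.H83 (cj)
open scoped Cfsg.Agent.H63 commutatorElement

universe u

variable {G : Type u} [Group G] [Finite G] {Ω : Set (Subgroup G)}

/-- the join of the `om X` inside `W` -/
def gen (Ω : Set (Subgroup G)) (W : Subgroup G) : Subgroup G :=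
  closure {a | ∃ X ∈ Ω, om X ≤ W ∧ a ∈ om X}

theorem exists_ne_one (h : C1 Ω) {P : Subgroup G} (hP : P ∈ Ω) : ∃ a ∈ om P, a ≠ 1 := by
  have h4 := h.four P hP
  by_contra hn
  push Not at hn
  have : om P = ⊥ := (eq_bot_iff_forall _).2 hn
  rw [this, card_bot] at h4
  omega

theorem ad_of_comm (h : C1 Ω) {P Q : Subgroup G} (hP : P ∈ Ω) (hQ : Q ∈ Ω)
    (hc : ∀ a ∈ om P, ∀ b ∈ om Q, a * b = b * a) : P = Q ∨ Ad Ω P Q := by
  obtain ⟨a, ha, a1⟩ := exists_ne_one h hP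
  exact ad_of hP hQ (om_le P ha) a1 (h.la.com Q hQ fun b hb => (hc a ha b hb).symm)

theorem comm_of_ad (h : C1 Ω) {P Q : Subgroup G} (hP : P ∈ Ω) (e : P = Q ∨ Ad Ω P Q) :
    ∀ a ∈ om P, ∀ b ∈ om Q, a * b = b * a := by
  rcases e with rfl | e
  · exact fun a ha b hb => h.comm P hP a (om_le P ha) b (om_le P hb)
  · exact h.le.adc e

theorem mem_norm_of_conj {W : Subgroup G} {t : G} (ht : cj t W ≤ W) : t ∈ N[W] :=
  H83.cj_eq_self_iff.1 (eq_of_le_of_card_ge ht (H83.card_cj t W).ge)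

/-- (1): inside a `2`-group the groups `om X` commute -/
theorem one (h : C1 Ω) (hx : ∀ R P Q, ¬ XC Ω R P Q) {T P P' : Subgroup G} (hT : IsPGroup 2 T)
    (hP : P ∈ Ω) (hP' : P' ∈ Ω) (h1 : om P ≤ T) (h2 : om P' ≤ T) : P = P' ∨ Ad Ω P P' := by
  classical
  haveI : Fact (Nat.Prime 2) := ⟨Nat.prime_two⟩
  let good : Subgroup G → Prop := fun W =>
    om P ≤ W ∧ W ≤ T ∧ (∀ a ∈ W, ∀ b ∈ W, a * b = b * a) ∧ W ≤ gen Ω W
  have g0 : good (om P) := ⟨le_rfl, h1, comm_of_ad h hP (Or.inl rfl), fun a ha =>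
    subset_closure ⟨P, hP, le_rfl, ha⟩⟩
  obtain ⟨W, -, hW⟩ := Finite.exists_le_maximal g0
  obtain ⟨w1, w2, w3, w4⟩ := hW.prop
  have key : ∀ X ∈ Ω, om X ≤ T → om X ≤ N[W] → om X ≤ W := by
    intro X hX x1 x2
    have c1 : ∀ Y ∈ Ω, om Y ≤ W → ∀ a ∈ om Y, ∀ b ∈ om X, a * b = b * a := by
      intro Y hY y1
      refine comm_of_ad h hY ?_
      by_contra hn
      push Not at hn
      obtain ⟨R, hR⟩ := h.lx Y hY X hX hn.1 hn.2 fun g hg a ha b hb =>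
        w3 _ (y1 ha) _ (H83.conj_mem x2 hg (y1 hb))
      exact hx _ _ _ hR
    have c2 : W ≤ C[om X] := by
      refine w4.trans ((closure_le _).2 ?_)
      rintro a ⟨Y, hY, y1, ha⟩ b hb
      exact (c1 Y hY y1 a ha b hb).symm
    have c3 : W ⊔ om X ≤ C[W ⊔ om X] := by
      rw [H83.centralizer_sup]
      refine le_inf (sup_le (fun a ha b hb => w3 b hb a ha) (le_centralizer_iff.1 c2))
        (sup_le c2 fun a ha b hb => comm_of_ad h hX (Or.inl rfl) b hb a ha)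
    have g1 : good (W ⊔ om X) := by
      refine ⟨w1.trans le_sup_left, sup_le w2 x1, fun a ha b hb => c3 hb a ha, sup_le
        (w4.trans (closure_mono ?_)) fun a ha => subset_closure ⟨X, hX, le_sup_right, ha⟩⟩
      rintro a ⟨Y, hY, y1, ha⟩
      exact ⟨Y, hY, y1.trans le_sup_left, ha⟩
    exact le_sup_right.trans (hW.le_of_ge g1 le_sup_left)
  have wN : W ≤ T ⊓ N[W] := le_inf w2 le_normalizer
  have hTN : T ≤ N[W] := by
    by_contra hne
    obtain ⟨t, ht, ht'⟩ := SetLike.exists_of_lt (H83.lt_inf_normalizer hT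
      (lt_of_le_of_ne (inf_le_left : T ⊓ N[W] ≤ T) fun e => hne (e.ge.trans inf_le_right)))
    refine ht' ⟨ht.1, mem_norm_of_conj ?_⟩
    refine (H83.cj_mono t w4).trans ?_
    rw [gen, H83.cj_closure, closure_le]
    rintro _ ⟨a, ⟨Y, hY, y1, ha⟩, rfl⟩
    have y2 : om (cj t Y) ≤ T ⊓ N[W] := by
      rw [om_cj]
      exact H83.cj_le_of_norm (y1.trans wN) ht.2
    refine key _ (h.conj Y hY t) (y2.trans inf_le_left) (y2.trans inf_le_right) ?_
    rw [om_cj]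
    exact H83.conj_mem_cj ha
  have h3 := key P' hP' h2 (h2.trans hTN)
  exact ad_of_comm h hP hP' fun a ha b hb => w3 a (w1 ha) b (h3 hb)

theorem conj_pow_eq {ρ y d : G} (e : ρ * y * ρ⁻¹ = y * d) (hd : ρ * d = d * ρ) (k : ℕ) :
    ρ ^ k * y * (ρ ^ k)⁻¹ = y * d ^ k := by
  induction k with
  | zero => simp
  | succ k ih =>
    have c : Commute ρ d := hd
    calc ρ ^ (k + 1) * y * (ρ ^ (k + 1))⁻¹ = ρ * (ρ ^ k * y * (ρ ^ k)⁻¹) * ρ⁻¹ := by
          rw [pow_succ']; group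
      _ = ρ * y * ρ⁻¹ * (ρ * d ^ k * ρ⁻¹) := by rw [ih]; group
      _ = y * d ^ (k + 1) := by
          rw [e, (c.pow_right k).eq, pow_succ']; group

theorem comm_of_odd {ρ y d : G} {T : Subgroup G} (hT : IsPGroup 2 T) (hdT : d ∈ T)
    (ho : Odd (orderOf ρ)) (e : ρ * y * ρ⁻¹ = y * d) (hd : ρ * d = d * ρ) : ρ * y = y * ρ := by
  have h1 := conj_pow_eq e hd (orderOf ρ)
  rw [pow_orderOf_eq_one, one_mul, inv_one, mul_one, left_eq_mul] at h1
  have h2 : d = 1 := H83.eq_one_of_mem_pgroup hT hdT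
    (Nat.Coprime.coprime_dvd_left (orderOf_dvd_of_pow_eq_one h1) (Nat.coprime_two_right.2 ho))
  rw [h2, mul_one] at e
  exact mul_inv_eq_iff_eq_mul.1 e

section Two

variable (h : C1 Ω) (hn : ∀ P Q, Ad Ω P Q → Nc Ω P Q) (hx : ∀ R P Q, ¬ XC Ω R P Q)
  {B B1 : Subgroup G} (e : Nc Ω B B1)

omit [Finite G] in
include h e in
theorem omN : om B1 ≤ N[B] := (le_sup_right : om B1 ≤ vv B B1).trans (h.le.vle e.toAd)

omit [Finite G] in
include h e in
theorem conj_Q {a y : G} (ha : a ∈ om B1) (hy : y ∈ oo B ⊓ C[B]) : a * y * a⁻¹ ∈ oo B ⊓ C[B] :=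
  H83.conj_mem (H83.le_norm_inf (h.gb.nrm B e.l) (H83.le_norm_cent le_rfl)) (omN h e ha) hy

include h hx e in
theorem ad_conj {y : G} (hy : y ∈ oo B) : B1 = cj y B1 ∨ Ad Ω B1 (cj y B1) := by
  have hT := h.gb.sup B e.l (om B1) ((h.two B1 e.r).to_le (om_le B1)) (omN h e)
  refine one h hx hT e.r (h.conj _ e.r y) le_sup_right ?_
  rw [om_cj]
  exact H83.cj_le_of_mem le_sup_right (mem_sup_left hy)

include h hx e in
theorem sq_comm {a y : G} (ha : a ∈ om B1) (hy : y ∈ oo B) : ⁅y, a⁆ * ⁅y, a⁆ = 1 := by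
  have h1 : y * a * y⁻¹ ∈ om (cj y B1) := by rw [om_cj]; exact H83.conj_mem_cj ha
  have h2 := comm_of_ad h e.r (ad_conj h hx e hy) a⁻¹ (inv_mem ha) _ h1
  have h3 := ((h.la.mem_om _ e.r a).1 ha).2
  calc ⁅y, a⁆ * ⁅y, a⁆ = y * a * y⁻¹ * (a⁻¹ * (y * a * y⁻¹)) * a⁻¹ := by
        simp only [commutatorElement_def, mul_assoc]
    _ = y * (a * a) * y⁻¹ * (a * a)⁻¹ := by rw [h2]; group
    _ = 1 := by rw [h3]; group

include h hn hx e in
theorem inv_comm {a w : G} (ha : a ∈ om B1) (hw : w ∈ oo B ⊓ C[B]) (w2 : w * w = 1) :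
    ⁅w, a⁆ ∈ om B := by
  rcases ad_conj h hx e hw.1 with e1 | e1
  · have h1 := (h.lb.tl e w hw.2 (H83.cj_eq_self_iff.1 e1.symm)).1 a (mem_sup_right ha)
    rw [commutatorElement_eq_one_iff_mul_comm.2 h1.symm]
    exact one_mem _
  obtain ⟨R, s, r1, r2, r3, -, r5, r6⟩ := h.lb.sw2 B1 e.r w w2 (hn _ _ e1)
  have wB : w ∈ N[B] := centralizer_le_normalizer _ hw.2
  have c1 : vv B1 (cj w B1) ≤ C[om B] := by
    refine sup_le (fun b hb c hc => h.le.adc e.toAd c hc b hb) fun b hb c hc => ?_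
    exact h.le.adc (e.toAd.cjN h.toTB wB) c hc b hb
  have brk : w ∈ C[om R] → ⁅w, a⁆ ∈ om R := fun hc => by
    have h2 := r6 hc a ha
    rw [commutatorElement_def, h2]
    exact h.le.brk r1.toAd s r3 a (mem_sup_right ha)
  rcases ad_of_comm h e.l r1.l (fun c hc b hb => c1 (r2 hb) c hc) with e2 | e2
  · subst e2
    exact brk (centralizer_le (om_le _) hw.2)
  · have e3 := hn _ _ e2
    have h3 := (h.lb.tl e3 w hw.2 r5).1
    have h4 := brk (centralizer_le (le_sup_right : om R ≤ vv B R) h3)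
    by_contra h5
    obtain ⟨x, hxB, x2⟩ := h.nel B e.l
    have h6 : ⁅w, a⁆ ∈ C[B] := by
      rw [commutatorElement_def, mul_assoc, mul_assoc, ← mul_assoc a]
      exact mul_mem hw.2 (conj_Q h e ha (inv_mem hw)).2
    exact x2 ((h.la.mem_om _ e.l x).1 (h.le.cA e3 x hxB _ (mem_sup_right h4) h5 (h6 x hxB))).2

include h hn hx e in
/-- (2) -/
theorem two : om B1 ≤ oo B := by
  intro a ha
  have a2 := ((h.la.mem_om _ e.r a).1 ha).2
  refine h.gb.bs B e.l a (fun b hb => h.le.adc e.toAd b hb a ha) a2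
    (fun x hxB => h.le.brk e.toAd x hxB a (mem_sup_right ha)) fun m hm ρ hρ ho hC y y1 y2 => ?_
  have e' := e.cjN h.toTB hm
  have ha' : m * a * m⁻¹ ∈ om (cj m B1) := by rw [om_cj]; exact H83.conj_mem_cj ha
  set a' := m * a * m⁻¹
  have aC : ∀ b ∈ om B, b * a = a * b := fun b hb => h.le.adc e.toAd b hb a ha
  have inv : ∀ w ∈ oo B ⊓ C[B], w * w = 1 → ρ * w = w * ρ := by
    intro w hw w2
    have wi : w⁻¹ * w⁻¹ = 1 := by rw [← mul_inv_rev, w2, inv_one]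
    have k1 := inv_comm h hn hx e ha (inv_mem hw) wi
    have k2 := inv_comm h hn hx e' ha' (inv_mem hw) wi
    refine comm_of_odd (h.two B e.l) (om_le B (mul_mem k1 k2)) ho ?_
      (hC _ (om_le B (mul_mem k1 k2))).symm
    calc ρ * w * ρ⁻¹ = a * (w * ⁅w⁻¹, a'⁆) * a⁻¹ := by
          rw [hρ, commutatorElement_def]; group
      _ = a * w * (⁅w⁻¹, a'⁆ * a) * a⁻¹ * a⁻¹ := by group
      _ = w * (⁅w⁻¹, a⁆ * ⁅w⁻¹, a'⁆) := by
          have k3 : ⁅w⁻¹, a'⁆ * a⁻¹ = a⁻¹ * ⁅w⁻¹, a'⁆ :=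
            (show Commute _ _ from aC _ k2).inv_right.eq
          calc a * w * (⁅w⁻¹, a'⁆ * a) * a⁻¹ * a⁻¹ = a * w * (⁅w⁻¹, a'⁆ * a⁻¹) := by group
            _ = _ := by rw [k3, commutatorElement_def w⁻¹ a]; group
  have hy : y ∈ oo B ⊓ C[B] := ⟨y1, y2⟩
  have memc : ∀ {b : G}, b * y * b⁻¹ ∈ oo B ⊓ C[B] → ⁅y⁻¹, b⁆ ∈ oo B ⊓ C[B] := fun {b} hb => by
    rw [commutatorElement_def, inv_inv, mul_assoc, mul_assoc, ← mul_assoc b]
    exact mul_mem (inv_mem hy) hb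
  have m1 := memc (conj_Q h e ha hy)
  have m2 := conj_Q h e ha (memc (conj_Q h e' ha' hy))
  have s1 := sq_comm h hx e ha (inv_mem y1)
  have s2 : a * ⁅y⁻¹, a'⁆ * a⁻¹ * (a * ⁅y⁻¹, a'⁆ * a⁻¹) = 1 := by
    calc _ = a * (⁅y⁻¹, a'⁆ * ⁅y⁻¹, a'⁆) * a⁻¹ := by group
      _ = 1 := by rw [sq_comm h hx e' ha' (inv_mem y1)]; group
  refine comm_of_odd (h.gb.two B e.l) (mul_mem m1 m2).1 ho ?_
    (Commute.mul_right (inv _ m1 s1) (inv _ m2 s2)).eq
  rw [hρ]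
  simp only [commutatorElement_def]
  group

end Two

theorem y : YStmt.{u} := by
  intro G _ _ Ω h hn hx B B1 e
  let W : Subgroup G := closure {a | ∃ X, (X = B ∨ Ad Ω B X) ∧ a ∈ om X}
  have mem : ∀ X, X = B ∨ Ad Ω B X → X ∈ Ω ∧ om X ≤ oo B := by
    rintro X (rfl | e1)
    · exact ⟨e.l, (om_le _).trans (h.gb.pt _ e.l)⟩
    · exact ⟨e1.r, two h hn hx (hn _ _ e1)⟩
  have w1 : W ≤ oo B := (closure_le _).2 fun a ⟨X, h1, ha⟩ => (mem X h1).2 ha
  have w2 : W ≠ ⊥ := by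
    obtain ⟨a, ha, a1⟩ := exists_ne_one h e.l
    exact fun e0 => a1 (mem_bot.1 (e0.le (subset_closure ⟨B, Or.inl rfl, ha⟩)))
  have w3 : N[B] ≤ N[W] := fun m hm => mem_norm_of_conj (by
    rw [H83.cj_closure, closure_le]
    rintro _ ⟨a, ⟨X, h1, ha⟩, rfl⟩
    refine subset_closure ⟨cj m X, ?_, by rw [om_cj]; exact H83.conj_mem_cj ha⟩
    rcases h1 with rfl | h1
    · exact Or.inl (H83.cj_eq_self hm)
    · exact Or.inr (h1.cjN h.toTB hm))
  have w4 := h.gm.max B e.l W ((h.gb.two B e.l).to_le w1) w2 w3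
  have w5 : B1 ≤ N[W] := fun x hxB => mem_norm_of_conj (by
    rw [H83.cj_closure, closure_le]
    rintro _ ⟨a, ⟨X, h1, ha⟩, rfl⟩
    have aW : a ∈ W := subset_closure ⟨X, h1, ha⟩
    change x * a * x⁻¹ ∈ W
    rcases one h hx (h.gb.two B e.l) e.r (mem X h1).1 (mem B1 (Or.inr e)).2 (mem X h1).2 with
      rfl | e1
    · rw [h.comm _ e.r x hxB a (om_le _ ha), mul_inv_cancel_right]
      exact aW
    · have h2 : ⁅x, a⁆ ∈ W :=
        subset_closure ⟨B1, Or.inr e, h.le.brk e1 x hxB a (mem_sup_right ha)⟩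
      have h3 := mul_mem h2 aW
      rwa [commutatorElement_def, inv_mul_cancel_right] at h3)
  obtain ⟨x, hxB, x2⟩ := h.nel B1 e.r
  have h4 : x ∈ om B1 := (h.le.ax (hn _ _ (h.la.symm e))).le ⟨hxB, w4 (w5 hxB)⟩
  exact x2 ((h.la.mem_om _ e.r x).1 h4).2

end Cfsg.Agent.H80.TbY
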